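import Cfsg.Agent.U7.Bas
import Cfsg.Agent.Char.Frobenius

/-!
# The Frobenius alternative
-/

set_option autoImplicit false
set_option linter.unusedSectionVars false

namespace Cfsg.Agent.U7

open Cfsg.Agent.Class.U Cfsg.Agent.Char
open scoped ComplexConjugate Pointwise

/-- a fixed point free automorphism of prime order normalises a non-trivial Sylow subgroup -/
theorem b1_syl {R : Type*} [Group R] [Finite R] [Nontrivial R] (α : MulAut R) {l : ℕ} (hl : l.Prime)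
    (h : α ^ l = 1) (f : ∀ x, α x = x → x = 1) :
    ∃ (r : ℕ) (P : Subgroup R), r.Prime ∧ IsPGroup r P ∧ P ≠ ⊥ ∧ ∀ x ∈ P, α x ∈ P := by
  have := Fact.mk hl
  have hA : IsPGroup l (Subgroup.zpowers α) := by
    rintro ⟨_, k, rfl⟩
    refine ⟨1, Subtype.ext ?_⟩
    change (α ^ k) ^ _ = 1
    rw [pow_one, ← zpow_natCast, ← zpow_mul, mul_comm, zpow_mul, zpow_natCast, h, one_zpow]
  have c : ¬ l ∣ Nat.card R := fun c => by
    have k := hA.card_modEq_card_fixedPoints R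
    have e : MulAction.fixedPoints (Subgroup.zpowers α) R = {1} := Set.eq_singleton_iff_unique_mem.2
      ⟨fun g => map_one g.1, fun x hx => f x (hx ⟨α, Subgroup.mem_zpowers α⟩)⟩
    rw [e, Nat.card_coe_set_eq, Set.ncard_singleton] at k
    exact hl.not_dvd_one ((k.dvd_iff dvd_rfl).1 c)
  obtain ⟨r, hr, hd⟩ := Nat.exists_prime_and_dvd (n := Nat.card R) Finite.one_lt_card.ne'
  have := Fact.mk hr
  obtain ⟨Q⟩ : Nonempty (Sylow r R) := inferInstance
  obtain ⟨P, hP⟩ := hA.nonempty_fixed_point_of_prime_not_dvd_card (Sylow r R) fun k =>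
    c ((k.trans Q.card_dvd_index).trans (Subgroup.index_dvd_card _))
  refine ⟨r, P, hr, P.isPGroup', P.ne_bot_of_dvd_card hd, fun x hx => ?_⟩
  have e : α • P = P := hP ⟨α, Subgroup.mem_zpowers α⟩
  have k := Subgroup.smul_mem_pointwise_smul x α P hx
  rwa [← Sylow.pointwise_smul_def, e] at k

/-- the case `Z = 1` -/
theorem b1_frob {H : Type*} [Group H] [Finite H] {S : Subgroup H} {σ : H}
    (comm : ∀ a ∈ S, ∀ b ∈ S, a * b = b * a) (pow7 : σ ^ 7 = 1)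
    (fpf : ∀ i : ℕ, 0 < i → i < 7 → ∀ s ∈ S, σ ^ i * s = s * σ ^ i → s = 1)
    (ti : ∀ g : H, ∀ s ∈ S, s ≠ 1 → g * s * g⁻¹ ∈ S → ∃ u ∈ S, ∃ i : ℕ, g = u * σ ^ i)
    {l : ℕ} (hl : l.Prime) {t : H} (ht : t ∈ S) (t1 : t ≠ 1) (tl : t ^ l = 1) :
    (∀ g : H, ∃ u ∈ S, ∃ i : ℕ, g = u * σ ^ i) ∨ Subgroup.normalClosure (S : Set H) = ⊤ ∨
    ∃ (r : ℕ) (P : Subgroup H), r.Prime ∧ IsPGroup r P ∧ P ≠ ⊥ ∧
      (∀ x ∈ P, t * x * t⁻¹ ∈ P) ∧ ∀ x ∈ P, t * x = x * t → x = 1 := by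
  have := Fact.mk hl
  have md : ∀ i : ℕ, σ ^ i = σ ^ (i % 7) := fun i => pow_eq_pow_mod i pow7
  have cen : ∀ {g s : H}, s ∈ S → s ≠ 1 → g * s = s * g → g ∈ S := fun {g s} hs h1 c => by
    obtain ⟨u, hu, j, rfl⟩ := ti g s hs h1 (by rwa [c, mul_inv_cancel_right])
    rw [md] at c ⊢
    rcases (j % 7).eq_zero_or_pos with e | h0
    · simpa [e] using hu
    · exact absurd (fpf _ h0 (Nat.mod_lt _ (by norm_num)) s hs (mul_left_cancel (a := u) (by
        rw [← mul_assoc, c, ← mul_assoc, ← mul_assoc, comm s hs u hu]))) h1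
  have SL : S ≤ Subgroup.normalClosure (S : Set H) := Subgroup.le_normalClosure
  have nL : (Subgroup.normalClosure (S : Set H)).Normal := inferInstance
  generalize Subgroup.normalClosure (S : Set H) = L at SL nL
  have fr : ∀ g : H, ∃ k ∈ L, ∃ i : ℕ, g = k * σ ^ i := fun g => by
    let s' : L := ⟨t, SL ht⟩
    obtain ⟨T, hT⟩ := IsPGroup.exists_le_sylow (P := Subgroup.zpowers s') (p := l) (IsPGroup.of_card (n := 1) (by
      rw [Nat.card_zpowers, ← Subgroup.orderOf_coe, pow_one, orderOf_eq_prime tl t1]))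
    have hs := hT (Subgroup.mem_zpowers s')
    have : Nontrivial T := ⟨⟨s', hs⟩, 1, fun e => t1 (congrArg (fun x => x.1.1) e)⟩
    obtain ⟨⟨z, hz⟩, z1⟩ := @exists_ne _ T.isPGroup'.center_nontrivial 1
    have c : ∀ t : T, t.1.1 * z.1.1 = z.1.1 * t.1.1 := fun t =>
      congrArg (fun x => x.1.1) (Subgroup.mem_center_iff.1 hz t)
    have zS := cen ht t1 (c ⟨s', hs⟩).symm
    have := (Sylow.normalizer_sup_eq_top T).ge (Subgroup.mem_top g)
    rw [sup_comm, ← SetLike.mem_coe, Subgroup.normal_mul] at this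
    obtain ⟨k, hk, n, hn, rfl⟩ := this
    obtain ⟨x, hx, e⟩ := (Subgroup.mem_normalizer_iff.1 hn t).1 ⟨s', hs, rfl⟩
    obtain ⟨u, hu, i, rfl⟩ := ti n t ht t1
      (e ▸ cen zS (fun e => z1 (Subtype.ext (Subtype.ext (Subtype.ext e)))) (c ⟨x, hx⟩))
    exact ⟨_, L.mul_mem hk (SL hu), i, (mul_assoc _ _ _).symm⟩
  by_cases k : ∀ i : ℕ, σ ^ i ∈ L → σ ^ i ∈ S
  · obtain ⟨R, -, nR, hc⟩ := exists_frobenius_kernel (H := S.subgroupOf L) fun g hg s hs e =>
      by_contra fun s1 => by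
        obtain ⟨u, hu, i, e⟩ := ti g s hs (fun e => s1 (Subtype.ext e)) e
        exact hg (Subgroup.mem_subgroupOf.2 (e ▸ S.mul_mem hu (k i ((L.mul_mem_cancel_left (SL hu)).1 (e ▸ g.2)))))
    rcases R.bot_or_nontrivial with rfl | hR
    · refine Or.inl fun g => ?_
      obtain ⟨x, hx, i, e⟩ := fr g
      have : (⟨x, hx⟩ : L) ∈ S.subgroupOf L := by rw [Subgroup.isComplement'_bot_left.1 hc]; trivial
      exact ⟨x, this, i, e⟩
    have f : ∀ x : R, t * x = x * t → x = 1 := fun x c =>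
      Subtype.ext (Subgroup.disjoint_def.1 hc.disjoint x.2 (cen ht t1 c.symm))
    obtain ⟨r, P, hr, hP, P1, hi⟩ := b1_syl (MulAut.conjNormal (H := R) (⟨t, SL ht⟩ : L)) hl
      (by rw [← map_pow, show (⟨t, SL ht⟩ : L) ^ l = 1 from Subtype.ext tl, map_one])
      fun x e => f x (mul_inv_eq_iff_eq_mul.1 (congrArg (fun y : R => y.1.1) e))
    refine Or.inr (Or.inr ⟨r, P.map (L.subtype.comp R.subtype), hr, hP.map _, ?_, ?_, ?_⟩)
    · rwa [Ne, Subgroup.map_eq_bot_iff_of_injective _ fun a b e => Subtype.ext (Subtype.ext e)]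
    · rintro _ ⟨x, hx, rfl⟩
      exact ⟨_, hi x hx, rfl⟩
    · rintro _ ⟨x, -, rfl⟩ c
      rw [f x c, map_one]
  · push Not at k
    obtain ⟨i, iL, iS⟩ := k
    have c : Nat.Coprime i 7 := ((Nat.Prime.coprime_iff_not_dvd (by norm_num)).2 fun ⟨j, e⟩ =>
      iS (by rw [e, pow_mul, pow7, one_pow]; exact S.one_mem)).symm
    obtain ⟨m, -, e⟩ := Nat.exists_mul_mod_eq_one_of_coprime c (by norm_num)
    have σL : σ ∈ L := by
      have := L.pow_mem iL m
      rwa [← pow_mul, md, e, pow_one] at this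
    refine Or.inr (Or.inl (eq_top_iff.2 fun g _ => ?_))
    obtain ⟨x, hx, j, rfl⟩ := fr g
    exact L.mul_mem hx (L.pow_mem σL j)

/-- Let `K` be the normal closure of `S`, bars denote images in `M/Z` (`Z` is central, `S̄ ≅ S`).
(1) `C(s̄) ≤ S̄` for `1 ≠ s ∈ S` (`ti` with `t = s`, then `fpf`).  (2) `h ≡ 1 (mod 7)` (`fpf`), so `l ≠ 7`; Frattini (port of
`Sing.TId.frattini`, `Sing/ChS`): for a prime `l ∣ h` the Sylow `l`-subgroup of `S̄` is Sylow in
`M̄` and its normaliser lies in `N̄ = S̄⟨σ̄⟩` (`ti`), so `M̄ = K̄ N̄`.  (3) If some `z u σ^i ∈ K Z` with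
`7 ∤ i` then `σ ∈ K Z`: second alternative.  (4) Otherwise `S̄` is TI and self-normalising in `K̄`;
`Char.exists_frobenius_kernel` gives a normal complement `R̄` of `S̄` in `K̄`, the set of elements
not conjugate into `S̄ \ 1`, so normalised by `K̄`.  If `R̄ = 1` then `K̄ = S̄`, `M̄ = N̄`: first
alternative.  Otherwise let `t ∈ S` have order `l`; `t̄` fixes no `1 ≠ r̄ ∈ R̄` by (1), so
`|R̄| ≡ 1 (mod l)`.  For a prime
`r ∣ |R̄|` the number of Sylow `r`-subgroups of `R̄` is prime to `l`, so `t̄` normalises one,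
`P̄ ≠ 1` (`IsPGroup.nonempty_fixed_point_of_prime_not_dvd_card`); let `P₀` be its preimage, `P` a
Sylow `r`-subgroup of `P₀`; `P₀ = P Z`, so `P ⊴ P₀` is unique and `t` normalises `P`. -/
theorem TZ.frob {M : Type*} [Group M] [Finite M] {Z S : Subgroup M} {σ : M} {h : ℕ}
    (D : TZ Z S σ h) {l : ℕ} (hl : l.Prime) (hlh : l ∣ h) :
    (∀ g : M, ∃ z ∈ Z, ∃ u ∈ S, ∃ i : ℕ, g = z * u * σ ^ i) ∨
    ((∃ z ∈ Z, z * σ ∈ Subgroup.normalClosure (S : Set M)) ∧
      Subgroup.normalClosure (S : Set M) ⊔ Z = ⊤) ∨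
    ∃ t ∈ S, orderOf t = l ∧ ∃ (r : ℕ) (P : Subgroup M), r.Prime ∧ IsPGroup r P ∧ ¬ P ≤ Z ∧
      (∀ x ∈ P, t * x * t⁻¹ ∈ P) ∧ ∀ x ∈ P, t * x * t⁻¹ * x⁻¹ ∈ Z → x ∈ Z := by
  have nZ : Z.Normal := ⟨fun z hz g => by rwa [← D.cen z hz, mul_inv_cancel_right]⟩
  have := Fact.mk hl
  obtain ⟨t, o⟩ := exists_prime_orderOf_dvd_card' (G := S) l (D.card ▸ hlh)
  rw [← Subgroup.orderOf_coe] at o
  let π := QuotientGroup.mk' Z
  have hπ : Function.Surjective π := QuotientGroup.mk'_surjective Z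
  have k1 : ∀ {x : M}, π x = 1 ↔ x ∈ Z := QuotientGroup.eq_one_iff _
  have k2 : ∀ {x y : M}, π x = π y → x * y⁻¹ ∈ Z := fun e => k1.1 (by rw [map_mul, e, map_inv, mul_inv_cancel])
  have SZ : ∀ s ∈ S, π s = 1 → s = 1 := fun s hs e => D.fpf 1 one_pos (by norm_num) s hs
    (k1.1 (by simp [e]))
  rcases b1_frob (S := S.map π) (σ := π σ) (t := π t) (by
      rintro _ ⟨a, ha, rfl⟩ _ ⟨b, hb, rfl⟩
      rw [← map_mul, D.comm a ha b hb, map_mul]) (by rw [← map_pow, D.pow7, map_one]) (by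
      rintro i h0 h7 _ ⟨s, hs, rfl⟩ e
      rw [D.fpf i h0 h7 s hs (k1.1 (by simp [e])), map_one]) (by
      rintro g _ ⟨s, hs, rfl⟩ s1 ⟨u, hu, e⟩
      obtain ⟨g, rfl⟩ := hπ g
      obtain ⟨z, hz, v, hv, i, rfl⟩ := D.ti g s hs (fun e => s1 (by rw [e, map_one])) u hu
        (k2 (by rw [e, map_mul, map_mul, map_inv]))
      exact ⟨_, ⟨v, hv, rfl⟩, i, by rw [map_mul, map_mul, k1.2 hz, one_mul, map_pow]⟩) hl ⟨t, t.2, rfl⟩
      (fun e => hl.ne_one (by rw [← o, SZ t t.2 e, orderOf_one]))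
      (by rw [← map_pow, ← o, pow_orderOf_eq_one, map_one]) with k | k | ⟨r, P, hr, hP, P1, hi, f⟩
  · refine Or.inl fun g => ?_
    obtain ⟨_, ⟨u, hu, rfl⟩, i, e⟩ := k (π g)
    exact ⟨_, k2 (y := u * σ ^ i) (e.trans (by rw [map_mul, map_pow])), u, hu, i, by
      rw [mul_assoc, inv_mul_cancel_right]⟩
  · rw [Subgroup.coe_map, ← Subgroup.map_normalClosure _ _ hπ] at k
    refine Or.inr (Or.inl ⟨?_, ?_⟩)
    · obtain ⟨x, hx, e⟩ := k.ge (Subgroup.mem_top (π σ))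
      exact ⟨_, k2 e, by rwa [inv_mul_cancel_right]⟩
    · have := congrArg (Subgroup.comap π) k
      rwa [Subgroup.comap_map_eq, QuotientGroup.ker_mk', Subgroup.comap_top] at this
  have := Fact.mk hr
  obtain ⟨Q⟩ : Nonempty (Sylow r (P.comap π)) := inferInstance
  have k : ∀ x : P.comap π, ∃ p ∈ Q, π p = π x := fun x => by
    obtain ⟨p, hp, e⟩ := ((Q.mapSurjective (π.subgroupComap_surjective_of_surjective P hπ)).is_maximal'
      (hP.to_subgroup ⊤) le_top).le (Subgroup.mem_top (π.subgroupComap P x))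
    exact ⟨p, hp, congrArg Subtype.val e⟩
  have nQ : (Q : Subgroup (P.comap π)).Normal := ⟨fun n hn g => by
    obtain ⟨p, hp, e⟩ := k g
    have : g * n * g⁻¹ = p * n * p⁻¹ := Subtype.ext (by
      have c := mul_inv_eq_iff_eq_mul.2 (D.cen _ (k2 e.symm) (p * n * (p : M)⁻¹))
      change (g : M) * n * (g : M)⁻¹ = p * n * (p : M)⁻¹
      rw [← c]
      group)
    exact this ▸ Q.mul_mem (Q.mul_mem hp hn) (Q.inv_mem hp)⟩
  have := Q.unique_of_normal nQ
  refine Or.inr (Or.inr ⟨t, t.2, o, r, (Q : Subgroup (P.comap π)).map (Subgroup.subtype _), hr,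
    Q.isPGroup'.map _, fun c => P1 (eq_bot_iff.2 fun y hy => ?_), ?_, ?_⟩)
  · obtain ⟨y, rfl⟩ := hπ y
    obtain ⟨p, hp, e⟩ := k ⟨y, hy⟩
    exact e.symm.trans (k1.2 (c ⟨p, hp, rfl⟩))
  · rintro _ ⟨x, hx, rfl⟩
    let y : P.comap π := ⟨t * x * (t : M)⁻¹, by simpa using hi _ x.2⟩
    obtain ⟨n, e⟩ := Q.isPGroup' ⟨x, hx⟩
    obtain ⟨Q', hQ⟩ := IsPGroup.exists_le_sylow (p := r) (P := Subgroup.zpowers y) (by
      rintro ⟨_, j, rfl⟩
      refine ⟨n, Subtype.ext ?_⟩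
      have : y ^ r ^ n = 1 := Subtype.ext (by
        change (_ * _ * _) ^ _ = 1
        rw [conj_pow, show (x : M) ^ r ^ n = 1 from congrArg (fun z => z.1.1) e, mul_one, mul_inv_cancel])
      change (y ^ j) ^ _ = 1
      rw [← zpow_natCast, ← zpow_mul, mul_comm, zpow_mul, zpow_natCast, this, one_zpow])
    exact ⟨y, Subsingleton.elim Q' Q ▸ hQ (Subgroup.mem_zpowers y), rfl⟩
  · rintro _ ⟨x, -, rfl⟩ c
    refine k1.1 (f _ x.2 ?_)
    have := k1.2 c
    rwa [map_mul, map_mul, map_mul, map_inv, map_inv, mul_inv_eq_one, mul_inv_eq_iff_eq_mul] at this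

/-- `hp q > 1`; a prime `l ∣ hp q` divides `q^7 + 1`; if
`l ∣ q + 1` then `l ∣ gcd(hh q, q+1) ∣ 7` and `7 ∤ hp q` (`49 ∤ hh q`: put `q = 7 j - 1`); so
`-q` has order `7` mod `l`, `7 ∣ l - 1`, `l > 7`. -/
theorem exists_prime_hp {q : ℕ} (hq : 2 ≤ q) : ∃ l, l.Prime ∧ 7 < l ∧ l ∣ hp q := by
  have k : ∀ n : ℕ, n ∣ hh q → (q : ZMod n) * (q - 1) * (q ^ 4 + q ^ 2 + 1) + 1 = 0 := fun n c => by
    have := (ZMod.natCast_eq_zero_iff _ _).2 c
    rw [hh] at this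
    push_cast [Nat.cast_sub (show 1 ≤ q by omega)] at this
    exact this
  obtain ⟨l, hl, hd⟩ := Nat.exists_prime_and_dvd (n := hp q) (by
    rcases hq.eq_or_lt with rfl | h
    · decide
    · have := hp_big (q := q) h
      omega)
  refine ⟨l, hl, not_le.1 fun c => ?_, hd⟩
  have d := k l (hd.trans (Dvd.intro_left _ (hp_mul (by omega))))
  have := hl.two_le
  interval_cases l
  · revert d; generalize (q : ZMod 2) = x; revert x; decide
  · revert d; generalize (q : ZMod 3) = x; revert x; decide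
  · exact absurd hl (by norm_num)
  · revert d; generalize (q : ZMod 5) = x; revert x; decide
  · exact absurd hl (by norm_num)
  · have e : 7 ∣ q + 1 := (ZMod.natCast_eq_zero_iff _ _).1 (by
      push_cast
      revert d; generalize (q : ZMod 7) = x; revert x; decide)
    have d := k 49 (hp_of_dvd e ▸ Nat.mul_dvd_mul_left 7 hd)
    revert d; generalize (q : ZMod 49) = x; revert x; decide +kernel

end Cfsg.Agent.U7
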