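import Cfsg.Agent.U7.Defs
import Cfsg.Agent.Class.Max.C3U

/-!
# The field model
-/

set_option autoImplicit false
set_option linter.unusedSectionVars false

namespace Cfsg.Agent.U7

open Cfsg.Agent.Class.U Cfsg.Agent.Char
open scoped ComplexConjugate

universe u

variable {F : Type u} [Field F] [Fintype F] {q : ℕ} [UF F q]

theorem brA_conj {K : Type*} [Field K] {Q : ℕ} [h : UF K Q] {s : K →+* K} (ss : ∀ x, s (s x) = x)
    (ne : s ≠ RingHom.id K) : s = Class.U.conj K Q := by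
  classical
  have := h.finite
  obtain ⟨p, -, hp, _, -⟩ := exists_prime_pow K Q
  have := Fact.mk hp
  let _ := ZMod.algebra K p
  let e : (K →+* K) → K ≃ₐ[ZMod p] K := fun t => AlgEquiv.ofBijective
    { t with commutes' := RingHom.congr_fun (RingHom.ext_zmod (t.comp (algebraMap _ _)) _) }
    (Finite.injective_iff_bijective.1 t.injective)
  have i : Function.Injective e := fun a b k => RingHom.ext (AlgEquiv.congr_fun k)
  by_contra hn
  refine (IsCyclic.card_pow_eq_one_le (α := K ≃ₐ[ZMod p] K) two_pos).not_gt (Finset.two_lt_card_iff.2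
    ⟨e (RingHom.id K), e s, e (Class.U.conj K Q), ?_, ?_, ?_, i.ne ne.symm, i.ne (conj_ne_id K Q).symm, i.ne hn⟩)
  exacts [Finset.mem_filter.2 ⟨Finset.mem_univ _, AlgEquiv.ext fun _ => rfl⟩,
    Finset.mem_filter.2 ⟨Finset.mem_univ _, AlgEquiv.ext ss⟩,
    Finset.mem_filter.2 ⟨Finset.mem_univ _, AlgEquiv.ext conj_conj⟩]

open Class.Max Class.Max.Fm in
theorem brA_abs {K V : Type*} [Field K] [Algebra F K] [AddCommGroup V] [Module F V] [Module K V]
    [IsScalarTower F K V] [Finite K] (Φ : Fm F V) (hε : Φ.ε = 1) (hσ : Φ.σ ≠ RingHom.id F)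
    (h7 : Module.finrank F K = 7) (h1 : Module.finrank K V = 1)
    (hac : ∀ k : K, ∃ k' : K, ∀ u v, Φ.B (k • u) v = Φ.B u (k' • v)) :
    ∃ φ : V ≃ₗ[K] K, ∀ x y, Φ.B y x = Algebra.trace F K (φ x * φ y ^ q ^ 7) := by
  have := Module.nontrivial_of_finrank_eq_succ h1
  have := Module.finite_of_finrank_eq_succ h1
  have : UF K (q ^ 7) := ⟨inferInstance, by
    rw [Module.natCard_eq_pow_finrank (K := F), h7, UF.card_eq (q := q), pow_right_comm]⟩
  obtain ⟨s, hs2, hs⟩ := Φ.exists_adjoint hac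
  have hsF := adjoint_algebraMap hs
  have hT := Algebra.trace_ne_zero F K
  have hTs : ∀ x, Algebra.trace F K (s x) = Φ.σ (Algebra.trace F K x) := fun x =>
    (algebraMap F K).injective (by
      rw [← hsF, trace_eq_sum_automorphisms, trace_eq_sum_automorphisms, map_sum]
      exact Finset.sum_congr rfl fun τ _ => (Cj.comm τ x).symm)
  obtain rfl := brA_conj (Q := q ^ 7) hs2 fun e => hσ (RingHom.ext fun c => (algebraMap F K).injective (by
    rw [← hsF, e]; rfl))
  obtain ⟨B, hB⟩ := Φ.exists_lift hT _ hs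
  let f : K ≃ₗ[K] V := LinearEquiv.ofFinrankEq _ _ (by rw [h1, Module.finrank_self])
  have k : ∀ a b : K, B (f b) (f a) = a * Class.U.conj K (q ^ 7) b * B (f 1) (f 1) := fun a b => by
    have e : ∀ a, f a = a • f 1 := fun a => by rw [← map_smul, smul_eq_mul, mul_one]
    rw [e a, e b, map_smul, B.map_smulₛₗ, LinearMap.smul_apply, smul_eq_mul, smul_eq_mul, mul_assoc]
  obtain ⟨m, hm⟩ := exists_norm_eq (q := q ^ 7) (μ := B (f 1) (f 1))
    ((lift_symm hT hs2 hB (η := 1) (fun b => by rw [one_mul, hε, one_mul, hTs]) _ _).trans (one_mul _)).symm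
  have m0 : m ≠ 0 := fun e => (f.map_ne_zero_iff.2 one_ne_zero) (lift_nondeg hB (f 1) fun y => by
    rw [← f.apply_symm_apply y, k, ← hm, e, zero_mul, mul_zero])
  refine ⟨f.symm.trans (LinearEquiv.smulOfNeZero K K m m0), fun x y => ?_⟩
  obtain ⟨a, rfl⟩ := f.surjective x
  obtain ⟨b, rfl⟩ := f.surjective y
  rw [hB, k, ← hm, ← conj_apply]
  simp only [LinearEquiv.trans_apply, f.symm_apply_apply, LinearEquiv.smulOfNeZero_apply, smul_eq_mul, map_mul]
  congr 1
  ring

/-- `L = K` is a field (`Class.Max.isField_of`) of degree `7`, with `q^14` elements, `V` is a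
one-dimensional `L`-space.  The adjoint `k ↦ k'` (`hac`, unique by non-degeneracy) is a ring
automorphism of `L` of order two which is `c ↦ c^q` on `F`, so it is `k ↦ k^(q^7)` (the unique
involution of the cyclic automorphism group; or: automorphisms are powers of Frobenius; see
`Class.Max.exists_uu_std`, `Class/Max/C3U`).  Fix `x₀ ≠ 0`; `k ↦ 𝐡(k x₀, x₀)` is `F`-linear, so it is
`Tr(λ k)` (trace form non-degenerate), `𝐡(a x₀, b x₀) = Tr(λ a b^(q^7))`, `λ ≠ 0`, and hermitian
symmetry gives `λ^(q^7) = λ`; write `λ = m m^(q^7)` (`exists_norm_eq` for `UF L (q^7)`) and put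
`φ (a x₀) = a m`. -/
theorem exists_model (K : Subalgebra F (Matrix (Fin 7) (Fin 7) F)) (hK : Geo.IsFieldSubalgebra 7 K)
    (hac : Geo.IsAdjointClosedFor (hermForm 7 F q) K) :
    ∃ (L : Type u) (_ : Field L) (_ : Algebra F L) (φ : (Fin 7 → F) ≃ₗ[F] L),
      (∀ x y, hermForm 7 F q x y = Algebra.trace F L (φ x * φ y ^ q ^ 7)) ∧
      ∀ M : Matrix (Fin 7) (Fin 7) F, M ∈ K ↔ ∃ k : L, ∀ x, φ (M.mulVec x) = k * φ x := by
  let := (Class.Max.isField_of hK).toField
  have h1 := Class.Max.mul_finrank_eq hK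
  obtain ⟨φ, hφ⟩ := brA_abs (q := q) (K := K) (Class.Max.fmUStd F 7 q) rfl (conj_ne_id F q) hK.finrank_eq
    (by rw [Fintype.card_fin] at h1; omega) fun k => by
      obtain ⟨k', h2, h3⟩ := hac k k.2
      refine ⟨⟨k', h2⟩, fun u v => ?_⟩
      change hermForm 7 F q v (k.1.mulVec u) = hermForm 7 F q (k'.mulVec v) u
      rw [← herm_conj, h3, herm_conj]
  refine ⟨K, this, inferInstance, φ.restrictScalars F, hφ, fun M => ⟨fun h => ⟨⟨M, h⟩, φ.map_smul ⟨M, h⟩⟩,
    fun ⟨k, h⟩ => ?_⟩⟩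
  rw [Matrix.mulVec_injective (funext fun x => φ.injective ((h x).trans (φ.map_smul k x).symm) :
    M.mulVec = k.1.mulVec)]
  exact k.2

end Cfsg.Agent.U7
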