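import Cfsg.Agent.U7.Bas
import Cfsg.Agent.U7.BrA

/-!
# The Singer torus
-/

set_option autoImplicit false
set_option linter.unusedSectionVars false

namespace Cfsg.Agent.U7

open Cfsg.Agent.Class.U Cfsg.Agent.Char
open scoped ComplexConjugate

universe u

variable {F : Type u} [Field F] [Fintype F] {q : ℕ} [UF F q]

theorem br_cop (h : 2 ≤ q) : Nat.Coprime (hp q) (q ^ 2 - 1) := by
  have e := hp_mul (q := q) (by omega)
  have d : hp q ∣ hh q := Dvd.intro_left _ e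
  obtain ⟨r, rfl⟩ : ∃ r, q = r + 1 := ⟨q - 1, by omega⟩
  rw [show (r + 1) ^ 2 - 1 = r * (r + 1 + 1) by rw [Nat.sub_eq_iff_eq_add (Nat.one_le_pow _ _ (by omega))]; ring]
  refine Nat.Coprime.mul_right (Nat.Coprime.coprime_dvd_left d ?_) (Nat.coprime_of_dvd fun l hl h1 h2 => ?_)
  · rw [hh, Nat.add_sub_cancel, mul_right_comm, add_comm _ 1, Nat.coprime_add_mul_right_left]
    exact Nat.coprime_one_left _
  obtain ⟨t, ht⟩ := h2
  obtain ⟨c, hc⟩ := h1.trans d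
  have k : hh (r + 1) + (21 * (r + 1 + 1) + 35 * (r + 1 + 1) ^ 3 + 7 * (r + 1 + 1) ^ 5) =
      (r + 1 + 1) ^ 6 + 21 * (r + 1 + 1) ^ 4 + 35 * (r + 1 + 1) ^ 2 + 7 := by
    rw [hh, Nat.add_sub_cancel]; ring
  rw [ht] at k
  have k7 : l ∣ 7 := (Nat.dvd_add_right (b := l * (l ^ 5 * t ^ 6 + 21 * l ^ 3 * t ^ 4 + 35 * l * t ^ 2))
    (Dvd.intro _ rfl)).1 ⟨c + (21 * t + 35 * l ^ 2 * t ^ 3 + 7 * l ^ 4 * t ^ 5), by rw [hc] at k; linear_combination k.symm⟩
  obtain rfl := (Nat.prime_dvd_prime_iff_eq hl (by norm_num)).1 k7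
  obtain ⟨b, hb⟩ := h1
  rw [← hp_of_dvd ⟨t, ht⟩, hb] at k
  have : 49 * (b + 3 * t + 245 * t ^ 3 + 2401 * t ^ 5) = 49 * (2401 * t ^ 6 + 1029 * t ^ 4 + 35 * t ^ 2) + 7 := by
    linear_combination k
  omega

theorem br_num (h : 2 ≤ q) : ((q ^ 2) ^ 7 - 1) / (q ^ 2 - 1) = hh q * (1 + (q + 1) * (q + q ^ 3 + q ^ 5)) := by
  obtain ⟨r, rfl⟩ : ∃ r, q = r + 1 := ⟨q - 1, by omega⟩
  rw [show (r + 1) ^ 2 - 1 = r * (r + 1 + 1) by rw [Nat.sub_eq_iff_eq_add (Nat.one_le_pow _ _ (by omega))]; ring]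
  refine Nat.div_eq_of_eq_mul_left (Nat.mul_pos (by omega) (by omega)) ?_
  rw [Nat.sub_eq_iff_eq_add (Nat.one_le_pow _ _ (by positivity)), hh, Nat.add_sub_cancel]
  ring

theorem br_dvd (h : 2 ≤ q) : hp q ∣ q ^ 7 + 1 ∧ hp q ≠ 0 := by
  have e : hp q ∣ q ^ 7 + 1 :=
    (Dvd.intro_left _ (hp_mul (q := q) (by omega))).trans (Dvd.intro_left _ (hh_mul (by omega)))
  exact ⟨e, fun k => by simp [k] at e⟩

theorem br_pow {k : F} (h : k ≠ 0) : k ^ (q ^ 2 - 1) = 1 := by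
  rw [← UF.card_eq (F := F) (q := q), Nat.card_eq_fintype_card, FiniteField.pow_card_sub_one_eq_one _ h]

theorem br_one {c : F} (h : c ^ hp q = 1) : c = 1 := by
  have := pow_gcd_eq_one.2 ⟨h, br_pow (q := q) fun e => by simp [e, (br_dvd (two_le_q F q)).2] at h⟩
  rwa [br_cop (two_le_q F q), pow_one] at this

section Model

variable {L : Type u} [Field L] [Algebra F L] (φ : (Fin 7 → F) ≃ₗ[F] L)
  (hφ : ∀ x y, hermForm 7 F q x y = Algebra.trace F L (φ x * φ y ^ q ^ 7))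
include hφ

omit hφ in
include φ in
theorem br_rank : Module.finrank F L = 7 := φ.finrank_eq.symm.trans (by simp)

omit hφ in
include φ in
theorem br_card : Nat.card L = (q ^ 2) ^ 7 := by
  rw [← Nat.card_congr φ.toEquiv, Nat.card_fun, UF.card_eq (q := q)]
  simp

omit hφ in
include φ in
theorem br_top {k : L} (hk : ∀ c, algebraMap F L c ≠ k) {A : Subalgebra F L} (h : k ∈ A) (a : L) : a ∈ A := by
  have := Subalgebra.isSimpleOrder_of_finrank_prime F L (by rw [br_rank φ]; norm_num)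
  rcases eq_bot_or_eq_top A with rfl | rfl
  · exact absurd (Algebra.mem_bot.1 h) fun ⟨c, e⟩ => hk c e
  · trivial

omit hφ in
include φ in
theorem br_frob : ∃ f : L ≃ₐ[F] L, (∀ i a, (f ^ i) a = a ^ (q ^ 2) ^ i) ∧ orderOf f = 7 ∧
    ∀ α : L →ₐ[F] L, ∃ i : ℕ, ∀ a, α a = a ^ (q ^ 2) ^ i := by
  have := Finite.of_equiv _ φ.toEquiv
  have e : Fintype.card F = q ^ 2 := by rw [← Nat.card_eq_fintype_card, UF.card_eq (q := q)]
  refine ⟨FiniteField.frobeniusAlgEquivOfAlgebraic F L, fun i a => ?_,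
    (FiniteField.orderOf_frobeniusAlgEquivOfAlgebraic F L).trans (br_rank φ), fun α => ?_⟩
  · rw [AlgEquiv.coe_pow, FiniteField.coe_frobeniusAlgEquivOfAlgebraic_iterate, e]
  · obtain ⟨i, rfl⟩ := (FiniteField.bijective_frobeniusAlgHom_pow F L).2 α
    exact ⟨i, fun a => by simp only [AlgHom.coe_pow, FiniteField.coe_frobeniusAlgHom, pow_iterate, e]⟩

omit hφ in
include φ in
theorem br_fix {x : L} {i : ℕ} (hi : ¬ 7 ∣ i) (h : x ^ (q ^ 2) ^ i = x) : ∃ c, algebraMap F L c = x := by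
  have := Finite.of_equiv _ φ.toEquiv
  have : Fact (Nat.Prime 7) := ⟨by norm_num⟩
  obtain ⟨f, h1, h2, -⟩ := br_frob (q := q) φ
  refine (IsGalois.mem_range_algebraMap_iff_fixed x).2 fun g => ?_
  have e : Subgroup.zpowers (f ^ i) ≤ MulAction.stabilizer _ x := Subgroup.zpowers_le.2 ((h1 i x).trans h)
  exact e (mem_zpowers_of_prime_card ((IsGalois.card_aut_eq_finrank F L).trans (br_rank φ))
    fun k => hi (h2 ▸ orderOf_dvd_of_pow_eq_one k))

omit hφ in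
theorem br_ext {g k : GU 7 F q} (h : ∀ x, φ (g • x) = φ (k • x)) : g = k := GU_ext fun x => φ.injective (h x)

theorem br_mk (f : L →ₗ[F] L) (hf : ∀ a b, Algebra.trace F L (f a * f b ^ q ^ 7) = Algebra.trace F L (a * b ^ q ^ 7)) :
    ∃ g : GU 7 F q, (∀ x, φ (g • x) = f (φ x)) ∧ (detGU g : F) = LinearMap.det f := by
  have e : ∀ x, φ ((LinearMap.toMatrix' (φ.symm.toLinearMap ∘ₗ f ∘ₗ φ.symm.symm.toLinearMap)).mulVec x) = f (φ x) :=
    fun x => by simp [LinearMap.toMatrix'_mulVec]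
  have k : Pres q (LinearMap.toMatrix' (φ.symm.toLinearMap ∘ₗ f ∘ₗ φ.symm.symm.toLinearMap)) := fun x y => by
    rw [hφ, hφ, e, e, hf]
  exact ⟨mkGU _ k, fun x => by rw [mkGU_smul, e], by rw [detGU_mkGU, LinearMap.det_toMatrix', LinearMap.det_conj]⟩

/-- `x ↦ x^(q²)` (`FiniteField.frobeniusAlgEquivOfAlgebraic`) is `F`-linear, preserves the trace,
has order `7`; determinant one: `Class.Max.exists_frob` (or a normal basis: a `7`-cycle is even) -/
theorem exists_sigma : ∃ σ ∈ SS F q, ∀ x : Fin 7 → F, φ (σ • x) = φ x ^ q ^ 2 := by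
  classical
  have := Finite.of_equiv _ φ.toEquiv
  obtain ⟨f, h1, h2, -⟩ := br_frob (q := q) φ
  obtain ⟨g, h3, h4⟩ := br_mk φ hφ f.toLinearMap fun a b => by
    simp only [AlgEquiv.toLinearMap_apply, ← map_pow, ← map_mul, Algebra.trace_eq_of_algEquiv]
  refine ⟨g, Units.ext (h4.trans ?_), fun x => by simpa using (h3 x).trans (h1 1 _)⟩
  have := Fintype.ofFinite (L ≃ₐ[F] L)
  have e := (IsGalois.normalBasis F L).det_comp f.toLinearMap (IsGalois.normalBasis F L)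
  have e1 : Equiv.Perm.sign (Equiv.mulLeft f) = 1 := by
    have : Equiv.Perm.sign (Equiv.mulLeft f) ^ 7 = 1 := by
      rw [← map_pow, Equiv.pow_mulLeft, ← h2, pow_orderOf_eq_one, Equiv.mulLeft_one, map_one]
    rcases Int.units_eq_one_or (Equiv.Perm.sign (Equiv.mulLeft f)) with k | k
    · exact k
    · rw [k] at this
      exact absurd this (by decide)
  rw [show f.toLinearMap ∘ IsGalois.normalBasis F L = IsGalois.normalBasis F L ∘ Equiv.mulLeft f from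
    funext fun s => by simp [IsGalois.normalBasis_apply s, IsGalois.normalBasis_apply (f * s)],
    AlternatingMap.map_perm, e1] at e
  simpa [Module.Basis.det_self] using e.symm

/-- multiplication by `k` with `k^(q^7+1) = 1` is an isometry of determinant `N_{L/F}(k)` -/
theorem exists_mul {k : L} (hk : k ^ (q ^ 7 + 1) = 1) :
    ∃ g : GU 7 F q, (∀ x : Fin 7 → F, φ (g • x) = k * φ x) ∧ (detGU g : F) = Algebra.norm F k :=
  br_mk φ hφ (LinearMap.mul F L k) fun a b => by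
    rw [LinearMap.mul_apply', LinearMap.mul_apply', mul_pow, mul_mul_mul_comm, ← pow_succ', hk, one_mul]

theorem br_mul {g : GU 7 F q} {k : L} (h : ∀ x, φ (g • x) = k * φ x) :
    k ^ (q ^ 7 + 1) = 1 ∧ (detGU g : F) = Algebra.norm F k := by
  have := Finite.of_equiv _ φ.toEquiv
  have e : k ^ (q ^ 7 + 1) = 1 := sub_eq_zero.1 ((traceForm_nondegenerate F L).1 _ fun a => by
    have := GU_herm g (φ.symm a) (φ.symm 1)
    rw [hφ, hφ, h, h, φ.apply_symm_apply, φ.apply_symm_apply] at this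
    rw [Algebra.traceForm_apply, sub_mul, map_sub, sub_eq_zero]
    convert this using 2 <;> ring)
  obtain ⟨g', h1, h2⟩ := exists_mul φ hφ e
  exact ⟨e, br_ext φ (fun x => (h1 x).trans (h x).symm) ▸ h2⟩

omit hφ in
theorem br_sig {σ : GU 7 F q} (h : ∀ x, φ (σ • x) = φ x ^ q ^ 2) (i : ℕ) (x : Fin 7 → F) :
    φ (σ ^ i • x) = φ x ^ (q ^ 2) ^ i := by
  induction i with
  | zero => simp
  | succ i ih => rw [pow_succ', mul_smul, h, ih, ← pow_mul, ← pow_succ]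

/-- the map induced on `L` -/
def brG (g : GU 7 F q) : L →ₗ[F] L :=
  φ.toLinearMap ∘ₗ DistribMulAction.toLinearMap F (Fin 7 → F) g ∘ₗ φ.symm.toLinearMap

omit hφ in
theorem brG_apply (g : GU 7 F q) (x : Fin 7 → F) : brG φ g (φ x) = φ (g • x) :=
  congrArg (fun y => φ (g • y)) (φ.symm_apply_apply x)

omit hφ in
theorem brG_inj (g : GU 7 F q) : Function.Injective (brG φ g) :=
  φ.injective.comp ((MulAction.injective g).comp φ.symm.injective)

/-- an element `g ∈ SS` normalising the multiplications induces an `F`-automorphism of `L`, a power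
of Frobenius, so `g = k σ^i`; isometry gives `k^(q^7+1) = 1` (trace form non-degenerate), and
`N(k) = 1`.  `N(k) = k^(hh q · m)`, `m = (q^7-1)/(q-1) ≡ 1 (mod q+1)`
(`FiniteField.algebraMap_norm_eq_pow`) and `(k^(hh q))^(q+1) = 1`, so `k^(hh q) = 1`; `hh q = d · hp q`,
`d = gcd 7 (q+1)` prime to `hp q`, so `k = c u`, `c^d = 1`, `u^(hp q) = 1`; `c^(q+1) = 1` gives
`c^(q²) = c`, `c ∈ F`. -/
theorem norm_form {g : GU 7 F q} (hg : g ∈ SS F q)
    (hn : ∀ k : L, ∃ k' : L, ∀ x : Fin 7 → F, ∀ y, φ y = k * φ x → φ (g • y) = k' * φ (g • x)) :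
    ∃ (c : F) (u : L) (i : ℕ), c * c ^ q = 1 ∧ u ^ hp q = 1 ∧
      ∀ x : Fin 7 → F, φ (g • x) = c • (u * φ x ^ (q ^ 2) ^ i) := by
  have := Finite.of_equiv _ φ.toEquiv
  have q2 := two_le_q F q
  obtain ⟨σ, h1, h2⟩ := exists_sigma φ hφ
  obtain ⟨f, -, -, h3⟩ := br_frob (q := q) φ
  have k0 : brG φ g 1 ≠ 0 := (map_ne_zero_iff _ (brG_inj φ g)).2 one_ne_zero
  have e : ∀ a b, brG φ g (a * b) = brG φ g a / brG φ g 1 * brG φ g b := fun a b => by
    obtain ⟨k, hk⟩ := hn a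
    have e : ∀ b, brG φ g (a * b) = k * brG φ g b := fun b => hk (φ.symm b) (φ.symm (a * b)) (by simp)
    rw [e, ← mul_one a, e, mul_div_cancel_right₀ _ k0]
  obtain ⟨i, hi⟩ := h3 (AlgHom.ofLinearMap (LinearMap.mul F L (brG φ g 1)⁻¹ ∘ₗ brG φ g) (inv_mul_cancel₀ k0)
    fun a b => by simp only [LinearMap.comp_apply, LinearMap.mul_apply', e a b]; ring)
  have e1 : ∀ x, φ (g • x) = brG φ g 1 * φ x ^ (q ^ 2) ^ i := fun x => by
    rw [← brG_apply, ← hi]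
    exact (mul_inv_cancel_left₀ k0 _).symm
  clear hi
  generalize brG φ g 1 = k at k0 e1
  obtain ⟨e2, e3⟩ := br_mul φ hφ (g := g * (σ ^ i)⁻¹) (k := k) fun x => by
    rw [mul_smul, e1, ← br_sig φ h2, smul_inv_smul]
  have e4 : k ^ hh q = 1 := by
    have := FiniteField.algebraMap_norm_eq_pow (K := F) (x := k)
    rw [← e3, show detGU (g * (σ ^ i)⁻¹) = 1 from mul_mem hg (inv_mem (pow_mem h1 i)), br_card (q := q) φ,
      UF.card_eq (q := q), br_num q2, mul_add, pow_add, ← mul_assoc, mul_comm (hh q) (q + 1), hh_mul (by omega),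
      pow_mul k (q ^ 7 + 1), e2] at this
    simpa using this.symm
  have d : Nat.gcd 7 (q + 1) ∣ q ^ 2 - 1 := (Nat.gcd_dvd_right _ _).trans (Nat.sq_sub_sq q 1 ▸ dvd_mul_right _ _)
  obtain ⟨n, n1, n2⟩ := Nat.chineseRemainder ((br_cop q2).coprime_dvd_right d) 1 0
  obtain ⟨m, rfl⟩ := (Nat.modEq_zero_iff_dvd).1 n2
  rw [← hp_mul (by omega)] at e4
  set d' := Nat.gcd 7 (q + 1)
  have u1 : (k ^ (d' * m)) ^ hp q = 1 := by rw [← pow_mul, mul_right_comm, pow_mul, e4, one_pow]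
  have c1 : (k / k ^ (d' * m)) ^ (q + 1) = 1 := by
    obtain ⟨j, hj⟩ : d' ∣ q + 1 := Nat.gcd_dvd_right _ _
    rw [hj, pow_mul, div_pow, ← pow_mul, mul_comm _ d', pow_mul k d' (d' * m),
      pow_eq_pow_of_modEq n1 (by rwa [← pow_mul]), pow_one, div_self (pow_ne_zero _ k0), one_pow]
  obtain ⟨c, hc⟩ := br_fix (q := q) φ (x := k / k ^ (d' * m)) (i := 1) (by norm_num) (by
    rw [pow_one, show q ^ 2 = (q + 1) * (q - 1) + 1 by rw [← Nat.sq_sub_sq, Nat.sub_add_cancel (by nlinarith)],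
      pow_succ, pow_mul _ (q + 1), c1, one_pow, one_mul])
  refine ⟨c, _, i, (algebraMap F L).injective ?_, u1, fun x => ?_⟩
  · rw [← pow_succ', map_pow, hc, c1, map_one]
  · rw [e1, Algebra.smul_def, hc, ← mul_assoc, div_mul_cancel₀ _ (pow_ne_zero _ k0)]

omit hφ in
theorem br_nf {k : L} (h : k ^ hp q = 1) (h1 : k ≠ 1) (c : F) : algebraMap F L c ≠ k := by
  rintro rfl
  rw [← map_pow, ← map_one (algebraMap F L), (algebraMap F L).injective.eq_iff] at h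
  exact h1 (by rw [br_one h, map_one])

/-- the torus -/
def brT : Subgroup (GU 7 F q) where
  carrier := {g | ∃ k : L, k ^ hp q = 1 ∧ ∀ x, φ (g • x) = k * φ x}
  one_mem' := ⟨1, by simp⟩
  mul_mem' := by
    rintro a b ⟨k, h1, h2⟩ ⟨l, h3, h4⟩
    exact ⟨k * l, by rw [mul_pow, h1, h3, one_mul], fun x => by rw [mul_smul, h2, h4, mul_assoc]⟩
  inv_mem' := by
    rintro a ⟨k, h1, h2⟩
    refine ⟨k⁻¹, by rw [inv_pow, h1, inv_one], fun x => ?_⟩
    rw [eq_inv_mul_iff_mul_eq₀ fun e => by simp [e, (br_dvd (two_le_q F q)).2] at h1, ← h2, smul_inv_smul]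

theorem br_ex {k : L} (hk : k ^ hp q = 1) : ∃ g ∈ brT (q := q) φ, ∀ x, φ (g • x) = k * φ x := by
  obtain ⟨j, hj⟩ := (br_dvd (two_le_q F q)).1
  obtain ⟨g, hg, -⟩ := exists_mul φ hφ (k := k) (by rw [hj, pow_mul, hk, one_pow])
  exact ⟨g, ⟨k, hk, hg⟩, hg⟩

theorem br_form {σ : GU 7 F q} (h2 : ∀ x, φ (σ • x) = φ x ^ q ^ 2) {g : GU 7 F q} (hg : g ∈ SS F q)
    (hn : ∀ k : L, ∃ k' : L, ∀ b, brG φ g (k * b) = k' * brG φ g b) :
    ∃ z ∈ ZZ F q, ∃ u ∈ brT (q := q) φ, ∃ i : ℕ, g = z * u * σ ^ i := by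
  obtain ⟨c, u, i, h3, h4, h5⟩ := norm_form φ hφ hg fun k => (hn k).imp fun k' hk x y e => by
    rw [← brG_apply, e, hk, brG_apply]
  obtain ⟨z, hz, e1⟩ := exists_ZZ h3
  obtain ⟨w, hw, e2⟩ := br_ex φ hφ h4
  exact ⟨z, hz, w, hw, i, br_ext φ fun x => by rw [h5, mul_smul, mul_smul, e1, map_smul, e2, br_sig φ h2]⟩

theorem br_sg {σ : GU 7 F q} (h1 : σ ∈ SS F q) (h2 : ∀ x, φ (σ • x) = φ x ^ q ^ 2) : Sg (brT φ) σ := by
  have := Finite.of_equiv _ φ.toEquiv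
  have cj : ∀ (i : ℕ) (s : GU 7 F q) (k : L), (∀ x, φ (s • x) = k * φ x) →
      ∀ x, φ ((σ ^ i * s * (σ ^ i)⁻¹) • x) = k ^ (q ^ 2) ^ i * φ x := fun i s k h x => by
    rw [mul_smul, mul_smul, br_sig φ h2, h, mul_pow, ← br_sig φ h2, smul_inv_smul]
  have pw : ∀ (k : L) (n : ℕ), k ^ hp q = 1 → (k ^ n) ^ hp q = 1 := fun k n h => by
    rw [pow_right_comm, h, one_pow]
  have n1 : ∀ (s : GU 7 F q) (k : L), (∀ x, φ (s • x) = k * φ x) → s ≠ 1 → k ≠ 1 := fun s k h s1 e =>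
    s1 (br_ext φ fun x => by rw [h, e, one_mul, one_smul])
  refine ⟨?_, h1, ?_, ?_, ?_, br_ext φ fun x => ?_, ?_, ?_, ?_⟩
  · rintro g ⟨k, h3, h4⟩
    exact Units.ext ((br_mul φ hφ h4).2.trans (br_one (q := q) (by rw [← map_pow, h3, map_one])))
  · rintro a ⟨k, -, h3⟩ b ⟨l, -, h4⟩
    exact br_ext φ fun x => by rw [mul_smul, mul_smul, h3, h4, h4, h3, mul_left_comm]
  · choose f h3 h4 using fun k : {k : L // k ^ hp q = 1} => br_ex φ hφ k.2
    rw [← Nat.card_congr (Equiv.ofBijective (fun k => (⟨f k, h3 k⟩ : brT φ)) ⟨fun a b e => ?_, fun g => ?_⟩),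
      card_pow_eq_one (br_dvd (two_le_q F q)).2, Nat.card_units, br_card (q := q) φ, ← pow_mul, mul_comm, pow_mul]
    · exact Nat.gcd_eq_right ((br_dvd (two_le_q F q)).1.trans (Nat.sq_sub_sq _ 1 ▸ dvd_mul_right _ _))
    · have := h4 a (φ.symm 1)
      rw [show f a = f b from congrArg Subtype.val e, h4] at this
      exact Subtype.ext (by simpa using this.symm)
    · obtain ⟨k, h5, h6⟩ := g.2
      exact ⟨⟨k, h5⟩, Subtype.ext (br_ext φ fun x => (h4 _ x).trans (h6 x).symm)⟩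
  · rintro s ⟨k, h3, h4⟩
    exact ⟨_, pw k _ h3, by simpa only [pow_one σ] using cj 1 s k h4⟩
  · have := Fintype.ofFinite L
    rw [br_sig φ h2, ← br_card (q := q) φ, Nat.card_eq_fintype_card, FiniteField.pow_card, one_smul]
  · rintro i i0 i7 s ⟨k, h3, h4⟩ ⟨c, hc⟩
    have e := congrArg φ (hc (s • φ.symm 1))
    rw [mul_smul, inv_smul_smul, cj i s k h4, map_smul, h4, φ.apply_symm_apply, mul_one, mul_one] at e
    have e1 := pw k ((q ^ 2) ^ i) h3
    rw [e, smul_pow, h3, ← Algebra.algebraMap_eq_smul_one, ← map_one (algebraMap F L),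
      (algebraMap F L).injective.eq_iff] at e1
    rw [br_one e1, one_smul] at e
    by_contra s1
    obtain ⟨b, hb⟩ := br_fix φ (Nat.not_dvd_of_pos_of_lt i0 i7) e
    exact br_nf h3 (n1 s k h4 s1) b hb
  · rintro g hg s ⟨k, h3, h4⟩ s1 t ⟨l, -, h5⟩ ⟨c, hc⟩
    let A : Subalgebra F L :=
      { carrier := {a | ∃ a', ∀ b, brG φ g (a * b) = a' * brG φ g b}
        mul_mem' := by
          rintro a b ⟨a', ha⟩ ⟨b', hb⟩
          exact ⟨a' * b', fun x => by rw [mul_assoc, ha, hb, mul_assoc]⟩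
        add_mem' := by
          rintro a b ⟨a', ha⟩ ⟨b', hb⟩
          exact ⟨a' + b', fun x => by rw [add_mul, map_add, ha, hb, add_mul]⟩
        algebraMap_mem' := fun r => ⟨algebraMap F L r, fun x => by
          rw [← Algebra.smul_def, map_smul, Algebra.smul_def]⟩ }
    refine br_form φ hφ h2 hg (br_top φ (br_nf h3 (n1 s k h4 s1)) (A := A) ⟨c • l, fun b => ?_⟩)
    obtain ⟨x, rfl⟩ := φ.surjective b
    have e := congrArg φ (hc (t • g • x))
    rw [mul_smul, inv_smul_smul, mul_smul, inv_smul_smul, mul_smul, map_smul φ c, h5] at e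
    rw [← h4, brG_apply, brG_apply, e, smul_mul_assoc]
  · rintro s ⟨k, h3, h4⟩ s1 W hW
    let A : Subalgebra F L :=
      { carrier := {a | ∀ v ∈ W, φ.symm (a * φ v) ∈ W}
        mul_mem' := fun {a b} ha hb v hv => by simpa [mul_assoc] using ha _ (hb v hv)
        add_mem' := fun {a b} ha hb v hv => by simpa [add_mul] using W.add_mem (ha v hv) (hb v hv)
        algebraMap_mem' := fun r v hv => by simpa [← Algebra.smul_def] using W.smul_mem r hv }
    refine or_iff_not_imp_left.2 fun h => eq_top_iff.2 fun w _ => ?_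
    obtain ⟨v, hv, v0⟩ := (Submodule.ne_bot_iff W).1 h
    simpa [div_mul_cancel₀ _ (φ.map_ne_zero_iff.2 v0)] using br_top φ (br_nf h3 (n1 s k h4 s1)) (A := A)
      (fun v hv => by simpa [← h4] using hW v hv) (φ w / φ v) v hv

end Model

/-- `gcd(hh q, q - 1) = 1`, `gcd(hh q, q + 1) ∣ 7`, `49 ∤ hh q` -/
theorem hp_coprime (h : 2 ≤ q) : Nat.Coprime (hp q) (q ^ 2 - 1) :=
  br_cop h

/-- Use `exists_model`.  `T = {g | ∃ k, k^(hp q) = 1 ∧ ∀ x, φ (g x) = k φ x}`, of order `hp q`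
(`hp q ∣ q^7 + 1 ∣ |Lˣ|`, cyclic group; `exists_mul`); determinant `N(k) ∈ F` is killed by `hp q` and
by `q² - 1`.  For `k ≠ 1`, `k^(hp q) = 1`: `k ∉ F` (`hp_coprime`), so `F[k] = L` (degree `7` is
prime), giving `irr` and (also for `c k`, `0 ≠ c ∈ F`) `ti` through `norm_form`; `fpf`:
`k^(q^(2i)) = c k`, `c ∈ F`, `c^(hp q) = 1` so `c = 1`, and the fixed field of `σ^i` is `F`. -/
theorem exists_sg (K : Subalgebra F (Matrix (Fin 7) (Fin 7) F)) (hK : Geo.IsFieldSubalgebra 7 K)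
    (hac : Geo.IsAdjointClosedFor (hermForm 7 F q) K) :
    ∃ (T : Subgroup (GU 7 F q)) (σ : GU 7 F q), Sg T σ ∧ ∀ g ∈ SS F q,
      ((g : GL (Fin 7) F) ∈ Geo.subalgebraNormalizer K ↔
        ∃ z ∈ ZZ F q, ∃ u ∈ T, ∃ i : ℕ, g = z * u * σ ^ i) := by
  obtain ⟨L, _, _, φ, hφ, h⟩ := exists_model K hK hac
  obtain ⟨σ, h1, h2⟩ := exists_sigma φ hφ
  refine ⟨brT φ, σ, br_sg φ hφ h1 h2, fun g hg => ?_⟩
  have e : ∀ (M : Matrix (Fin 7) (Fin 7) F) x, φ ((((g : GL (Fin 7) F) : Matrix (Fin 7) (Fin 7) F) * M *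
      ((g : GL (Fin 7) F)⁻¹ : GL (Fin 7) F)).mulVec x) = brG φ g (φ (M.mulVec (g⁻¹ • x))) := fun M x => by
    rw [← Matrix.mulVec_mulVec, ← Matrix.mulVec_mulVec, brG_apply]
    rfl
  refine ⟨fun hn => br_form φ hφ h2 hg fun k => ?_, ?_⟩
  · have e1 : ∀ x, φ ((LinearMap.toMatrix' (φ.symm.toLinearMap ∘ₗ LinearMap.mul F L k ∘ₗ φ.toLinearMap)).mulVec x) =
        k * φ x := fun x => by simp [LinearMap.toMatrix'_mulVec]
    obtain ⟨k', hk⟩ := (h _).1 ((hn _).1 ((h _).2 ⟨k, e1⟩))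
    refine ⟨k', fun b => ?_⟩
    obtain ⟨x, rfl⟩ := φ.surjective b
    rw [brG_apply, ← hk, e, inv_smul_smul, e1]
  · rintro ⟨z, ⟨c, hc⟩, u, ⟨l, -, hl⟩, i, hi⟩ M
    have e1 : ∀ k b, brG φ g (k * b) = k ^ (q ^ 2) ^ i * brG φ g b := fun k b => by
      have : ∀ b, brG φ g b = c • (l * b ^ (q ^ 2) ^ i) := fun b => by
        obtain ⟨x, rfl⟩ := φ.surjective b
        rw [brG_apply, hi, mul_smul, mul_smul, hc, map_smul, hl, br_sig φ h2]
      rw [this, this, mul_pow, mul_smul_comm, mul_left_comm]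
    obtain ⟨f, h3, -⟩ := br_frob (q := q) φ
    rw [h, h]
    refine ⟨fun ⟨k, hk⟩ => ⟨k ^ (q ^ 2) ^ i, fun x => by rw [e, hk, e1, brG_apply, smul_inv_smul]⟩, fun ⟨k, hk⟩ => ?_⟩
    obtain ⟨k, rfl⟩ := (f ^ i).surjective k
    refine ⟨k, fun x => ?_⟩
    have := hk (g • x)
    rw [e, inv_smul_smul, h3, ← brG_apply, ← e1] at this
    exact brG_inj φ g this

end Cfsg.Agent.U7
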