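import Cfsg.Agent.U7.W0
import Cfsg.Agent.U7.W1

/-!
# The Weil representation
-/

set_option autoImplicit false
set_option linter.unusedSectionVars false

namespace Cfsg.Agent.U7

open Cfsg.Agent.Class.U Cfsg.Agent.Char
open scoped ComplexConjugate

variable {F : Type*} [Field F] [Fintype F] {q : ℕ} [UF F q] {ψ : AddChar F ℂ} {e : (Fin 7 → F) → MM q}

open Classical in
theorem He.w2_term (h : He ψ e) (a b c d : Fin 7 → F) : (e a * ei ψ e b * (e c * ei ψ e d)).trace =
    if a - b + (c - d) = 0 then (q : ℂ) ^ 7 * ψ (hermForm 7 F q (a - b) (d - a)) else 0 := by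
  rw [h.mul_ei', h.mul_ei', Matrix.smul_mul, Matrix.mul_smul, h.mul, smul_smul, smul_smul, Matrix.trace_smul]
  split_ifs with k
  · rw [k, h.zero, Matrix.trace_one, Fintype.card_fin, Nat.cast_pow, smul_eq_mul, mul_comm,
      ← AddChar.map_add_eq_mul, ← AddChar.map_add_eq_mul, ← neg_eq_of_add_eq_zero_right k]
    congr 2
    rw [show d - a = d - b - (a - b) by abel]
    generalize a - b = u
    simp only [herm_neg_left, herm_neg_right, herm_sub_right]
    ring
  · rw [h.tr _ k, smul_zero]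

theorem w2_skew (g : GU 7 F q) (x y : Fin 7 → F) :
    hermForm 7 F q (g • y - y) (g • x) + hermForm 7 F q (g • y) (g • x - x) =
      hermForm 7 F q (g • y - y) (g • x - x) ∧
    hermForm 7 F q (y - g • y) x + hermForm 7 F q y (x - g • x) = hermForm 7 F q (y - g • y) (x - g • x) := by
  simp only [herm_sub_left, herm_sub_right, GU_herm]
  constructor <;> ring

/-- Write `X g = ∑_x e (g x) ei x`, `t(g,k) = tr (X g * X k)`.
`tr (e (g x) ei x e (k y) ei y)` is `q^7 ψ (B p p)` if `p = (x,y)` lies in the subspace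
`P = {(x,y) | g x - x + (k y - y) = 0}` and `0` otherwise (`mul_ei'`, `mul`, `tr`), where
`B (x,y) (x',y') = 𝐡 (g x - x) (y' - g x')`.  `B` is skew-hermitian on `P`: with `u = g x - x = y - k y`,
`𝐡(u, g x') + 𝐡(g x, u') = 2𝐡(x,x') - 𝐡(g x,x') - 𝐡(x,g x') = 𝐡(u,u')` and likewise
`𝐡(u,y') + 𝐡(y,u') = 𝐡(u,u')`.  So `gauss` applies. -/
theorem He.tr_XX (h : He ψ e) (g k : GU 7 F q) : ∃ j : ℕ,
    ((∑ x : Fin 7 → F, e (g • x) * ei ψ e x) * ∑ y : Fin 7 → F, e (k • y) * ei ψ e y).trace =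
      (q : ℂ) ^ 7 * (-(q : ℂ)) ^ j := by
  classical
  let P : Submodule F ((Fin 7 → F) × (Fin 7 → F)) :=
    { carrier := {p | g • p.1 - p.1 + (k • p.2 - p.2) = 0}
      zero_mem' := by simp
      add_mem' := fun {a b} ha hb => by
        simp only [Set.mem_ofPred_eq, Prod.fst_add, Prod.snd_add, smul_add] at ha hb ⊢
        linear_combination (exp := 1) ha + hb
      smul_mem' := fun c a ha => by
        simp only [Set.mem_ofPred_eq, Prod.smul_fst, Prod.smul_snd, GU_smul_comm] at ha ⊢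
        rw [← smul_sub, ← smul_sub, ← smul_add, ha, smul_zero] }
  obtain ⟨j, hj⟩ := gauss h.nt P (fun p p' => hermForm 7 F q (g • p.1.1 - p.1.1) (p'.1.2 - g • p'.1.1))
    (fun x y z => by
      rw [← herm_add_left, Submodule.coe_add, Prod.fst_add, smul_add]
      congr 1
      abel)
    (fun c x y => by rw [← herm_smul_left, Submodule.coe_smul, Prod.smul_fst, GU_smul_comm, smul_sub])
    fun x y => by
      have h1 := (w2_skew g x.1.1 y.1.1).1
      have h2 := (w2_skew k x.1.2 y.1.2).2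
      have e1 : x.1.2 - k • x.1.2 = g • x.1.1 - x.1.1 := by rw [← neg_sub, neg_eq_of_add_eq_zero_left x.2]
      have e2 : y.1.2 - k • y.1.2 = g • y.1.1 - y.1.1 := by rw [← neg_sub, neg_eq_of_add_eq_zero_left y.2]
      rw [e1, e2] at h2
      rw [← conj_apply, herm_conj, herm_sub_right, herm_sub_left (y.1.2)]
      linear_combination h2 - h1
  refine ⟨j, ?_⟩
  rw [← hj, Finset.sum_mul_sum, ← Fintype.sum_prod_type', Matrix.trace_sum, Finset.mul_sum]
  simp only [h.w2_term]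
  rw [← Finset.sum_filter]
  exact Finset.sum_subtype _ (fun p => by rw [Finset.mem_filter, and_iff_right (Finset.mem_univ _)]; rfl)
    fun p : (Fin 7 → F) × (Fin 7 → F) => (q : ℂ) ^ 7 * ψ (hermForm 7 F q (g • p.1 - p.1) (p.2 - g • p.1))

/-- reindex `x ↦ g x`, `y ↦ k y`: the terms of the left side are the traces of the inverses
`e y ei (k y) e x ei (g x)` of the matrices `e (g x) ei x e (k y) ei y`; both are explicit:
`q^7 ψ (∓ B p p)` on `P`, `0` off `P`, and `conj (ψ a) = ψ (-a)` (`AddChar.map_neg_eq_conj`). -/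
theorem He.tr_XX_inv (h : He ψ e) (g k : GU 7 F q) :
    ((∑ y : Fin 7 → F, e (k⁻¹ • y) * ei ψ e y) * ∑ x : Fin 7 → F, e (g⁻¹ • x) * ei ψ e x).trace =
      conj ((∑ x : Fin 7 → F, e (g • x) * ei ψ e x) * ∑ y : Fin 7 → F, e (k • y) * ei ψ e y).trace := by
  classical
  rw [← Equiv.sum_comp (MulAction.toPerm k), ← Equiv.sum_comp (MulAction.toPerm g) fun x => e (g⁻¹ • x) * ei ψ e x,
    Finset.sum_mul_sum, Finset.sum_mul_sum, Finset.sum_comm]
  simp only [MulAction.toPerm_apply, inv_smul_smul, Matrix.trace_sum, map_sum, h.w2_term]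
  refine Finset.sum_congr rfl fun x _ => Finset.sum_congr rfl fun y _ => ?_
  have : y - k • y + (x - g • x) = -(g • x - x + (k • y - y)) := by abel
  rw [this]
  by_cases c : g • x - x + (k • y - y) = 0
  · rw [if_pos c, if_pos (neg_eq_zero.2 c), map_mul, map_pow, map_natCast, ← AddChar.map_neg_eq_conj,
      ← herm_neg_right, neg_sub, ← neg_eq_of_add_eq_zero_left c, neg_sub]
  · rw [if_neg c, if_neg (neg_eq_zero.not.2 c), map_zero]

/-- `rho g * rho g⁻¹` commutes with all `e v` (`rho_e`), so it is a scalar `c` (`scalar`);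
`q^7 c = tr`.  Direct computation: for `k = g⁻¹`,
`X g * X g⁻¹ = ∑_y X g e (g⁻¹ y) ei y = ∑_y e y X g ei y`, trace `q^14 tr (X g) = q^14 q^7 q^{2d}`,
and `(-q)^{2(7+d)} = q^{14+2d}` (`dd_inv`); so `c = 1`. -/
theorem He.rho_inv (h : He ψ e) (g : GU 7 F q) : rho ψ e g * rho ψ e g⁻¹ = 1 := by
  have q0 := w0_q h
  obtain ⟨c, hc⟩ := h.scalar (A := rho ψ e g * rho ψ e g⁻¹) fun v => by
    rw [mul_assoc, h.rho_e, ← mul_assoc, h.rho_e, smul_inv_smul, mul_assoc]
  have t := congrArg Matrix.trace hc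
  have k : ∀ y, (rho ψ e g * (e (g⁻¹ • y) * ei ψ e y)).trace = om g := fun y => by
    rw [← mul_assoc, h.rho_e, smul_inv_smul, Matrix.trace_mul_cycle, h.ei_mul, one_mul, h.tr_rho]
  rw [rho.eq_def ψ e g⁻¹, Matrix.mul_smul, Finset.mul_sum, Matrix.trace_smul, Matrix.trace_sum] at t
  simp only [k, Finset.sum_const, Finset.card_univ, w0_card (q := q), dd_inv, Matrix.trace_smul,
    Matrix.trace_one, Fintype.card_fin, om, smul_eq_mul, nsmul_eq_mul, pow_add] at t
  have c1 : c = 1 := by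
    have n : (-(q : ℂ)) ^ dd g ≠ 0 := pow_ne_zero _ (neg_ne_zero.2 q0)
    push_cast at t
    field_simp at t
    exact t.symm
  rw [hc, c1, one_smul]

theorem He.w2_s (h : He ψ e) (g k : GU 7 F q) : ∃ s : ℂ, rho ψ e g * rho ψ e k = s • rho ψ e (g * k) := by
  obtain ⟨c, hc⟩ := h.scalar (A := rho ψ e g * rho ψ e k * rho ψ e (g * k)⁻¹) fun v => by
    rw [mul_assoc, h.rho_e, ← mul_assoc, mul_assoc (rho ψ e g), h.rho_e, ← mul_assoc, h.rho_e, ← mul_smul,
      ← mul_smul, mul_inv_cancel, one_smul, mul_assoc, mul_assoc, mul_assoc]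
  have := h.rho_inv (g * k)⁻¹
  rw [inv_inv] at this
  exact ⟨c, by rw [← mul_one (_ * _), ← this, ← mul_assoc, hc, Matrix.smul_mul, one_mul]⟩

/-- `rho g * rho k * rho (g k)⁻¹` commutes with all `e v`, so `rho g * rho k = s(g,k) • rho (g k)`
(`rho_inv`).  Taking traces (`tr_rho`, `om ≠ 0`, `tr_XX`): `s(g,k) = (-q)^a / (-q)^b` up to the
sign bookkeeping `q^7 = -(-q)^7`, i.e. `s(g,k) = (-q)^m`, `m : ℤ`.  Inverting gives
`s(k⁻¹,g⁻¹) s(g,k) = 1`; `tr_XX_inv` and `dd_inv` give `s(k⁻¹,g⁻¹) = conj s(g,k) = s(g,k)`.  So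
`(-q)^{2m} = 1`, `m = 0`. -/
theorem He.rho_mul (h : He ψ e) (g k : GU 7 F q) : rho ψ e (g * k) = rho ψ e g * rho ψ e k := by
  have q0 := w0_q h
  have n : ∀ m : ℕ, (-(q : ℂ)) ^ m ≠ 0 := fun m => pow_ne_zero _ (neg_ne_zero.2 q0)
  obtain ⟨s, hs⟩ := h.w2_s g k
  obtain ⟨s', hs'⟩ := h.w2_s k⁻¹ g⁻¹
  obtain ⟨j, hj⟩ := h.tr_XX g k
  have hj' := h.tr_XX_inv g k
  rw [← mul_inv_rev] at hs'
  have h1 : s * s' = 1 := by
    have : rho ψ e g * rho ψ e k * (rho ψ e k⁻¹ * rho ψ e g⁻¹) = 1 := by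
      rw [mul_assoc, ← mul_assoc (rho ψ e k), h.rho_inv, one_mul, h.rho_inv]
    rw [hs, hs', Matrix.smul_mul, Matrix.mul_smul, h.rho_inv, smul_smul] at this
    have := congrArg Matrix.trace this
    rw [Matrix.trace_smul, Matrix.trace_one, Fintype.card_fin, Nat.cast_pow, smul_eq_mul] at this
    exact (mul_eq_right₀ (pow_ne_zero 7 q0)).1 this
  have t := congrArg Matrix.trace hs
  have t' := congrArg Matrix.trace hs'
  rw [hj, map_mul, map_pow, map_pow, map_neg, map_natCast] at hj'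
  rw [Matrix.trace_smul, h.tr_rho, rho, rho, Matrix.smul_mul, Matrix.mul_smul, Matrix.trace_smul,
    Matrix.trace_smul] at t t'
  rw [hj, om] at t
  rw [hj', om, dd_inv, dd_inv, dd_inv, smul_comm, t] at t'
  have h2 : s = s' := mul_right_cancel₀ (neg_ne_zero.2 (n _)) t'
  have h3 : s * (-(q : ℂ)) ^ (7 + dd g + (7 + dd k) + dd (g * k)) = (-(q : ℂ)) ^ (7 + j) := by
    have a := n (7 + dd g)
    have b := n (7 + dd k)
    simp only [smul_eq_mul] at t
    field_simp at t
    rw [pow_add _ (_ + _), pow_add _ (7 + dd g), pow_add _ 7 j]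
    linear_combination t
  have h4 := congrArg (· ^ 2) h3
  simp only [mul_pow, sq s, pow_right_comm _ _ 2, neg_sq] at h4
  rw [← h2] at h1
  rw [h1, one_mul] at h4
  have h5 : 7 + dd g + (7 + dd k) + dd (g * k) = 7 + j := Nat.pow_right_injective (a := q ^ 2)
    (le_trans (two_le_q F q) (Nat.le_self_pow two_ne_zero q)) (by exact_mod_cast h4)
  rw [h5, mul_eq_right₀ (n _)] at h3
  rw [hs, h3, one_smul]

/-- the representation `g ↦ toLin' (rho g)` on `Fin (q^7) → ℂ` (`exists_he`, `tr_rho`) -/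
theorem isCharacter_om : IsCharacter (GU 7 F q) om := by
  obtain ⟨ψ, e, h⟩ := exists_he (F := F) (q := q)
  refine ⟨q ^ 7, ⟨⟨fun g => Matrix.toLin' (rho ψ e g), by rw [h.rho_one, Matrix.toLin'_one]; rfl⟩,
    fun a b => (congrArg Matrix.toLin' (h.rho_mul a b)).trans (Matrix.toLin'_mul _ _)⟩, funext fun g => ?_⟩
  exact (Matrix.trace_toLin'_eq _).trans (h.tr_rho g)

/-- `⟨res θ, χ⟩_H = ⟨om ∘ m, χ ⊗ θ⟩_{H × ZZ}` where `m (g, z) = z g` is a homomorphism
`H × ZZ → GU`; pull-backs and products of characters are characters and the inner product of two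
characters is a natural number; use `IsClassFunction.isCharacter_of_inner`. -/
theorem isCharacter_res (H : Subgroup (GU 7 F q)) (θ : IrrCharacter (ZZ F q)) :
    IsCharacter H (res H θ) := by
  refine _root_.Cfsg.Agent.Char.Cfsg.IsClassFunction.isCharacter_of_inner (fun a b => ?_) fun χ hχ => ?_
  · simp only [res, omt, om]
    refine congrArg _ (Finset.sum_congr rfl fun z _ => ?_)
    rw [← dd_conj ((z : GU 7 F q) * (a : GU 7 F q)) b, ← mul_assoc (b : GU 7 F q), ← ZZ_comm z.2, Subgroup.coe_mul, Subgroup.coe_mul,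
      mul_assoc (z : GU 7 F q), mul_assoc (z : GU 7 F q)]
    rfl
  let m : H × ZZ F q →* GU 7 F q :=
    { toFun := fun p => p.2 * p.1
      map_one' := one_mul _
      map_mul' := fun a b => by
        simp only [Prod.fst_mul, Prod.snd_mul, Subgroup.coe_mul, mul_assoc]
        rw [← mul_assoc (b.2 : GU 7 F q), ZZ_comm b.2.2, mul_assoc] }
  obtain ⟨n, hn⟩ := (isCharacter_om.comp m).exists_nat_inner
    ((hχ.isCharacter.comp (MonoidHom.fst H (ZZ F q))).mul (θ.2.isCharacter.comp (MonoidHom.snd H (ZZ F q))))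
  refine ⟨n, hn ▸ ?_⟩
  rw [classInner, classInner, Nat.card_prod, card_ZZ, Fintype.sum_prod_type, Nat.cast_mul, mul_inv, mul_assoc,
    Finset.mul_sum _ _ ((q + 1 : ℕ) : ℂ)⁻¹]
  refine congrArg _ (Finset.sum_congr rfl fun a _ => ?_)
  rw [res, omt, mul_assoc, Finset.sum_mul, Nat.cast_succ]
  refine congrArg _ (Finset.sum_congr rfl fun z _ => ?_)
  simp only [Pi.mul_apply, map_mul, MonoidHom.coe_fst, MonoidHom.coe_snd]
  rw [show m (a, z) = (z : GU 7 F q) * (a : GU 7 F q) from rfl]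
  ring

end Cfsg.Agent.U7
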