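import Cfsg.Agent.U7.TC
import Cfsg.Agent.U7.W2
import Cfsg.Agent.S4503

/-!
# The Weil characters when `7 ∤ q + 1`
-/

set_option autoImplicit false
set_option linter.unusedSectionVars false

namespace Cfsg.Agent.U7

open Cfsg.Agent.Class.U Cfsg.Agent.Char
open scoped ComplexConjugate

section Abs

variable {H : Type*} [Group H] [Fintype H] {Z S : Subgroup H} {σ : H} {h : ℕ}

open Classical in
theorem TZ.d1_mu [Fintype S] (D : TZ Z S σ h) {π : H → ℂ} {δ : ℕ} (h1 : π 1 = (h - δ : ℤ))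
    (h2 : ∀ s ∈ S, s ≠ 1 → π s = -(δ : ℂ)) (l : IrrCharacter S) :
    classInner (fun s : S => π s) l + (if l = irrOne S then δ else 0 : ℕ) = 1 := by
  have e : (fun s : S => π s) = regChar S - (δ : ℂ) • (irrOne S : S → ℂ) := by
    ext s
    by_cases hs : s = 1
    · subst hs
      simp [regChar_one, ← D.card, h1]
    · simp [regChar_of_ne_one hs, h2 s s.2 fun e => hs (Subtype.ext e)]
  rw [e, classInner_sub_left, classInner_smul_left, classInner_regChar_left, D.l1, irr_inner, map_one]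
  by_cases hl : l = irrOne S
  · simp [hl]
  · simp [hl, Ne.symm hl]

theorem d1_num {ι : Type*} [Fintype ι] {o : ι} {c d : ι → ℕ} {h δ : ℕ} (e : ∑ i, c i * d i + δ = h)
    (h1 : d o = 1) (h2 : c o + δ ≤ 1) (h3 : 2 ≤ h) (hd : ∀ i, i ≠ o → c i ≠ 0 → h < 2 * d i) :
    ∃ i, i ≠ o ∧ c i = 1 ∧ ∀ j, j ≠ o ∧ j ≠ i → c j = 0 := by
  classical
  obtain ⟨i, hi, ci⟩ : ∃ i, i ≠ o ∧ c i ≠ 0 := by
    by_contra! k
    rw [Finset.sum_eq_single o (fun j _ hj => by rw [k j hj, zero_mul]) (by simp), h1] at e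
    omega
  have k1 := hd i hi ci
  have k2 : c i * d i ≤ ∑ i, c i * d i :=
    Finset.single_le_sum (f := fun i => c i * d i) (fun _ _ => Nat.zero_le _) (Finset.mem_univ i)
  refine ⟨i, hi, ?_, fun j hj => ?_⟩
  · by_contra k
    have := Nat.mul_le_mul_right (d i) (show 2 ≤ c i by omega)
    omega
  · by_contra k
    have k3 := hd j hj.1 k
    have k4 : c j * d j + c i * d i ≤ ∑ i, c i * d i :=
      Finset.add_le_sum (f := fun i => c i * d i) (fun _ _ => Nat.zero_le _) (Finset.mem_univ j)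
        (Finset.mem_univ i) hj.2
    have := Nat.mul_le_mul_right (d i) (show 1 ≤ c i by omega)
    have := Nat.mul_le_mul_right (d j) (show 1 ≤ c j by omega)
    omega

theorem TZ.d1_fin (D : TZ Z S σ h) {π : H → ℂ} (hπ : IsCharacter H π) {δ : ℕ}
    (h1 : π 1 = (h - δ : ℤ)) (h2 : ∀ s ∈ S, s ≠ 1 → π s = -(δ : ℂ)) (h3 : 2 ≤ h)
    (hd : ∀ χ, IsIrrCharacter H χ → χ ≠ 1 → classInner π χ ≠ 0 → ∀ d : ℕ, χ 1 = d → h < 2 * d) :
    IsIrrCharacter H π ∨ (δ = 0 ∧ IsIrrCharacter H (π - 1)) := by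
  classical
  let _ : Fintype S := Fintype.ofFinite _
  obtain ⟨c, d, hc, hd', e, e1⟩ := Sing.exists_deg hπ
  choose k hk using fun χ : IrrCharacter H =>
    (χ.2.isCharacter.restrict S).exists_nat_inner (irrOne S).2.isCharacter
  have k1 : k (irrOne H) = 1 := by
    exact_mod_cast (hk (irrOne H)).symm.trans (irrOne S).2.inner_self
  have s1 : ∑ χ, c χ * k χ + δ = 1 := by
    have := D.d1_mu h1 h2 (irrOne S)
    have e2 : (fun s : S => π s) = ∑ χ, (c χ : ℂ) • fun s : S => (χ : H → ℂ) s := by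
      ext s
      simpa using congrFun e s
    rw [e2, classInner_sum_left, if_pos rfl] at this
    simp only [classInner_smul_left, hk] at this
    exact_mod_cast this
  have s2 : c (irrOne H) * k (irrOne H) ≤ ∑ χ, c χ * k χ :=
    Finset.single_le_sum (f := fun i => c i * k i) (fun _ _ => Nat.zero_le _) (Finset.mem_univ _)
  rw [k1, mul_one] at s2
  obtain ⟨i, hi, ci, hj⟩ := d1_num (o := irrOne H) (c := c) (d := d) (h := h) (δ := δ)
    (by
      rw [h1] at e1
      have : (h - δ : ℤ) = (∑ χ, c χ * d χ : ℕ) := by exact_mod_cast e1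
      omega)
    (by exact_mod_cast (hd' (irrOne H)).symm.trans (irrOne_apply 1)) (by omega) h3
    fun i hi ci => hd i i.2 (fun e => hi (Subtype.ext e)) (by rw [hc]; exact_mod_cast ci) _ (hd' i)
  rw [Fintype.sum_eq_add (irrOne H) i hi.symm (fun j h => by rw [hj j h, Nat.cast_zero, zero_smul]), ci,
    Nat.cast_one, one_smul] at e
  obtain h0 | h0 : c (irrOne H) = 0 ∨ c (irrOne H) = 1 := by omega
  · rw [h0, Nat.cast_zero, zero_smul, zero_add] at e
    exact Or.inl (e ▸ i.2)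
  · rw [h0, Nat.cast_one, one_smul] at e
    exact Or.inr ⟨by omega, (sub_eq_of_eq_add' e : π - 1 = i) ▸ i.2⟩

/-- `constit` with `m = 1`: exactly one constituent `χ` has `a = 1`, `n = 1`; the others have
`a = 0` and are trivial (`TZ.ne_zero`); the multiplicity of `1_H` is at most that of `1_S` in
`π|_S`, which is `1 - δ`. -/
theorem TZ.one_big (D : TZ Z S σ h) (hb : 196 < h) (hS : Subgroup.normalClosure (S : Set H) = ⊤)
    {π c : H → ℂ} (hπ : IsCharacter H π) (hc : Cen Z c π) {δ : ℕ} (hδ : δ ≤ 1)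
    (h1 : π 1 = (h - δ : ℤ)) (h2 : ∀ s ∈ S, s ≠ 1 → π s = -(δ : ℂ)) :
    IsIrrCharacter H π ∨ (δ = 0 ∧ IsIrrCharacter H (π - 1)) := by
  let _ : Fintype S := Fintype.ofFinite _
  refine D.d1_fin hπ h1 h2 (by omega) fun χ hχ hne _ d hd => ?_
  have := D.deg_ge hb hS hχ hne hd
  omega

/-- degrees `≤ 20` do not occur: let `K` be the kernel of `χ ≠ 1`.  `S` has prime order and
`S ≰ K` (`TZ.triv`), so `43 ∣ |H/K|`, `43² ∤ |H/K|`.  If `H/K` had a normal subgroup of order
`43` it would be the unique Sylow subgroup, i.e. the image of `S`, whose normal closure is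
everything; then `H/K` is cyclic, contradicting `perfect`.  `S4503.result` for the faithful
character of `H/K` (`Char/Quot`) gives `43 ≤ 2 χ(1) + 1`. -/
theorem TZ.deg43 (D : TZ Z S σ 43) (hS : Subgroup.normalClosure (S : Set H) = ⊤)
    (h43 : ¬ 43 ^ 2 ∣ Nat.card H) {χ : H → ℂ} (hχ : IsIrrCharacter H χ) (hne : χ ≠ 1) {d : ℕ}
    (hd : χ 1 = d) : 21 ≤ d := by
  obtain ⟨ξ, rfl⟩ : ∃ ξ : IrrCharacter H, (ξ : H → ℂ) = χ := ⟨⟨χ, hχ⟩, rfl⟩
  obtain ⟨ψ, hψ, hf⟩ := exists_faithful_deflation ξ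
  obtain ⟨s, hs, hs1⟩ : ∃ s ∈ S, (ξ : H → ℂ) s ≠ (ξ : H → ℂ) 1 := by
    by_contra! k
    exact hne (TZ.triv hS hχ k)
  have : Fact (Nat.Prime 43) := ⟨by norm_num⟩
  have hp : s ^ 43 = 1 := by
    have := pow_card_eq_one' (x := (⟨s, hs⟩ : S))
    rw [D.card] at this
    exact congrArg Subtype.val this
  have hK : s ∉ charKer (ξ : H → ℂ) := fun k => hs1 ((mem_charKer_iff hχ.isCharacter).1 k)
  have hx : orderOf (s : H ⧸ charKer (ξ : H → ℂ)) = 43 := orderOf_eq_prime
    (by rw [← QuotientGroup.mk_pow, hp, QuotientGroup.mk_one]) (mt (QuotientGroup.eq_one_iff s).1 hK)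
  have := ModSl2.le_two_mul_degree hx (fun k => h43 (k.trans (Subgroup.card_quotient_dvd_card _)))
    (fun hn => hK ?_) ψ.2.isCharacter hf
  · rw [charDegree_eq_of_one_eq ((hψ 1).trans hd)] at this
    omega
  have h1 : (Subgroup.zpowers (s : H ⧸ charKer (ξ : H → ℂ))).comap (QuotientGroup.mk' _) = ⊤ := by
    rw [eq_top_iff, ← hS]
    refine Subgroup.normalClosure_le_normal fun t ht => ?_
    obtain ⟨n, hn⟩ := mem_zpowers_of_prime_card D.card (g := (⟨s, hs⟩ : S)) (g' := ⟨t, ht⟩)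
      (fun e => hs1 (congrArg (ξ : H → ℂ) (congrArg Subtype.val e)))
    exact ⟨n, (map_zpow (QuotientGroup.mk' (charKer (ξ : H → ℂ))) s n).symm.trans
      (congrArg (QuotientGroup.mk' _) (congrArg Subtype.val hn))⟩
  have h2 : commutator H ≤ charKer (ξ : H → ℂ) := by
    refine Subgroup.commutator_le.2 fun a _ b _ => (QuotientGroup.eq_one_iff _).1 ?_
    obtain ⟨m, hm⟩ := (Subgroup.eq_top_iff' _).1 h1 a
    obtain ⟨n, hn⟩ := (Subgroup.eq_top_iff' _).1 h1 b
    refine (map_commutatorElement (QuotientGroup.mk' (charKer (ξ : H → ℂ))) a b).trans ?_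
    rw [← hm, ← hn]
    exact (Commute.zpow_zpow_self _ m n).commutator_eq
  exact h2 (D.perfect hS ▸ Subgroup.mem_top s)

/-- `π|_S = reg - δ · 1` is multiplicity free, so a constituent `χ` of degree `d` has
multiplicities in `{0, 1}` and `TZ.ineq` (`exists_cen`) reads `43 d - d² ≤ 7 · 43`, so `d ≤ 8` or
`d ≥ 35`; with `deg43`, `d ≥ 35` for `χ ≠ 1`.  So there is at most one non-trivial constituent,
with multiplicity one, and the multiplicity of `1_H` is at most `1 - δ`. -/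
theorem TZ.one_43 (D : TZ Z S σ 43) (hS : Subgroup.normalClosure (S : Set H) = ⊤)
    (h43 : ¬ 43 ^ 2 ∣ Nat.card H) {π : H → ℂ} (hπ : IsCharacter H π) {δ : ℕ} (hδ : δ ≤ 1)
    (h1 : π 1 = (43 - δ : ℤ)) (h2 : ∀ s ∈ S, s ≠ 1 → π s = -(δ : ℂ)) :
    IsIrrCharacter H π ∨ (δ = 0 ∧ IsIrrCharacter H (π - 1)) := by
  let _ : Fintype S := Fintype.ofFinite _
  refine D.d1_fin hπ h1 h2 (by omega) fun χ hχ hne hi d hd => ?_
  have k1 := D.deg43 hS h43 hχ hne hd
  obtain ⟨c, hc⟩ := D.exists_cen hχ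
  obtain ⟨m, hm⟩ := Sing.exists_mu (S := S) hχ.isCharacter.isGen
  have k2 := D.ineq hm hχ.isCharacter.isGen hc (n := 1) (by rw [hχ.inner_self, Nat.cast_one])
  have k3 : (d : ℤ) = ∑ l, m l := by exact_mod_cast hd.symm.trans (D.deg hm hχ.isClassFunction)
  have k4 : ∀ l, m l ^ 2 = m l := fun l => by
    obtain ⟨a, ha⟩ := (hχ.isCharacter.restrict S).exists_nat_inner l.2.isCharacter
    obtain ⟨b, hb⟩ := ((hπ.sub_irr hχ hi).restrict S).exists_nat_inner l.2.isCharacter
    have e := D.d1_mu h1 h2 l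
    have e1 : (fun s : S => π s) = (fun s : S => χ s) + fun s : S => (π - χ) s := by
      ext s
      simp
    rw [e1, classInner_add_left, ha, hb] at e
    have e2 : m l = a := by exact_mod_cast (hm l).symm.trans ha
    norm_cast at e
    obtain rfl | rfl : a = 0 ∨ a = 1 := by omega
    all_goals simp [e2]
  simp only [k4, ← k3] at k2
  by_contra k
  obtain rfl : d = 21 := by omega
  norm_num at k2

end Abs

variable {F : Type*} [Field F] [Fintype F] {q : ℕ} [UF F q]

/-- `hp q = hh q`; apply `one_big` (`q ≥ 3`, `hp_big`) or `one_43` (`q = 2`, `|H| ∣ so 2` by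
`card_SS`) to `res H θ` (`isCharacter_res`, `cen_res`, `omt_one`, `Sg.omt_T`, `Hy.tz'`). -/
theorem Hy.dsh_of_not {H T : Subgroup (GU 7 F q)} {σ : GU 7 F q} (D : Hy H T σ)
    (h7 : ¬ 7 ∣ q + 1) : Dsh H := by
  classical
  have key : ∀ θ : IrrCharacter (ZZ F q), IsIrrCharacter H (res H θ) ∨
      ((if θ = irrOne _ then 1 else 0 : ℕ) = 0 ∧ IsIrrCharacter H (res H θ - 1)) := fun θ => by
    have h1 : res H θ 1 = (hp q - (if θ = irrOne _ then 1 else 0 : ℕ) : ℤ) := by
      rw [hp_of_not h7]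
      simpa [res] using omt_one θ
    have h2 : ∀ s ∈ T.subgroupOf H, s ≠ 1 → res H θ s = -((if θ = irrOne _ then 1 else 0 : ℕ) : ℂ) :=
      fun s hs s1 => by simpa [res] using D.toSg.omt_T θ hs fun e => s1 (Subtype.ext e)
    have hδ : (if θ = irrOne _ then 1 else 0 : ℕ) ≤ 1 := by split_ifs <;> simp
    rcases (two_le_q F q).eq_or_lt with rfl | h3
    · have D' := D.tz'
      rw [hp_two] at D' h1
      refine D'.one_43 D.ncl (fun k => ?_) (isCharacter_res H θ) hδ h1 h2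
      have := k.trans (Subgroup.card_dvd_of_le D.HS)
      rw [card_SS] at this
      exact absurd this (by norm_num [so])
    · exact D.tz'.one_big (by have := hp_big h3; omega) D.ncl (isCharacter_res H θ) (cen_res H θ) hδ h1 h2
  exact ⟨(key _).resolve_right (by simp), fun θ _ => (key θ).imp_right And.right⟩

end Cfsg.Agent.U7
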