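import Cfsg.Agent.U7.Defs
import Cfsg.Agent.Sing.ChA

/-!
# Degrees modulo a cyclic TI Sylow subgroup
-/

set_option autoImplicit false
set_option linter.unusedSectionVars false

namespace Cfsg.Agent.U7

open Cfsg.Agent.Class.U Cfsg.Agent.Char Finset
open scoped ComplexConjugate

/-- pure counting: `m : A × B → ℤ`, `N = |A| ≥ 50`.  `D_η = N ∑_l m² - (∑_l m)² ≥ 0`; as in
`Sing.exists_shift` there is `a_η` with `T_η = ∑_l (m - a_η)²`, `N T_η ≤ 2 D_η`; with
`U_η = ∑_l (m - a_η)`: `|U_η| ≤ T_η` (`abs_sum_le`), `D_η = N T_η - U_η²` (`shift_eq`).  So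
`t = ∑ T_η ≤ 12` and `N t - t² ≤ ∑ D_η ≤ 6 N`, whence `t ≤ 6`; `β = ∑ U_η`. -/
theorem shift6 {A B : Type*} [Fintype A] [Fintype B] (m : A → B → ℤ) (hA : 50 ≤ Fintype.card A)
    (h : ∑ η : B, ((Fintype.card A : ℤ) * ∑ l, m l η ^ 2 - (∑ l, m l η) ^ 2) ≤ 6 * Fintype.card A) :
    ∃ β : ℤ, |β| ≤ 6 ∧ (Fintype.card A : ℤ) ∣ ∑ η, ∑ l, m l η - β := by
  rcases isEmpty_or_nonempty B with hB | hB
  · exact ⟨0, by simp, by simp⟩
  have hne : (univ : Finset A).Nonempty := card_pos.1 (by rw [card_univ]; omega)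
  have hN : (50 : ℤ) ≤ Fintype.card A := by exact_mod_cast hA
  have k : ∀ η, ∃ a : ℤ, Fintype.card A * ∑ l, (m l η - a) ^ 2 ≤
      2 * ((Fintype.card A : ℤ) * ∑ l, m l η ^ 2 - (∑ l, m l η) ^ 2) := fun η => by
    obtain ⟨μ, -, hμ⟩ := exists_le_of_sum_le (f := fun μ => Fintype.card A * ∑ l, (m l η - m μ η) ^ 2)
      (g := fun _ => 2 * ((Fintype.card A : ℤ) * ∑ l, m l η ^ 2 - (∑ l, m l η) ^ 2)) hne (by
        simp only [sub_sq, sum_add_distrib, sum_sub_distrib, sum_const, card_univ, nsmul_eq_mul,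
          ← sum_mul, ← mul_sum]
        exact le_of_eq (by ring))
    exact ⟨_, hμ⟩
  choose a ha using k
  have hU : ∀ η, |∑ l, (m l η - a η)| ≤ ∑ l, (m l η - a η) ^ 2 := fun η => Sing.abs_sum_le _
  have h0 : ∀ η, 0 ≤ ∑ l, (m l η - a η) ^ 2 := fun η => sum_nonneg fun _ _ => sq_nonneg _
  have h1 := sum_le_sum fun η (_ : η ∈ univ) => ha η
  rw [← mul_sum, ← mul_sum] at h1
  have h2 : ∑ η, (∑ l, (m l η - a η)) ^ 2 ≤ (∑ η, ∑ l, (m l η - a η) ^ 2) ^ 2 := by
    rw [sq, sum_mul]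
    refine sum_le_sum fun η _ => ?_
    have := single_le_sum (fun η _ => h0 η) (mem_univ η)
    have := sq_le_sq' (neg_le_of_abs_le (hU η)) (le_of_abs_le (hU η))
    nlinarith [h0 η]
  have h3 := h
  simp only [fun η => (Sing.shift_eq (fun l => m l η) (a η)).symm, sum_sub_distrib (f := fun η =>
    (Fintype.card A : ℤ) * ∑ l, (m l η - a η) ^ 2), ← mul_sum] at h3
  refine ⟨∑ η, ∑ l, (m l η - a η), (abs_sum_le_sum_abs _ _).trans ((sum_le_sum fun η _ => hU η).trans ?_),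
    ∑ η, a η, by simp [sum_sub_distrib, mul_sum]⟩
  generalize ∑ η, ∑ l, (m l η - a η) ^ 2 = t at *
  have : t ≤ 12 := by nlinarith
  by_contra k
  nlinarith

theorem d2a_parseval {H A B : Type*} [Group H] [Group A] [Group B] [Fintype A] [Fintype B]
    [DecidableEq A] (hA : ∀ a b : A, a * b = b * a) (hB : ∀ a b : B, a * b = b * a) (f : A × B →* H)
    {χ : H → ℂ} (hχ : IsCharacter H χ) : ∃ m : IrrCharacter A → IrrCharacter B → ℤ,
      χ 1 = (∑ η, ∑ l, m l η : ℤ) ∧ ∑ p ∈ univ.erase 1 ×ˢ univ, ‖χ (f p)‖ ^ 2 = Nat.card B *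
        (∑ η, ((Nat.card A : ℤ) * ∑ l, m l η ^ 2 - (∑ l, m l η) ^ 2) : ℤ) := by
  have cA : ∀ φ : A → ℂ, IsClassFunction A φ := fun φ g h => by rw [hA h, mul_inv_cancel_right]
  have cB : ∀ φ : B → ℂ, IsClassFunction B φ := fun φ g h => by rw [hB h, mul_inv_cancel_right]
  have a0 : (Nat.card A : ℝ) ≠ 0 := by exact_mod_cast Nat.card_pos.ne'
  have b0 : (Nat.card B : ℝ) ≠ 0 := by exact_mod_cast Nat.card_pos.ne'
  let F : IrrCharacter B → A → ℂ := fun η u => classInner (fun v => χ (f (u, v))) η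
  have k : ∀ (l : IrrCharacter A) (η : IrrCharacter B), ∃ n : ℕ, classInner (F η) l = n := fun l η => by
    obtain ⟨n, hn⟩ := (hχ.comp f).exists_nat_inner
      ((l.2.isCharacter.comp (MonoidHom.fst A B)).mul (η.2.isCharacter.comp (MonoidHom.snd A B)))
    refine ⟨n, Eq.trans ?_ hn⟩
    simp only [F, classInner_def, Fintype.sum_prod_type, Nat.card_prod, mul_sum, sum_mul, Pi.mul_apply,
      map_mul (starRingEnd ℂ), MonoidHom.coe_fst, MonoidHom.coe_snd, Nat.cast_mul, mul_inv]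
    exact sum_congr rfl fun _ _ => sum_congr rfl fun _ _ => by ring
  choose m hm using k
  have e1 : ∀ η, F η 1 = (∑ l, (m l η : ℤ) : ℤ) := fun η => by
    rw [(cA (F η)).apply_eq_sum_irr]
    simp [hm, fun l : IrrCharacter A => l.2.one_eq_one_of_comm hA]
  have e2 : ∀ η, ∑ u, ‖F η u‖ ^ 2 = Nat.card A * (∑ l, (m l η : ℤ) ^ 2 : ℤ) := fun η => by
    have := (cA (F η)).inner_eq_sum (F η)
    rw [classInner_self_eq_sum_normSq] at this
    simp only [hm, map_natCast] at this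
    rw [← inv_mul_eq_iff_eq_mul₀ a0, ← Complex.ofReal_inj, this]
    simp [sq]
  have e3 : ∀ u, ∑ v, ‖χ (f (u, v))‖ ^ 2 = Nat.card B * ∑ η, ‖F η u‖ ^ 2 := fun u => by
    have := (cB fun v => χ (f (u, v))).inner_eq_sum fun v => χ (f (u, v))
    rw [classInner_self_eq_sum_normSq] at this
    rw [← inv_mul_eq_iff_eq_mul₀ b0, ← Complex.ofReal_inj, this]
    simp [F, Complex.mul_conj, Complex.normSq_eq_norm_sq]
  refine ⟨fun l η => m l η, ?_, ?_⟩
  · have := (cB fun v => χ (f (1, v))).apply_eq_sum_irr 1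
    rw [Prod.mk_one_one, map_one] at this
    rw [this, Int.cast_sum]
    exact sum_congr rfl fun η _ => by rw [η.2.one_eq_one_of_comm hB, mul_one, ← e1]
  · rw [sum_product]
    simp only [e3]
    rw [← mul_sum, sum_comm, Int.cast_sum]
    refine congrArg _ (sum_congr rfl fun η _ => ?_)
    rw [sum_erase_eq_sub (mem_univ _), e2, e1, Complex.norm_intCast, sq_abs]
    push_cast; rfl

theorem d2a_bound {H P : Type*} [Group H] [Fintype H] (T : Finset P) (f : P → H) (hf : Set.InjOn f T)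
    (N : Set H) (hN : ∀ p ∈ T, ∀ q ∈ T, ∀ k, k * f p * k⁻¹ = f q → k ∈ N) {χ : H → ℂ}
    (hχ : IsIrrCharacter H χ) : ∑ p ∈ T, ‖χ (f p)‖ ^ 2 ≤ N.ncard := by
  classical
  have hH : (0 : ℝ) < Nat.card H := by exact_mod_cast Nat.card_pos
  have e1 : ∑ p ∈ univ ×ˢ T, ‖χ (p.1 * f p.2 * p.1⁻¹)‖ ^ 2 = Nat.card H * ∑ p ∈ T, ‖χ (f p)‖ ^ 2 := by
    rw [sum_product]
    simp [hχ.isClassFunction _ _]
  have e2 : ∀ g : H, (#{p ∈ univ ×ˢ T | p.1 * f p.2 * p.1⁻¹ = g} : ℝ) ≤ N.ncard := fun g => by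
    rcases ((univ ×ˢ T).filter fun p => p.1 * f p.2 * p.1⁻¹ = g).eq_empty_or_nonempty with k | ⟨q, hq⟩
    · rw [k]; simp
    rw [Nat.cast_le, ← Set.ncard_coe_finset]
    refine Set.ncard_le_ncard_of_injOn (fun p => q.1⁻¹ * p.1) (fun p hp => ?_) fun p hp p' hp' e => ?_
    · simp only [coe_filter, mem_product, mem_univ, true_and, mem_filter, Set.mem_ofPred_eq] at hp hq
      refine hN _ hp.1 _ hq.1 _ ?_
      rw [← mul_right_inj q.1, ← mul_left_inj q.1⁻¹, hq.2, ← hp.2]; group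
    · have e1 : p.1 = p'.1 := mul_left_cancel e
      simp only [coe_filter, mem_product, mem_univ, true_and, Set.mem_ofPred_eq] at hp hp'
      have := hp.2.trans hp'.2.symm
      rw [e1, mul_left_inj, mul_right_inj] at this
      exact Prod.ext e1 (hf hp.1 hp'.1 this)
  have e3 : ∑ p ∈ univ ×ˢ T, ‖χ (p.1 * f p.2 * p.1⁻¹)‖ ^ 2 ≤ ∑ g, N.ncard * ‖χ g‖ ^ 2 := by
    rw [← sum_fiberwise (univ ×ˢ T) (fun p => p.1 * f p.2 * p.1⁻¹)]
    refine sum_le_sum fun g _ => ?_
    rw [sum_congr rfl fun p hp => by rw [(mem_filter.1 hp).2], sum_const, nsmul_eq_mul]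
    exact mul_le_mul_of_nonneg_right (e2 g) (by positivity)
  have e4 := hχ.inner_self
  rw [classInner_self_eq_sum_normSq, Complex.ofReal_eq_one, inv_mul_eq_iff_eq_mul₀ hH.ne', mul_one] at e4
  rw [e1, ← mul_sum, e4, mul_comm] at e3
  exact le_of_mul_le_mul_right e3 hH

theorem d2a_cnt {H : Type*} [Group H] [Fintype H] (x : H) :
    {k : H | k * x * k⁻¹ ∈ Subgroup.zpowers x}.ncard ≤
      {y | y ∈ Subgroup.zpowers x ∧ IsConj x y}.ncard * Nat.card (Subgroup.centralizer ({x} : Set H)) := by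
  classical
  rw [Set.ncard_eq_toFinset_card', Set.ncard_eq_toFinset_card', mul_comm]
  refine card_le_mul_card_image_of_maps_to (f := fun k => k * x * k⁻¹) (fun k hk => ?_) _ fun y hy => ?_
  · simp only [Set.mem_toFinset, Set.mem_ofPred_eq] at hk ⊢
    exact ⟨hk, isConj_iff.2 ⟨k, rfl⟩⟩
  · simp only [Set.mem_toFinset, Set.mem_ofPred_eq] at hy
    obtain ⟨c, rfl⟩ := isConj_iff.1 hy.2
    rw [Nat.card_eq_fintype_card, Fintype.card_subtype]
    refine card_le_card_of_injOn (fun k => c⁻¹ * k) (fun k hk => ?_) fun _ _ _ _ e => mul_left_cancel e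
    simp only [coe_filter, Set.mem_ofPred_eq, mem_univ, true_and, Subgroup.mem_centralizer_singleton_iff] at hk ⊢
    calc _ = c⁻¹ * (k * x * k⁻¹) * k := by group
      _ = _ := by rw [hk.2]; group

/-- Let `x ∈ R` be central in `R` of order `r`, `C = C_H(x)`: abelian, `R ≤ C`.  For every
`y ∈ C` of order divisible by `r` a power of `y` generates `⟨x⟩` (`h2`).  Call `y` singular if
`r ∣ orderOf y`.  If `y, g y g⁻¹ ∈ C` are singular then `g x g⁻¹ ∈ ⟨x⟩`, and
`#{g | g x g⁻¹ ∈ ⟨x⟩} ≤ 6 |C|` (`h3`, `card_conjugators`).  So `(g, y) ↦ g y g⁻¹` has fibres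
`≤ 6|C|` and `∑_{y ∈ C singular} ‖χ y‖² ≤ 6 |C|`.  `C = R × Y`, `Y` the `r'`-elements; singular
means `y = u v`, `1 ≠ u ∈ R`.  Consider the character `(u, v) ↦ χ (u v)` of the abelian group
`R × Y` with multiplicities `m l η`; for fixed `η`, `F_η u = |Y|⁻¹ ∑_v χ(u v) conj η(v) = ∑_l m l η l(u)`,
Parseval on `Y` and on `R`: `∑_{u ≠ 1, v} ‖χ(u v)‖² = |Y| ∑_η (|R| ∑_l m² - (∑_l m)²)`.
(`m l η = ⟨·, l ⊗ η⟩` is a natural number.)  Apply `shift6`; `χ 1 = ∑ m`. -/
theorem deg_mod {H : Type*} [Group H] [Fintype H] {r : ℕ} [Fact r.Prime] (R : Sylow r H)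
    (h50 : 50 ≤ Nat.card R)
    (h1 : ∀ x : H, orderOf x = r → ∀ a b : H, a * x = x * a → b * x = x * b → a * b = b * a)
    (h2 : ∀ x y : H, orderOf x = r → orderOf y = r → x * y = y * x → y ∈ Subgroup.zpowers x)
    (h3 : ∀ x : H, orderOf x = r → {y | y ∈ Subgroup.zpowers x ∧ IsConj x y}.ncard ≤ 6)
    {χ : H → ℂ} (hχ : IsIrrCharacter H χ) {d : ℕ} (hd : χ 1 = d) :
    ∃ β : ℤ, |β| ≤ 6 ∧ (Nat.card R : ℤ) ∣ d - β := by
  classical
  have hr : r.Prime := Fact.out
  have : Nontrivial R := Finite.one_lt_card_iff_nontrivial.1 (by omega)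
  have := R.isPGroup'.center_nontrivial
  obtain ⟨n, hn, e⟩ := (R.isPGroup'.to_subgroup (Subgroup.center R)).nontrivial_iff_card.1 inferInstance
  obtain ⟨x', hx'⟩ := exists_prime_orderOf_dvd_card' (G := Subgroup.center R) r (e ▸ dvd_pow_self r hn.ne')
  rw [← Subgroup.orderOf_coe, ← Subgroup.orderOf_coe] at hx'
  have hx : ∀ u : R, (u : H) * x' = x' * u := fun u => congrArg Subtype.val (Subgroup.mem_center_iff.1 x'.2 u)
  generalize ((x' : R) : H) = x at hx hx'
  obtain ⟨j, hj⟩ := R.isPGroup'.exists_card_eq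
  have cM : (Nat.card R).Coprime R.index := by
    rw [hj]; exact (hr.coprime_iff_not_dvd.2 R.not_dvd_index).pow_left _
  have cc : ∀ a b : Subgroup.centralizer ({x} : Set H), Commute (a : H) b := fun a b =>
    h1 x hx' _ _ (Subgroup.mem_centralizer_singleton_iff.1 a.2) (Subgroup.mem_centralizer_singleton_iff.1 b.2)
  let φ : Subgroup.centralizer ({x} : Set H) →* H := MonoidHom.mk' (fun c => (c : H) ^ (R : Subgroup H).index)
    fun a b => (cc a b).mul_pow _
  have hC : Nat.card (Subgroup.centralizer ({x} : Set H)) ≤ Nat.card φ.ker * Nat.card R := by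
    rw [← φ.ker.card_mul_index, Subgroup.index_ker]
    obtain ⟨Q, hQ⟩ := IsPGroup.exists_le_sylow (p := r) (P := φ.range) (by
      rintro ⟨_, c, rfl⟩
      refine ⟨j, Subtype.ext ?_⟩
      change ((c : H) ^ _) ^ _ = 1
      rw [← pow_mul, ← hj, Subgroup.index_mul_card, pow_card_eq_one'])
    exact Nat.mul_le_mul_left _ ((Subgroup.card_le_of_le hQ).trans_eq (Nat.card_congr (Q.equiv R).toEquiv))
  have cR : ∀ (u : R) (c : Subgroup.centralizer ({x} : Set H)), Commute (u : H) c := fun u c =>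
    cc ⟨u, Subgroup.mem_centralizer_singleton_iff.2 (hx u)⟩ c
  let f : R × φ.ker →* H := MonoidHom.noncommCoprod (R : Subgroup H).subtype
    ((Subgroup.subtype _).comp φ.ker.subtype) fun u v => cR u v
  have fM : ∀ p, f p ^ (R : Subgroup H).index = (p.1 ^ (R : Subgroup H).index : R) := fun p => by
    change ((p.1 : H) * p.2) ^ _ = _
    rw [(cR p.1 p.2).mul_pow, show ((p.2 : Subgroup.centralizer ({x} : Set H)) : H) ^ _ = 1 from p.2.2, mul_one,
      Subgroup.coe_pow]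
  have f1 : ∀ p, f p ^ (R : Subgroup H).index = 1 → p.1 = 1 := fun p h => by
    rw [fM, OneMemClass.coe_eq_one] at h
    exact (powCoprime cM).injective (h.trans (one_pow _).symm)
  have fx : ∀ p, f p * x = x * f p := fun p => Subgroup.mem_centralizer_singleton_iff.1
    (mul_mem (Subgroup.mem_centralizer_singleton_iff.2 (hx p.1)) p.2.1.2)
  let _ := Fintype.ofFinite R
  let _ := Fintype.ofFinite φ.ker
  have hA : ∀ a b : (R : Subgroup H), a * b = b * a := fun a b =>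
    Subtype.ext (cR a ⟨b, Subgroup.mem_centralizer_singleton_iff.2 (hx b)⟩)
  obtain ⟨m, e1, e2⟩ := d2a_parseval hA (fun a b : φ.ker => Subtype.ext (Subtype.ext (cc a b))) f hχ.isCharacter
  have e3 := d2a_bound (univ.erase 1 ×ˢ univ) f (Function.Injective.injOn ((injective_iff_map_eq_one f).2
    fun p h => by
      have k := f1 p (by rw [h, one_pow])
      refine Prod.ext k (Subtype.ext (Subtype.ext ?_))
      change (p.1 : H) * _ = 1 at h
      rwa [k, OneMemClass.coe_one, one_mul] at h)) {k : H | k * x * k⁻¹ ∈ Subgroup.zpowers x}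
    (fun p hp q _ k e => by
      have k1 : r ∣ orderOf (f p) := by
        by_contra k1
        refine (mem_erase.1 (mem_product.1 hp).1).1 (f1 p (orderOf_dvd_iff_pow_eq_one.1
          (Nat.Coprime.dvd_of_dvd_mul_left (k := orderOf (f p)) (m := Nat.card R) ?_ ?_)))
        · rw [hj]; exact ((hr.coprime_iff_not_dvd.2 k1).symm).pow_right _
        · rw [Subgroup.card_mul_index]; exact orderOf_dvd_natCard _
      have k2 := orderOf_pow_orderOf_div (orderOf_pos (f p)).ne' k1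
      obtain ⟨i, hi⟩ := h2 _ x k2 hx' (Commute.pow_left (fx p) _)
      refine h2 x _ hx' (by rw [← hx']; exact (MulAut.conj k).orderOf_eq x) ?_
      rw [← hi, ← conj_zpow, ← conj_pow, e, hi]
      exact (((show Commute (f q) x from fx q).pow_left _).zpow_left _).symm) hχ
  have cI : Fintype.card (IrrCharacter R) = Nat.card R := by
    simpa [fun l : IrrCharacter R => l.2.one_eq_one_of_comm hA] using sum_irr_one_sq (G := R)
  have e4 := (d2a_cnt x).trans (Nat.mul_le_mul (h3 x hx') hC)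
  have b0 : (0 : ℝ) < Nat.card φ.ker := by exact_mod_cast Nat.card_pos
  have e5 := (e2.symm.trans_le e3).trans (Nat.cast_le.2 e4)
  rw [mul_left_comm, Nat.cast_mul, mul_le_mul_iff_right₀ b0] at e5
  obtain ⟨β, k1, k2⟩ := shift6 m (cI ▸ h50) (by rw [cI]; exact_mod_cast e5)
  refine ⟨β, k1, ?_⟩
  have e6 : (d : ℤ) = ∑ η, ∑ l, m l η := by exact_mod_cast hd.symm.trans e1
  rwa [cI, ← e6] at k2

end Cfsg.Agent.U7
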