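import Cfsg.Agent.U7.Bas

/-!
# Numerics: degrees not dividing `|SU_7(q)|`
-/

set_option autoImplicit false
set_option linter.unusedSectionVars false

namespace Cfsg.Agent.U7

open Cfsg.Agent.Class.U Cfsg.Agent.Char
open scoped ComplexConjugate

theorem numA_eq {d x y : ℤ} (h : d ∣ x) (e : y = x) : d ∣ y := e ▸ h

theorem numA_st {d X c : ℤ} (v : ℤ) (e : d ∣ c - v * X) (k : ℕ) {K Y : ℤ} (h : d ∣ K * (X ^ k * Y)) :
    d ∣ K * c ^ k * Y := by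
  induction k generalizing K with
  | zero => simpa using h
  | succ k ih =>
    exact numA_eq ((e.mul_right (K * c ^ k * Y)).add ((ih (K := K * X) (numA_eq h (by ring))).mul_left v)) (by ring)

theorem numA_core {p k : ℕ} (hp' : p.Prime) {q d a b w v : ℤ} (hq : q = (p : ℤ) ^ k) (h0 : 0 < 7 * b - a)
    (h1 : 7 * b - a < q) (hd : d ∣ a * (q * (q - 1) * (q ^ 4 + q ^ 2 + 1) + 1) - 7 * b) (hw : d ∣ w - v * (q + 1))
    (h : d ∣ 7 * (q ^ 21 * (q ^ 2 - 1) * (q ^ 3 + 1) * (q ^ 4 - 1) * (q ^ 5 + 1) * (q ^ 6 - 1) * (q ^ 7 + 1))) :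
    d ∣ 7 * (7 * b - a) ^ 7 * w ^ 6 * (a ^ 2 + 49 * b ^ 2) * (7 * b) *
      ((7 * b - a) ^ 4 + (7 * b - a) ^ 3 * a + (7 * b - a) ^ 2 * a ^ 2 + (7 * b - a) * a ^ 3 + a ^ 4) := by
  obtain ⟨d₁, d₂, e1, e2, e⟩ := exists_dvd_and_dvd_of_dvd_mul (b := q ^ 21) (c := 7 * ((q - 1) ^ 3 * ((q + 1) ^ 6 *
    ((q ^ 2 + q + 1) ^ 1 * ((q ^ 2 - q + 1) ^ 2 * ((q ^ 2 + 1) ^ 1 * ((q * (q - 1) * (q ^ 4 + q ^ 2 + 1) + 1) ^ 1 *
    ((q ^ 4 - q ^ 3 + q ^ 2 - q + 1) ^ 1 * 1)))))))) (a := d) (numA_eq h (by ring))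
  have k0 : ∀ x, x ∣ q → x ∣ d → x ∣ 7 * b - a := fun x x1 x2 =>
    numA_eq ((x1.mul_right (a * (q - 1) * (q ^ 4 + q ^ 2 + 1))).sub (x2.trans hd)) (by ring)
  have k1 : d₁ ∣ 7 * b - a := by
    rw [hq, ← pow_mul] at e1
    obtain ⟨i, -, hi⟩ := (dvd_prime_pow (Nat.prime_iff_prime_int.1 hp') _).1 e1
    rcases le_total i k with c | c
    · exact k0 _ (hi.dvd.trans (hq ▸ pow_dvd_pow _ c)) ⟨d₂, e⟩
    · exact absurd (Int.le_of_dvd h0 (k0 _ dvd_rfl ((hq ▸ (pow_dvd_pow _ c).trans hi.symm.dvd).trans ⟨d₂, e⟩))) h1.not_ge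
  have t := e ▸ mul_dvd_mul k1 e2
  rw [← mul_assoc] at t
  replace t := numA_st (c := 7 * b - a) (a * q * (q ^ 4 + q ^ 2 + 1)) (numA_eq hd.neg_right (by ring)) _ t
  replace t := numA_st v hw _ t
  replace t := numA_st (c := 7 * b - a) (a * q * (q - 1) * (q ^ 2 - q + 1)) (numA_eq hd.neg_right (by ring)) _ t
  replace t := numA_st (c := 7 * b - a) (a * q * (q - 1) * (q ^ 2 + q + 1)) (numA_eq hd.neg_right (by ring)) _ t
  replace t := numA_st (c := a ^ 2 + 49 * b ^ 2) (a ^ 2 - (a * q - 7 * b) * a * (q ^ 4 - q ^ 3 + 1))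
    (numA_eq (hd.mul_left (a * q - 7 * b)) (by ring)) _ t
  replace t := numA_st (c := 7 * b) a (numA_eq hd.neg_right (by ring)) _ t
  replace t := numA_st (c := (7 * b - a) ^ 4 + (7 * b - a) ^ 3 * a + (7 * b - a) ^ 2 * a ^ 2 + (7 * b - a) * a ^ 3 + a ^ 4)
    (a ^ 4 + a * q ^ 2 * ((7 * b - a) ^ 3 + (7 * b - a) ^ 2 * a * (1 - q) + (7 * b - a) * a ^ 2 * (q ^ 2 - q + 1) +
      a ^ 3 * (1 - q + q ^ 2 - q ^ 3)))
    (numA_eq (hd.neg_right.mul_left ((7 * b - a) ^ 3 + (7 * b - a) ^ 2 * a * (1 - q) +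
      (7 * b - a) * a ^ 2 * (q ^ 2 - q + 1) + a ^ 3 * (1 - q + q ^ 2 - q ^ 3))) (by ring)) _ t
  exact numA_eq t (by ring)

set_option synthInstance.maxSize 1000 in
theorem numA_small : ∀ i < 58, ∀ j < 50, ∀ a < 8, ∀ β < 3, 1 ≤ a → 1 ≤ β →
    a * hp (350 * i + 7 * j + 6) - β ∣ so (350 * i + 7 * j + 6) → a = 7 ∧ β = 1 := by
  decide +kernel

/-- Let `Φ = hh q = q⁶ - q⁵ + q⁴ - q³ + q² - q + 1 = 7 hp q`, `n = a Φ - 7 β = 7 (a hp - β)`, so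
`n ∣ 7 · so q`, `so q = q^21 (q-1)³ (q+1)⁶ (q²+q+1) (q²+1) (q²-q+1)² (q⁴-q³+q²-q+1) Φ`.
For `q < 20000` check directly (`q = 7 j + 6`, `j < 2857`, `13` pairs; `decide +kernel` on a
`Nat`-recursive Boolean function, split in blocks if necessary; true for ALL such `q`, checked in
python).  For `q ≥ 20000` bound `n ≤ ∏ gcd(n, factor)` (`Nat.gcd_mul_dvd_mul_gcd`,
`gcd(n, X^m) ∣ gcd(n, X)^m`): with `c = |a - 7β|`, `1 ≤ c ≤ 13`:
`gcd(n, q^21) ≤ c` (it is a power `p^j`; `n ≡ a - 7β (mod q)`, so `j ≥ k` would give `q ∣ c`;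
hence `p^j ∣ q` and `p^j ∣ c`); `gcd(n, X) ∣ c` for `X = q-1, q²+q+1, q²-q+1` (`Φ ≡ 1`);
`gcd(n, q²+1) ∣ a² + 49 β²` (`Φ ≡ -q`); `gcd(n, Φ₁₀) ∣ u⁴ - u³ a + u² a² - u a³ + a⁴`,
`u = a - 7β` (`Φ ≡ 1 - q`, `n ≡ u - a q`); `gcd(n, Φ) ∣ 7β`; `gcd(n, q+1) ∣ 7 |a - β|`
(`Φ ≡ 7`).  If `a ≠ β` the product of the bounds is `< 5 · 10^21 < n`.  If `a = β` use the divisor
`g = (Φ - 7)/(q+1) = q⁵ - 2q⁴ + 3q³ - 4q² + 5q - 6` of `n`: `gcd(g, q+1) ∣ 21`, the other bounds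
are those of the pair `(1,1)` since `g ∣ Φ - 7`, product `< 10^20 < g`.  (Do the 13 cases by `interval_cases` with explicit
numbers; work in `ℤ` with `Int.gcd` or with "common divisor `d`" lemmas.) -/
theorem numA {p k q : ℕ} (hp' : p.Prime) (hq : q = p ^ k) (h7 : 7 ∣ q + 1) {a β : ℕ} (ha : 1 ≤ a)
    (ha' : a ≤ 7) (hβ : 1 ≤ β) (hβ' : β ≤ 2) (h : a * hp q - β ∣ so q) : a = 7 ∧ β = 1 := by
  by_cases c : q < 20000
  · obtain ⟨i, j, hj, rfl⟩ : ∃ i j, j < 50 ∧ q = 350 * i + 7 * j + 6 := ⟨q / 350, q % 350 / 7, by omega, by omega⟩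
    exact numA_small i (by omega) j hj a (by omega) β (by omega) ha hβ h
  have h1 := hp_of_dvd h7
  have h2 : 63996800159992000399980001 ≤ hh q := (by decide : _ = hh 20000).trans_le (hh_mono (by omega))
  have h3 : β ≤ a * hp q := (by omega : β ≤ 1 * hp q).trans (Nat.mul_le_mul_right _ ha)
  have p : ∀ n, 1 ≤ q ^ n := fun n => Nat.one_le_pow _ _ (by omega)
  have h4 := mul_dvd_mul_left 7 h
  have h5 : (20000 : ℤ) ≤ q := by omega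
  rw [hh] at h1 h2
  rw [so] at h4
  zify [h3, p, (by omega : 1 ≤ q)] at h1 h2 h4 hq
  rw [mul_sub, mul_left_comm, h1] at h4
  by_contra n
  by_cases e : a = β
  · subst e
    have := Int.le_of_dvd (by norm_num) (numA_core (a := 1) (b := 1) (w := 21)
      (d := q ^ 5 - 2 * q ^ 4 + 3 * q ^ 3 - 4 * q ^ 2 + 5 * q - 6) (v := q ^ 4 - 3 * q ^ 3 + 6 * q ^ 2 - 10 * q + 15) hp' hq
      (by norm_num) (by omega) ⟨q + 1, by ring⟩ ⟨-1, by ring⟩ (Dvd.dvd.trans ⟨a * (q + 1), by ring⟩ h4))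
    obtain ⟨t, ht, e⟩ : ∃ t : ℤ, 0 ≤ t ∧ (q : ℤ) = t + 20000 := ⟨q - 20000, by omega, by ring⟩
    rw [e] at this
    linarith [pow_nonneg ht 2, pow_nonneg ht 3, pow_nonneg ht 4, pow_nonneg ht 5]
  · have := numA_core (w := 7 * (β - a)) (v := a * (q ^ 5 - 2 * q ^ 4 + 3 * q ^ 3 - 4 * q ^ 2 + 5 * q - 6)) hp' hq
      (by omega) (by omega) dvd_rfl ⟨-1, by ring⟩ h4
    generalize (q : ℤ) * (q - 1) * (q ^ 4 + q ^ 2 + 1) + 1 = P at this h2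
    interval_cases a <;> interval_cases β <;>
      first
        | exact absurd rfl e
        | exact n ⟨rfl, rfl⟩
        | exact absurd (Int.le_of_dvd (by norm_num) this) (by norm_num; omega)

end Cfsg.Agent.U7
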