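import Cfsg.Agent.U7.Defs

/-!
# Numerics: a large prime power dividing `q² + q + 1`
-/

set_option autoImplicit false
set_option linter.unusedSectionVars false

namespace Cfsg.Agent.U7

open Cfsg.Agent.Class.U Cfsg.Agent.Char
open scoped ComplexConjugate

theorem numB_small {q m : ℕ} (h7 : 7 ∣ q + 1) (h0 : 0 < m) (h1 : m < 64) (h2 : m ≠ 61)
    (h : m ∣ q ^ 2 + q + 1) : m ∣ 36546861 := by
  have k : ∀ m < 64, m ≠ 61 → ∀ y < m, (y ^ 2 + y + 1) % m = 0 → 7 ∣ m ∨ m ∣ 36546861 := by decide +kernel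
  refine (k m h1 h2 _ (Nat.mod_lt q h0) ?_).resolve_left fun e => ?_
  · rw [← Nat.mod_eq_zero_of_dvd h]
    exact (((Nat.mod_modEq q m).pow 2).add (Nat.mod_modEq q m)).add_right 1
  · have := (Nat.dvd_add_right (Dvd.dvd.mul_left h7 q)).1 (show 7 ∣ q * (q + 1) + 1 by
      rw [mul_add_one, ← sq]; exact e.trans h)
    omega

theorem numB_cop {q r : ℕ} (hq : 1 ≤ q) (hr : r.Prime) (h3 : r ≠ 3) (h : r ∣ q ^ 2 + q + 1) :
    ∃ W, so q = W * (q ^ 2 + q + 1) ∧ ¬ r ∣ W := by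
  have p : ∀ n, 1 ≤ q ^ n := fun n => Nat.one_le_pow n q hq
  refine ⟨q ^ 21 * (q ^ 2 - 1) * (q ^ 3 + 1) * (q ^ 4 - 1) * (q ^ 5 + 1) * ((q - 1) * (q ^ 3 + 1)) * (q ^ 7 + 1),
    ?_, fun hW => ?_⟩
  · rw [so]
    zify [p 2, p 4, p 6, hq]
    ring
  rw [← ZMod.natCast_eq_zero_iff] at hW
  have h' := (ZMod.natCast_eq_zero_iff _ _).2 h
  push_cast [p 2, p 4, hq] at hW h'
  generalize (q : ZMod r) = x at hW h'
  have e3 : x ^ 3 = 1 := by linear_combination (x - 1) * h'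
  rw [show x ^ 21 = (x ^ 3) ^ 7 by ring, show x ^ 4 = x ^ 3 * x by ring, show x ^ 5 = x ^ 3 * x ^ 2 by ring,
    show x ^ 7 = (x ^ 3) ^ 2 * x by ring, e3] at hW
  have e : ((6 ^ 2 : ℕ) : ZMod r) = 0 := by
    push_cast
    grind
  rcases (Nat.Prime.dvd_mul hr).1 (show r ∣ 2 * 3 from hr.dvd_of_dvd_pow ((ZMod.natCast_eq_zero_iff _ _).1 e))
    with e | e
  · obtain rfl := (Nat.prime_dvd_prime_iff_eq hr Nat.prime_two).1 e
    have := (Nat.dvd_add_right (Nat.even_mul_succ_self q).two_dvd).1 (show 2 ∣ q * (q + 1) + 1 by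
      convert h using 1; ring)
    omega
  · exact h3 ((Nat.prime_dvd_prime_iff_eq hr Nat.prime_three).1 e)

/-- Let `Φ = q² + q + 1`.  `9 ∤ Φ`, `2, 5, 7, 11, 17, 23, 29, 41, 47, 53, 59 ∤ Φ` (a prime
`r ≠ 3` dividing `Φ` has `r ≡ 1 (mod 3)`: order of `q` mod `r` is `3`; `7 ∤ Φ` as `q ≡ -1`).
If every prime power `r^b ∥ Φ`, `r ≠ 3`, were `≤ 60` then `r^b ∈ {13, 19, 31, 37, 43}` and
`Φ ∣ 3·13·19·31·37·43 = 36546861` (`Nat.eq_one_or..`/`Nat.factorization_le`: compare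
factorizations), so `q ≤ 6045`, excluded by `decide` for `q = 7j + 6`, `j ≥ 1`.  So some
`r^b ≥ 61`; `62, 63` are not powers of such a prime.  Finally `r` divides none of
`q, q-1, q+1, q²+1, q²-q+1, q⁴-q³+q²-q+1, hh q` (work in `ZMod r` with `x² + x + 1 = 0`,
`x³ = 1`: these are `x`, `x-1` (`3 ≠ 0`), `-x²`, `-x`, `-2x`, `x²`, `1`), and
`so q = q^21 (q-1)³ (q+1)⁶ Φ (q²+1) (q²-q+1)² (q⁴-q³+q²-q+1) hh q`. -/
theorem numB {q : ℕ} (h7 : 7 ∣ q + 1) (h13 : 13 ≤ q) : ∃ r b : ℕ, r.Prime ∧ r ≠ 3 ∧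
    r ∣ q ^ 2 + q + 1 ∧ r ^ b ∣ q ^ 2 + q + 1 ∧ (r ^ b = 61 ∨ 64 ≤ r ^ b) ∧ ¬ r ^ (b + 1) ∣ so q := by
  have h0 : q ^ 2 + q + 1 ≠ 0 := Nat.succ_ne_zero _
  obtain ⟨r, hr, h3, hd, hb⟩ : ∃ r : ℕ, r.Prime ∧ r ≠ 3 ∧ r ∣ q ^ 2 + q + 1 ∧
      (r ^ (q ^ 2 + q + 1).factorization r = 61 ∨ 64 ≤ r ^ (q ^ 2 + q + 1).factorization r) := by
    by_contra! k
    have hN : q ^ 2 + q + 1 ∣ 36546861 := (Nat.factorization_prime_le_iff_dvd h0 (by decide)).1 fun r hr => by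
      rw [← hr.pow_dvd_iff_le_factorization (by decide)]
      by_cases hd : r ∣ q ^ 2 + q + 1
      · by_cases h3 : r = 3
        · subst h3
          refine (pow_dvd_pow 3 (n := 1) (by_contra fun c => ?_)).trans (by decide)
          exact absurd (numB_small h7 (by decide) (by decide) (by decide)
            ((hr.pow_dvd_iff_le_factorization (k := 2) h0).2 (by omega))) (by decide)
        · exact numB_small h7 (pow_pos hr.pos _) (k r hr h3 hd).2 (k r hr h3 hd).1 (Nat.ordProj_dvd _ _)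
      · rw [Nat.factorization_eq_zero_of_not_dvd hd]
        exact one_dvd _
    obtain ⟨j, rfl⟩ : ∃ j, q = 7 * j + 13 := ⟨(q - 13) / 7, by omega⟩
    have := Nat.le_of_dvd (by decide) hN
    exact (show ∀ j < 864, ¬ (7 * j + 13) ^ 2 + (7 * j + 13) + 1 ∣ 36546861 by decide +kernel) j
      (by nlinarith) hN
  obtain ⟨W, e, hW⟩ := numB_cop (by omega) hr h3 hd
  exact ⟨r, _, hr, h3, hd, Nat.ordProj_dvd _ _, hb, fun c => Nat.pow_succ_factorization_not_dvd h0 hr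
    ((Nat.Coprime.pow_left _ (hr.coprime_iff_not_dvd.2 hW)).dvd_of_dvd_mul_left (e ▸ c))⟩

end Cfsg.Agent.U7
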