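import Cfsg.Agent.U7.TC
import Cfsg.Agent.U7.W2
import Cfsg.Agent.U7.NumA
import Cfsg.Agent.U7.NumB
import Cfsg.Agent.U7.D2A
import Cfsg.Agent.U7.G1
import Cfsg.Agent.Char.Ito

/-!
# The Weil characters when `7 ∣ q + 1`
-/

set_option autoImplicit false
set_option linter.unusedSectionVars false

namespace Cfsg.Agent.U7

open Cfsg.Agent.Class.U Cfsg.Agent.Char
open scoped ComplexConjugate

variable {F : Type*} [Field F] [Fintype F] {q : ℕ} [UF F q]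

theorem d7_deg {H : Type*} [Group H] [Fintype H] {S : Subgroup H} {h a : ℕ} {b : ℤ} {χ : H → ℂ}
    (hχ : IsIrrCharacter H χ) (k : NE S h χ a b) :
    -2 ≤ b ∧ b ≤ 2 ∧ ∃ d : ℕ, 0 < d ∧ χ 1 = d ∧ (d : ℤ) = a * h + b ∧ d ∣ Nat.card H := by
  obtain ⟨d, h0, hd⟩ := hχ.exists_nat_one
  have := k.1
  refine ⟨by nlinarith, by nlinarith, d, h0, hd, ?_, hχ.deg_dvd_card hd⟩
  have e := hd.symm.trans k.2.1
  exact_mod_cast e

theorem d7_neg {H S : Subgroup (GU 7 F q)} (hH : H ≤ SS F q) (h7 : 7 ∣ q + 1) {a : ℕ} {b : ℤ} {χ : H → ℂ}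
    (hχ : IsIrrCharacter H χ) (k : NE (S.subgroupOf H) (hp q) χ a b) (ha : a ≤ 7) (hb : b < 0) :
    a = 7 ∧ b = -1 := by
  obtain ⟨h1, -, d, h0, -, e, hd⟩ := d7_deg hχ k
  obtain ⟨p, j, hp', -, hq, -⟩ := exists_prime_pow F q
  have h2 := hd.trans (card_SS (F := F) (q := q) ▸ Subgroup.card_dvd_of_le hH)
  obtain ⟨β, rfl⟩ : ∃ β : ℕ, b = -β := ⟨b.natAbs, by omega⟩
  have a1 : 1 ≤ a := by
    rcases a with _ | a
    · simp at e; omega
    · omega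
  have e2 : d = a * hp q - β := by
    have : ((a * hp q : ℕ) : ℤ) = a * hp q := by push_cast; rfl
    omega
  obtain ⟨c1, c2⟩ := numA hp' hq h7 a1 ha (β := β) (by omega) (by omega) (e2 ▸ h2)
  exact ⟨c1, by omega⟩

theorem d7_arith {N a : ℕ} {h b β : ℤ} (hN : N = 61 ∨ 64 ≤ N) (h1 : (N : ℤ) ∣ 7 * h - 1)
    (h2 : (N : ℤ) ∣ a * h + b - β) (ha : a ≤ 7) (b1 : -2 ≤ b) (b2 : b ≤ 2) (hβ : |β| ≤ 6) :
    a = 0 ∨ a = 5 ∨ a = 7 := by
  have h3 : (N : ℤ) ∣ a + 7 * (b - β) := by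
    rw [show (a : ℤ) + 7 * (b - β) = 7 * (a * h + b - β) - a * (7 * h - 1) by ring]
    exact dvd_sub (h2.mul_left 7) (h1.mul_left a)
  obtain ⟨c1, c2⟩ := abs_le.1 hβ
  rcases hN with rfl | hN
  · obtain ⟨c, hc⟩ := h3
    push_cast at hc
    clear h1 h2
    have : c = 0 ∨ c = 1 := by omega
    rcases this with rfl | rfl <;> omega
  · have := Int.eq_zero_of_abs_lt_dvd h3 (abs_lt.2 ⟨by omega, by omega⟩)
    omega

theorem d7_mod {H : Subgroup (GU 7 F q)} {r : ℕ} [hr : Fact r.Prime] (h3 : r ≠ 3) (hd : r ∣ q ^ 2 + q + 1)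
    (R : Sylow r H) (h50 : 50 ≤ Nat.card R) {χ : H → ℂ} (hχ : IsIrrCharacter H χ) {d : ℕ} (e : χ 1 = d) :
    ∃ β : ℤ, |β| ≤ 6 ∧ (Nat.card R : ℤ) ∣ d - β := by
  refine deg_mod R h50 (fun x hx a b ha hb => ?_) (fun x y hx hy h => ?_) (fun x hx => ?_) hχ e
  · exact Subtype.ext (cent_comm hr.1 h3 hd ((Subgroup.orderOf_coe x).trans hx) _ _
      (congrArg Subtype.val ha) (congrArg Subtype.val hb))
  · obtain ⟨k, hk⟩ := mem_zpowers hr.1 h3 hd ((Subgroup.orderOf_coe x).trans hx)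
      ((Subgroup.orderOf_coe y).trans hy) (congrArg Subtype.val h)
    exact ⟨k, Subtype.ext hk⟩
  · refine le_trans ?_ (conj_le_six hr.1 h3 hd ((Subgroup.orderOf_coe x).trans hx))
    refine Set.ncard_le_ncard_of_injOn Subtype.val ?_ Subtype.val_injective.injOn (Set.toFinite _)
    rintro y ⟨⟨k, rfl⟩, hy⟩
    exact ⟨⟨k, rfl⟩, H.subtype.map_isConj hy⟩

/-- `q = p^k` (`exists_prime_pow`), `7 ∣ q + 1`, `q ≠ 6`, so `q ≥ 13`; `7 h = hh q`, `h = hp q ≥ 547`.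
Apply `TZ.constit` with `m = 7` to `res H θ` (`isCharacter_res`, `cen_res`, `omt_one`,
`Sg.omt_T`, `Hy.tz'`).  Degrees divide `|H| ∣ so q` (`IsIrrCharacter.deg_dvd_card`, `card_SS`).
`θ = 1`: `∑ n b = -1`, so some constituent has `b ∈ {-1, -2}`, `1 ≤ a ≤ 7` (degree positive);
`numA`: `a = 7, b = -1`, degree `hh q - 1 = res 1 1`, so `res 1` is irreducible
(`eq_of_inner_ne_zero_of_one_eq`).  Hence `q² + q + 1 ∣ hh q - 1 ∣ |H|`
(`q⁴ + q² + 1 = (q²+q+1)(q²-q+1)`); take `r, b` from `numB`, a Sylow `r`-subgroup `R` of `H` has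
order `N = r^b`.  `deg_mod` (hypotheses from `cent_comm`, `mem_zpowers`, `conj_le_six`,
transported along `H.subtype`): each constituent has `N ∣ a h + b - β`, `|β| ≤ 6`; `7 h ≡ 1`, so
`N ∣ a + 7 (b - β)`, where `|b| ≤ 2`, `0 ≤ a ≤ 7`: `a ∈ {0, 7}` or (`N = 61`) `a = 5`.  As
`∑ n a = 7`: one constituent `χ` with `a = 7`, `n = 1`, all others have `a = 0`, so are trivial
with `b = 1` (`TZ.ne_zero`): `res θ = χ + c · 1`, `b_χ = -c`; `c = 2` contradicts `numA`. -/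
theorem Hy.dsh_of_dvd {H T : Subgroup (GU 7 F q)} {σ : GU 7 F q} (D : Hy H T σ)
    (h7 : 7 ∣ q + 1) : Dsh H := by
  classical
  have q2 := two_le_q F q
  have q6 : q ≠ 6 := by
    rintro rfl
    obtain ⟨p, j, hp', -, hq, hj⟩ := exists_prime_pow F 6
    exact absurd (hq ▸ (isPrimePow_nat_iff _).2 ⟨p, j, hp', hj, rfl⟩ : IsPrimePow 6) (by decide +kernel)
  have q13 : 13 ≤ q := by omega
  have hb := hp_big (q := q) (by omega)
  have e7 := hp_of_dvd h7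
  have e7' : (hh q : ℂ) = 7 * (hp q : ℂ) := by rw [← e7]; push_cast; rfl
  have le7 : ∀ {n a : IrrCharacter H → ℕ}, ∑ χ, n χ * a χ = 7 → ∀ χ, n χ * a χ ≤ 7 := fun h χ =>
    h ▸ Finset.single_le_sum (f := fun χ => _ * _) (fun _ _ => Nat.zero_le _) (Finset.mem_univ χ)
  have le7' : ∀ {n a : ℕ}, n ≠ 0 → n * a ≤ 7 → a ≤ 7 := fun h h' =>
    (Nat.le_mul_of_pos_left _ (Nat.pos_of_ne_zero h)).trans h'
  have z : IsIrrCharacter H (res H (irrOne _)) ∧ ∃ d : ℕ, (d : ℤ) = 7 * hp q - 1 ∧ d ∣ Nat.card H := by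
    have h1 : res H (irrOne (ZZ F q)) 1 = (((7 : ℕ) * hp q - (1 : ℕ) : ℤ) : ℂ) := by
      rw [res, Subgroup.coe_one, omt_one, if_pos rfl, e7']; push_cast; rfl
    obtain ⟨n, a, b, e, k, s1, s2⟩ := D.tz'.constit (by omega) D.ncl (isCharacter_res H _) (cen_res H _)
      le_rfl h1 fun s hs s1 => by
        rw [res, D.toSg.omt_T (s := s) _ hs fun h => s1 (Subtype.ext h), if_pos rfl, Nat.cast_one]
    obtain ⟨χ, h2, h3⟩ : ∃ χ, n χ ≠ 0 ∧ b χ < 0 := by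
      by_contra hc
      push Not at hc
      have : 0 ≤ ∑ χ, (n χ : ℤ) * b χ := Finset.sum_nonneg fun χ _ => by
        by_cases h : n χ = 0
        · simp [h]
        · exact mul_nonneg (by positivity) (hc χ h)
      omega
    obtain ⟨a7, b1⟩ := d7_neg D.HS h7 χ.2 (k χ h2) (le7' h2 (le7 s1 χ)) h3
    obtain ⟨-, -, d, -, -, e2, hd⟩ := d7_deg χ.2 (k χ h2)
    refine ⟨?_, d, by rw [e2, a7, b1]; push_cast; ring, hd⟩
    rw [(isCharacter_res H _).eq_of_inner_ne_zero_of_one_eq χ.2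
      (by rw [e, classInner_sum_smul_irr]; exact_mod_cast h2)
      (by rw [h1, (k χ h2).2.1, a7, b1]; push_cast; ring)]
    exact χ.2
  refine ⟨z.1, fun θ hθ => ?_⟩
  obtain ⟨d₀, e0, hd0⟩ := z.2
  obtain ⟨r, j, hr, r3, hd, hN, h61, hn⟩ := numB h7 q13
  have := Fact.mk hr
  have n1 : q ^ 2 + q + 1 ∣ d₀ := by
    have : d₀ = q * (q - 1) * (q ^ 4 + q ^ 2 + 1) := by rw [hh] at e7; omega
    rw [this]
    obtain ⟨u, rfl⟩ : ∃ u, q = u + 1 := ⟨q - 1, by omega⟩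
    exact Dvd.dvd.mul_left ⟨u ^ 2 + u + 1, by ring⟩ _
  obtain ⟨R⟩ : Nonempty (Sylow r H) := inferInstance
  have cR : Nat.card R = r ^ j := by
    have c0 : Nat.card H ≠ 0 := Nat.card_pos.ne'
    have c1 := (hr.pow_dvd_iff_le_factorization c0).1 ((hN.trans n1).trans hd0)
    have c2 := mt (fun h => ((hr.pow_dvd_iff_le_factorization (k := j + 1) c0).2 h).trans
      (card_SS (F := F) (q := q) ▸ Subgroup.card_dvd_of_le D.HS)) hn
    rw [R.card_eq_multiplicity]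
    congr 1
    omega
  have h1 : res H θ 1 = (((7 : ℕ) * hp q - (0 : ℕ) : ℤ) : ℂ) := by
    rw [res, Subgroup.coe_one, omt_one, if_neg hθ, e7']; push_cast; rfl
  obtain ⟨n, a, b, e, k, s1, s2⟩ := D.tz'.constit (by omega) D.ncl (isCharacter_res H _) (cen_res H _)
    le_rfl h1 fun s hs s1 => by
      rw [res, D.toSg.omt_T (s := s) _ hs fun h => s1 (Subtype.ext h), if_neg hθ, Nat.cast_zero]
  have ha : ∀ χ, n χ ≠ 0 → a χ = 0 ∨ a χ = 5 ∨ a χ = 7 := fun χ h2 => by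
    obtain ⟨b1, b2, d, -, e1, e2, -⟩ := d7_deg χ.2 (k χ h2)
    obtain ⟨β, hβ, c⟩ := d7_mod r3 hd R (by omega) χ.2 e1
    rw [cR, e2] at c
    exact d7_arith h61 (e0 ▸ Int.natCast_dvd_natCast.2 (hN.trans n1)) c (le7' h2 (le7 s1 χ)) b1 b2 hβ
  have h5 : ∀ χ, n χ * a χ ≠ 0 → 5 ≤ n χ * a χ := fun χ h => by
    obtain ⟨c1, c2⟩ := mul_ne_zero_iff.1 h
    have := Nat.le_mul_of_pos_left (a χ) (Nat.pos_of_ne_zero c1)
    rcases ha χ c1 with c | c | c <;> omega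
  obtain ⟨χ, -, h0⟩ := Finset.exists_ne_zero_of_sum_ne_zero (s := Finset.univ) (f := fun χ => n χ * a χ)
    (by rw [s1]; norm_num)
  have s3 := Finset.add_sum_erase Finset.univ (fun χ => n χ * a χ) (Finset.mem_univ χ)
  have o0 : ∀ ψ, ψ ≠ χ → n ψ * a ψ = 0 := fun ψ h => by
    by_contra hc
    have c1 := h5 ψ hc
    have c2 := h5 χ h0
    have c3 := Finset.single_le_sum (f := fun χ => n χ * a χ) (fun _ _ => Nat.zero_le _)
      (Finset.mem_erase.2 ⟨h, Finset.mem_univ ψ⟩)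
    omega
  rw [Finset.sum_eq_zero fun ψ h => o0 ψ (Finset.ne_of_mem_erase h), s1, add_zero] at s3
  obtain ⟨c1, c2⟩ := mul_ne_zero_iff.1 h0
  have a7 : a χ = 7 ∧ n χ = 1 := by
    rcases ha χ c1 with c | c | c <;> rw [c] at s3 <;> omega
  have o1 : ∀ ψ, ψ ≠ χ → n ψ ≠ 0 → ψ = irrOne H ∧ b ψ = 1 := fun ψ h h' => by
    have := k ψ h'
    rw [(mul_eq_zero.1 (o0 ψ h)).resolve_left h'] at this
    obtain ⟨c3, c4⟩ := TZ.ne_zero D.ncl ψ.2 this
    exact ⟨Subtype.ext c3, c4⟩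
  have ne : χ ≠ irrOne H := by
    rintro rfl
    obtain ⟨b1, b2, d, -, e1, e2, -⟩ := d7_deg (irrOne H).2 (k _ c1)
    have : d = 1 := by exact_mod_cast (show (d : ℂ) = 1 from e1.symm)
    rw [a7.1] at e2
    omega
  have o2 : ∀ ψ, ψ ≠ χ ∧ ψ ≠ irrOne H → n ψ = 0 := fun ψ h => by
    by_contra hc
    exact h.2 (o1 ψ h.1 hc).1
  rw [Fintype.sum_eq_add χ (irrOne H) ne fun ψ h => by simp [o2 ψ h], a7.2, Nat.cast_one, one_smul] at e
  rw [Fintype.sum_eq_add χ (irrOne H) ne fun ψ h => by simp [o2 ψ h], a7.2] at s2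
  by_cases c : n (irrOne H) = 0
  · left
    rw [e, c, Nat.cast_zero, zero_smul, add_zero]
    exact χ.2
  · right
    rw [(o1 _ ne.symm c).2] at s2
    have c3 := (d7_neg D.HS h7 χ.2 (k χ c1) a7.1.le (by omega)).2
    have c4 : n (irrOne H) = 1 := by omega
    rw [e, c4, Nat.cast_one, one_smul]
    exact (add_sub_cancel_right (χ : H → ℂ) 1).symm ▸ χ.2

end Cfsg.Agent.U7
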