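import Cfsg.Agent.U7.Bas
import Cfsg.Agent.Perm.PermModule

/-!
# A Sylow `p`-subgroup of a vector-transitive group
-/

set_option autoImplicit false
set_option linter.unusedSectionVars false

namespace Cfsg.Agent.U7

open Cfsg.Agent.Class.U Cfsg.Agent.Char
open scoped ComplexConjugate

variable {F : Type*} [Field F] [Fintype F] {q : ℕ} [UF F q]

local notation "𝐡" => hermForm 7 F q

theorem orbit_ge {L : Subgroup (GU 7 F q)} (h : Tr L) {p : ℕ} [Fact p.Prime] [CharP F p]
    (P : Sylow p L) {v : Fin 7 → F} (hv : hermForm 7 F q v v ≠ 0) :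
    q ^ 6 ≤ {w | ∃ s ∈ (P : Subgroup L).map L.subtype, s • v = w}.ncard := by
  obtain ⟨p', k, -, hc, hq, -⟩ := exists_prime_pow F q
  obtain rfl : p = p' := CharP.eq F ‹_› hc
  have v0 : v ≠ 0 := by rintro rfl; exact hv (herm_zero_left _)
  have h1 : MulAction.orbit L v = (VV q (𝐡 v v) : Finset _) := by
    ext w
    rw [Finset.mem_coe, mem_VV]
    constructor
    · rintro ⟨g, rfl⟩
      exact ⟨fun e => v0 ((smul_eq_zero_iff_eq g).1 e), GU_herm g.1 v v⟩
    · rintro ⟨w0, e⟩
      obtain ⟨g, hg, e⟩ := h v w v0 w0 e.symm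
      exact ⟨⟨g, hg⟩, e⟩
  have h2 := MulAction.index_stabilizer L v
  rw [h1, Set.ncard_coe_finset, card_VV_ne hv (herm_conj v v)] at h2
  have h3 : {w | ∃ s ∈ (P : Subgroup L).map L.subtype, s • v = w} =
      MulAction.orbit (P : Subgroup L) v := by
    ext w
    constructor
    · rintro ⟨_, ⟨s, hs, rfl⟩, e⟩
      exact ⟨⟨s, hs⟩, e⟩
    · rintro ⟨s, e⟩
      exact ⟨_, ⟨s.1, s.2, rfl⟩, e⟩
  have h4 : (MulAction.stabilizer (P : Subgroup L) v).index =
      (MulAction.stabilizer L v ⊓ P).relIndex P := by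
    rw [Subgroup.inf_relIndex_right]
    rfl
  rw [h3, ← MulAction.index_stabilizer]
  refine Nat.le_of_dvd (Nat.pos_of_ne_zero Subgroup.index_ne_zero_of_finite) ?_
  have h5 := Subgroup.index_dvd_of_le (inf_le_left : MulAction.stabilizer L v ⊓ P ≤ _)
  rw [← Subgroup.relIndex_mul_index inf_le_right, ← h4, h2] at h5
  refine Nat.Coprime.dvd_of_dvd_mul_right ?_ ((Dvd.intro _ rfl).trans h5)
  have h6 := ((Nat.Prime.coprime_iff_not_dvd Fact.out).2 P.not_dvd_index).pow_left k
  rw [← hq] at h6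
  exact h6.pow_left 6

variable (q) in
/-- the orthogonal complement -/
def e1p (E : Submodule F (Fin 7 → F)) : Submodule F (Fin 7 → F) where
  carrier := {y | ∀ x ∈ E, 𝐡 y x = 0}
  add_mem' {a b} ha hb w hw := by rw [herm_add_left, ha w hw, hb w hw, add_zero]
  zero_mem' w _ := herm_zero_left w
  smul_mem' c a ha w hw := by rw [herm_smul_left, ha w hw, mul_zero]

theorem e1_rank (E : Submodule F (Fin 7 → F)) :
    Module.finrank F (e1p q E) + Module.finrank F E = 7 := by
  let f : Equiv.Perm (Fin 7 → F) := Function.Involutive.toPerm (fun v => Class.U.conj F q ∘ v)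
    fun v => funext fun j => conj_conj _
  let E' : Submodule F (Fin 7 → F) :=
    { carrier := {v | f v ∈ E}
      add_mem' := fun {a b} ha hb => by
        have : f (a + b) = f a + f b := funext fun j => map_add (Class.U.conj F q) _ _
        change f (a + b) ∈ E
        exact this ▸ E.add_mem ha hb
      zero_mem' := by
        have : f 0 = 0 := funext fun j => map_zero (Class.U.conj F q)
        change f 0 ∈ E
        rw [this]
        exact E.zero_mem
      smul_mem' := fun c a ha => by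
        have : f (c • a) = Class.U.conj F q c • f a := funext fun j => map_mul (Class.U.conj F q) _ _
        change f (c • a) ∈ E
        exact this ▸ E.smul_mem _ ha }
  have e : Nat.card E' = Nat.card E := Nat.card_congr (f.subtypeEquiv fun v => Iff.rfl)
  rw [Module.natCard_eq_pow_finrank (K := F) (V := E),
    Module.natCard_eq_pow_finrank (K := F) (V := E')] at e
  have ff : ∀ v, f (f v) = v := fun v => funext fun j => conj_conj _
  have e2 : e1p q E = Cfsg.Agent.Perm.orth E' := by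
    ext y
    rw [Cfsg.Agent.Perm.mem_orth]
    constructor
    · intro h w hw
      have := h _ hw
      rw [herm_eq] at this
      rw [← this]
      exact Finset.sum_congr rfl fun j _ => (mul_comm _ _).trans (congrArg _ (conj_conj _).symm)
    · intro h w hw
      rw [herm_eq, ← h (f w) (show f (f w) ∈ E from (ff w).symm ▸ hw)]
      exact Finset.sum_congr rfl fun j _ => mul_comm _ _
  rw [e2, ← Nat.pow_right_injective Finite.one_lt_card e, Cfsg.Agent.Perm.finrank_orth, Fintype.card_fin]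

theorem exists_ev {L : Subgroup (GU 7 F q)} (h : Tr L) {p : ℕ} [Fact p.Prime] [CharP F p]
    (P : Sylow p L) : ∃ E v, Ev L ((P : Subgroup L).map L.subtype) E v := by
  have hge := fun v hv => orbit_ge h P (v := v) hv
  have hS : IsPGroup p ((P : Subgroup L).map L.subtype) := P.isPGroup'.map _
  have SL : (P : Subgroup L).map L.subtype ≤ L := Subgroup.map_subtype_le _
  generalize (P : Subgroup L).map L.subtype = S at hge hS SL ⊢
  have nS : ∀ g ∈ S, ∀ s, s ∈ S ↔ g * s * g⁻¹ ∈ S := fun g hg s => by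
    rw [S.mul_mem_cancel_right (inv_mem hg), S.mul_mem_cancel_left hg]
  obtain ⟨E, ⟨ti, nrm⟩, hmax⟩ := (wellFounded_gt (α := Submodule F (Fin 7 → F))).has_min
    {E | (∀ x ∈ E, ∀ y ∈ E, 𝐡 x y = 0) ∧
      ∀ g ∈ L, (∀ s, s ∈ S ↔ g * s * g⁻¹ ∈ S) → ∀ x ∈ E, g • x ∈ E}
    ⟨⊥, fun x hx y _ => by rw [(Submodule.mem_bot F).1 hx, herm_zero_left],
      fun g _ _ x hx => by rw [(Submodule.mem_bot F).1 hx, smul_zero]; exact Submodule.zero_mem _⟩
  have EP : E ≤ e1p q E := ti
  have rk := e1_rank (q := q) E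
  have rk' := Submodule.finrank_mono EP
  have nP : ∀ g ∈ L, (∀ s, s ∈ S ↔ g * s * g⁻¹ ∈ S) → ∀ y ∈ e1p q E, g • y ∈ e1p q E :=
    fun g hg hn y hy x hx => by
      rw [← smul_inv_smul g x, GU_herm]
      refine hy _ (nrm _ (inv_mem hg) (fun s => ?_) x hx)
      rw [hn (g⁻¹ * s * g⁻¹⁻¹)]
      simp [mul_assoc]
  let C : Submodule F (Fin 7 → F) :=
    { carrier := {y | y ∈ e1p q E ∧ ∀ s ∈ S, s • y - y ∈ E}
      add_mem' := fun {a b} ha hb => ⟨add_mem ha.1 hb.1, fun s hs => by
        rw [smul_add, add_sub_add_comm]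
        exact add_mem (ha.2 s hs) (hb.2 s hs)⟩
      zero_mem' := ⟨zero_mem _, fun s _ => by simp⟩
      smul_mem' := fun c a ha => ⟨Submodule.smul_mem _ c ha.1, fun s hs => by
        rw [GU_smul_comm, ← smul_sub]
        exact E.smul_mem c (ha.2 s hs)⟩ }
  have EC : E < C := by
    refine lt_of_le_of_ne (fun x hx => ⟨EP hx, fun s hs =>
      sub_mem (nrm s (SL hs) (nS s hs) x hx) hx⟩) fun e => ?_
    let ρ := (Representation.ofDistribMulAction F S (Fin 7 → F)).quotient E
      fun g x hx => nrm g.1 (SL g.2) (nS _ g.2) x hx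
    obtain ⟨_, ⟨y, hy, rfl⟩, y0, hf⟩ := Cfsg.Agent.Perm.exists_fixed_vector_of_isPGroup hS ρ
      ((e1p q E).map E.mkQ) (by
        rintro g _ ⟨y, hy, rfl⟩
        exact ⟨g.1 • y, nP _ (SL g.2) (nS _ g.2) y hy, rfl⟩) fun e => by
      have h1 : e1p q E ≤ E := fun y hy => (Submodule.Quotient.mk_eq_zero E).1
        ((Submodule.eq_bot_iff _).1 e _ ⟨y, hy, rfl⟩)
      have := Submodule.finrank_mono h1
      omega
    refine y0 ((Submodule.Quotient.mk_eq_zero E).2 (e ▸ (⟨hy, fun s hs => ?_⟩ : y ∈ C)))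
    exact (Submodule.Quotient.eq E).1 (hf ⟨s, hs⟩)
  obtain ⟨v, vC, nv⟩ : ∃ v ∈ C, 𝐡 v v ≠ 0 := by
    by_contra h0
    push Not at h0
    refine hmax C ⟨fun x hx y hy => ?_, fun g hg hn y hy => ⟨nP g hg hn y hy.1, fun s hs => ?_⟩⟩ EC
    · obtain ⟨c, hc⟩ := exists_conj_ne F q
      have e1 := h0 _ (add_mem hx hy)
      have e2 := h0 _ (add_mem (C.smul_mem c hx) hy)
      simp only [herm_add_left, herm_add_right, herm_smul_left, herm_smul_right, h0 x hx,
        h0 y hy] at e1 e2
      refine (mul_eq_zero.1 (?_ : (Class.U.conj F q c - c) * 𝐡 x y = 0)).resolve_left (sub_ne_zero.2 hc)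
      linear_combination Class.U.conj F q c * e1 - e2
    · have h1 : g⁻¹ * s * g ∈ S := (hn _).2 (by simpa [mul_assoc] using hs)
      have h2 := nrm g hg hn _ (hy.2 _ h1)
      rwa [smul_sub, smul_smul, ← mul_assoc, ← mul_assoc, mul_inv_cancel, one_mul, mul_smul] at h2
  have sub : {w | ∃ s ∈ S, s • v = w} ⊆ (v + ·) '' E := by
    rintro _ ⟨s, hs, rfl⟩
    exact ⟨_, vC.2 s hs, by simp⟩
  have cE : ((v + ·) '' E).ncard = q ^ (2 * Module.finrank F E) := by
    rw [Set.ncard_image_of_injective _ (add_right_injective v), pow_mul, ← UF.card_eq (F := F),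
      ← Module.natCard_eq_pow_finrank]
    rfl
  have h6 := (hge v nv).trans (Set.ncard_le_ncard sub)
  rw [cE, Nat.pow_le_pow_iff_right (two_le_q F q)] at h6
  have r3 : Module.finrank F E = 3 := by omega
  have vE : v ∉ E := fun hv => nv (ti v hv v hv)
  refine ⟨E, v, r3, ti, nv, fun x hx => herm_comm_zero (vC.1 x hx), fun y hy => ?_, nrm, vC.2,
    fun x hx => ?_⟩
  · have h1 : E < (F ∙ v) ⊔ E := lt_of_le_of_ne le_sup_right fun e =>
      vE (e ▸ Submodule.mem_sup_left (Submodule.mem_span_singleton_self v))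
    have h2 := Submodule.finrank_lt_finrank_of_lt h1
    have h3 : (F ∙ v) ⊔ E = e1p q E := Submodule.eq_of_le_of_finrank_le
      (sup_le ((Submodule.span_singleton_le_iff_mem _ _).2 vC.1) EP) (by omega)
    obtain ⟨a, ha, x, hx, e⟩ := Submodule.mem_sup.1 (h3.ge hy)
    obtain ⟨c, rfl⟩ := Submodule.mem_span_singleton.1 ha
    exact ⟨c, x, hx, e.symm⟩
  · have h1 := Set.eq_of_subset_of_ncard_le sub (by rw [cE, r3]; exact hge v nv)
    exact h1.ge ⟨x, hx, rfl⟩

end Cfsg.Agent.U7
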