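import Cfsg.Agent.U7.Defs

/-!
# A cocycle computation in the Heisenberg group
-/

set_option autoImplicit false
set_option linter.unusedSectionVars false

namespace Cfsg.Agent.U7

open Cfsg.Agent.Class.U Cfsg.Agent.Char
open scoped ComplexConjugate

/-- `(a, b, c)` stands for `e₂ ↦ e₂ + a e₁`, `e₃ ↦ e₃ + b e₂ + c e₁`; the product is
`(a,b,c)(a',b',c') = (a+a', b+b', c+c'+a b')`, and `d₁,d₂,d₃` are the coordinates of a cocycle.
`z = (0,0,c)` is central: comparing `d₁` at `z s = s z` gives `c d₃ s = a d₂ z + c_s d₃ z`;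
`d₃ z = 0` since `d₃` is additive and `z` is a commutator (`(1,0,0)(0,c,0) = z (0,c,0)(1,0,0)`).  So
`d₃ (a,b,c) = κ a`, `κ = d₂ (0,0,1) ≠ 0` (`hs`), `d₂ (0,0,c) = κ c`.  With `s = (a,0,0)`,
`t = (0,b,0)`, `s t = (0,0,ab) t s`: `d₂` gives `2 κ a b = 0`, so `2 = 0`.  Then `s² = 1` gives
`a d₂ s = 0`; `d₁` gives `a μ(b) = λ(ab) + κ a² b` for `a ≠ 0`, `μ b = d₂ (0,b,0)`,
`λ c = d₁ (0,0,c)`.  `b = 1`: `λ a = a μ 1 + κ a²`; `a = 1`: `μ b = λ b + κ b`; substituting,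
`κ a b (1+a)(1+b) = 0`; take `a = b = x`. -/
theorem cocycle3 {F : Type*} [Field F] (hF : ∃ x : F, x ≠ 0 ∧ x ≠ 1) (d₁ d₂ d₃ : F → F → F → F)
    (h3 : ∀ a b c a' b' c', d₃ (a + a') (b + b') (c + c' + a * b') = d₃ a b c + d₃ a' b' c')
    (h2 : ∀ a b c a' b' c', d₂ (a + a') (b + b') (c + c' + a * b') =
      d₂ a b c + d₂ a' b' c' + b * d₃ a' b' c')
    (h1 : ∀ a b c a' b' c', d₁ (a + a') (b + b') (c + c' + a * b') =
      d₁ a b c + d₁ a' b' c' + a * d₂ a' b' c' + c * d₃ a' b' c')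
    (hs : ∃ a b c, d₃ a b c ≠ 0) : False := by
  obtain ⟨x, x0, x1⟩ := hF
  have z3 : ∀ c, d₃ 0 0 c = 0 := fun c => by
    have A := h3 1 0 0 0 c 0
    have B := h3 0 c 0 1 0 0
    have C := h3 0 0 c 1 c 0
    simp only [add_zero, zero_add, zero_mul, one_mul] at A B C
    linear_combination A - B - C
  have k : ∀ a b c, d₃ a b c = a * d₂ 0 0 1 := fun a b c => by
    have A := h1 0 0 1 a b c
    have B := h1 a b c 0 0 1
    simp only [add_zero, zero_add, zero_mul, mul_zero, one_mul, z3, add_comm c 1] at A B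
    linear_combination B - A
  have m : ∀ a b, a * d₂ 0 b 0 = d₁ 0 0 (a * b) + a * b * (a * d₂ 0 0 1) := fun a b => by
    have A := h1 a 0 0 0 b 0
    have B := h1 0 b 0 a 0 0
    have C := h1 0 0 (a * b) a b 0
    simp only [add_zero, zero_add, zero_mul, k] at A B C
    linear_combination B + C - A
  obtain ⟨a, b, c, h⟩ := hs
  have k0 : d₂ 0 0 1 ≠ 0 := fun e => h (by rw [k, e, mul_zero])
  have A := m x x
  have B := m 1 x
  have C := m x 1
  have D := m (x * x) 1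
  simp only [mul_one, one_mul] at B C D
  refine mul_ne_zero (mul_ne_zero k0 (pow_ne_zero 2 x0)) (pow_ne_zero 2 (sub_ne_zero.2 x1)) ?_
  linear_combination A - x * B + x * C - D

end Cfsg.Agent.U7
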