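import Cfsg.Agent.U7.E3a
import Cfsg.Agent.Fus.LinP

/-!
# No transitive affine `p`-group on a `3`-space without translations
-/

set_option autoImplicit false
set_option linter.unusedSectionVars false

namespace Cfsg.Agent.U7

open Cfsg.Agent.Class.U Cfsg.Agent.Char
open scoped ComplexConjugate

theorem e3b_flag {F E U : Type*} [Field F] [AddCommGroup E] [Module F E] [Finite E] [Group U]
    [DistribMulAction U E] [SMulCommClass U F E] {p : ℕ} [Fact p.Prime] [CharP F p]
    (h3 : Module.finrank F E = 3) (hU : IsPGroup p U) : ∃ e₁ e₂ e₃ : E,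
      (∀ x y z : F, x • e₁ + y • e₂ + z • e₃ = 0 → x = 0 ∧ y = 0 ∧ z = 0) ∧ ∀ s : U, s • e₁ = e₁ ∧
        ∃ a b c : F, s • e₂ = e₂ + a • e₁ ∧ s • e₃ = e₃ + b • e₂ + c • e₁ := by
  classical
  have K : ∀ X : Submodule F E, Module.finrank F X < 3 → (∀ s : U, ∀ x ∈ X, s • x ∈ X) →
      ∃ v, v ∉ X ∧ ∀ s : U, s • v - v ∈ X := fun X h1 h2 => by
    obtain ⟨v, -, a, b⟩ := Fus.exists_fixed_mod (K := F) (p := p)
      (S := (DistribMulAction.toModuleAut F E (S := U)).range) (hU.of_surjective _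
        (MonoidHom.rangeRestrict_surjective _)) (X := X) (Y := ⊤) (fun h => by
          rw [top_le_iff.1 h, finrank_top, h3] at h1; exact lt_irrefl _ h1)
      (by rintro _ ⟨s, rfl⟩; exact h2 s) (fun _ _ _ _ => trivial)
    exact ⟨v, a, fun s => b _ ⟨s, rfl⟩⟩
  obtain ⟨e₁, a1, b1⟩ := K ⊥ (by simp) (by simp)
  have f1 : ∀ s : U, s • e₁ = e₁ := fun s => sub_eq_zero.1 (b1 s)
  obtain ⟨e₂, a2, b2⟩ := K (Submodule.span F {e₁}) (by
    have := finrank_span_le_card (R := F) ({e₁} : Set E)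
    simp only [Set.toFinset_singleton, Finset.card_singleton] at this
    omega) (fun s x hx => by
      obtain ⟨c, rfl⟩ := Submodule.mem_span_singleton.1 hx
      rw [smul_comm, f1]; exact hx)
  have f2 : ∀ s : U, ∃ a : F, s • e₂ = e₂ + a • e₁ := fun s => by
    obtain ⟨c, hc⟩ := Submodule.mem_span_singleton.1 (b2 s)
    exact ⟨c, by rw [hc]; abel⟩
  obtain ⟨e₃, a3, b3⟩ := K (Submodule.span F {e₁, e₂}) (by
    have := finrank_span_le_card (R := F) ({e₁, e₂} : Set E)
    have h2 : ({e₁, e₂} : Set E).toFinset.card ≤ 2 := by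
      rw [Set.toFinset_insert, Set.toFinset_singleton]; exact Finset.card_le_two
    omega) (fun s x hx => by
      obtain ⟨c, d, rfl⟩ := Submodule.mem_span_pair.1 hx
      obtain ⟨a, ha⟩ := f2 s
      rw [smul_add, smul_comm, f1, smul_comm s, ha]
      exact Submodule.mem_span_pair.2 ⟨c + d * a, d, by module⟩)
  refine ⟨e₁, e₂, e₃, fun x y z h => ?_, fun s => ⟨f1 s, ?_⟩⟩
  · obtain rfl : z = 0 := by
      by_contra hz
      refine a3 (Submodule.mem_span_pair.2 ⟨-(z⁻¹ * x), -(z⁻¹ * y), ?_⟩)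
      rw [← one_smul F e₃, ← inv_mul_cancel₀ hz]
      linear_combination (norm := module) (-z⁻¹) • h
    obtain rfl : y = 0 := by
      by_contra hy
      refine a2 (Submodule.mem_span_singleton.2 ⟨-(y⁻¹ * x), ?_⟩)
      rw [← one_smul F e₂, ← inv_mul_cancel₀ hy]
      linear_combination (norm := module) (-y⁻¹) • h
    refine ⟨?_, rfl, rfl⟩
    simp only [zero_smul, add_zero, smul_eq_zero] at h
    exact h.resolve_right a1
  · obtain ⟨a, ha⟩ := f2 s
    obtain ⟨c, b, hb⟩ := Submodule.mem_span_pair.1 (b3 s)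
    exact ⟨a, b, c, ha, by rw [add_assoc, add_comm (b • e₂), hb]; abel⟩

/-- A `p`-group `U` acting linearly on the `3`-space `E` in characteristic `p` fixes a flag:
there is a basis `e₁,e₂,e₃` with `s e₁ = e₁`, `s e₂ = e₂ + a e₁`, `s e₃ = e₃ + b e₂ + c e₁`
(fixed vectors in `E`, `E/⟨e₁⟩`, `E/⟨e₁,e₂⟩`; search for a landed lemma on unipotent flags).
Let `τ s = (a, b, c) ∈ F³`.  If `τ s = τ t` then `s⁻¹ t` acts trivially, so
`δ t = δ s + s • δ (s⁻¹ t) = δ s` (`h0`).  So `δ = δ̄ ∘ τ`; `δ` is onto `E`, `|E| = |F|³`, so `τ` is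
onto `F³` (counting).  The coordinates of `δ̄` satisfy the hypotheses of `cocycle3`. -/
theorem no_cocycle {F E U : Type*} [Field F] [Finite F] [AddCommGroup E] [Module F E] [Group U]
    [Finite U] [DistribMulAction U E] [SMulCommClass U F E] {p : ℕ} [Fact p.Prime] [CharP F p]
    (hF : ∃ x : F, x ≠ 0 ∧ x ≠ 1) (h3 : Module.finrank F E = 3) (hU : IsPGroup p U) (δ : U → E)
    (hδ : ∀ s t, δ (s * t) = δ s + s • δ t) (h0 : ∀ s : U, (∀ x : E, s • x = x) → δ s = 0)
    (hs : Function.Surjective δ) : False := by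
  have : Finite E := Finite.of_surjective δ hs
  obtain ⟨e₁, e₂, e₃, li, hf⟩ := e3b_flag h3 hU
  have f1 := fun s => (hf s).1
  choose a b c f2 f3 using fun s => (hf s).2
  let φ : F × F × F → E := fun w => w.1 • e₁ + w.2.1 • e₂ + w.2.2 • e₃
  have inj : Function.Injective φ := fun v w h => by
    obtain ⟨h1, h2, h3⟩ := li (v.1 - w.1) (v.2.1 - w.2.1) (v.2.2 - w.2.2)
      (by linear_combination (norm := module) h)
    exact Prod.ext (sub_eq_zero.1 h1) (Prod.ext (sub_eq_zero.1 h2) (sub_eq_zero.1 h3))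
  have cd : Nat.card (F × F × F) = Nat.card E := by
    rw [Module.natCard_eq_pow_finrank (K := F) (V := E), h3, Nat.card_prod, Nat.card_prod]; ring
  have bij : Function.Bijective φ := inj.bijective_of_nat_card_le cd.ge
  have act : ∀ (s : U) w, s • φ w = φ (w.1 + a s * w.2.1 + c s * w.2.2, w.2.1 + b s * w.2.2, w.2.2) :=
    fun s w => by
      simp only [φ, smul_add, smul_comm s, f1, f2, f3]
      module
  let τ : U → F × F × F := fun s => (a s, b s, c s)
  have tm : ∀ s t, τ (s * t) = (a s + a t, b s + b t, c s + c t + a s * b t) := fun s t => by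
    have k1 := inj ((act (s * t) (0, 1, 0)).symm.trans (by rw [mul_smul, act, act]))
    have k2 := inj ((act (s * t) (0, 0, 1)).symm.trans (by rw [mul_smul, act, act]))
    simp only [Prod.mk.injEq] at k1 k2
    exact Prod.ext (by linear_combination k1.1) (Prod.ext (by linear_combination k2.2.1)
      (by linear_combination k2.1))
  have dt : ∀ s t, τ s = τ t → δ s = δ t := fun s t h => by
    simp only [τ, Prod.mk.injEq] at h
    have := hδ s (s⁻¹ * t)
    rw [mul_inv_cancel_left, h0 (s⁻¹ * t) fun x => by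
      obtain ⟨w, rfl⟩ := bij.2 x
      rw [mul_smul, inv_smul_eq_iff, act, act, h.1, h.2.1, h.2.2], smul_zero, add_zero] at this
    exact this.symm
  choose σ hσ using hs
  have sj : Function.Surjective τ := Function.Surjective.of_comp (g := σ)
    (Function.Injective.bijective_of_nat_card_le (fun x y h => by rw [← hσ x, dt _ _ h, hσ]) cd.le).2
  choose ρ hρ using sj
  choose d hd using fun w => bij.2 (δ (ρ w))
  have key : ∀ x y z x' y' z', d (x + x', y + y', z + z' + x * y') = d (x, y, z) +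
      ((d (x', y', z')).1 + x * (d (x', y', z')).2.1 + z * (d (x', y', z')).2.2,
        (d (x', y', z')).2.1 + y * (d (x', y', z')).2.2, (d (x', y', z')).2.2) := fun x y z x' y' z' => by
    have k1 := hρ (x, y, z)
    have k2 := hρ (x', y', z')
    simp only [τ, Prod.mk.injEq] at k1 k2
    apply inj
    rw [hd, dt _ (ρ (x, y, z) * ρ (x', y', z')) (by rw [hρ, tm, k1.1, k1.2.1, k1.2.2, k2.1, k2.2.1, k2.2.2]),
      hδ, ← hd, ← hd, act, k1.1, k1.2.1, k1.2.2]
    simp only [φ, Prod.fst_add, Prod.snd_add]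
    module
  refine cocycle3 hF (fun x y z => (d (x, y, z)).1) (fun x y z => (d (x, y, z)).2.1)
    (fun x y z => (d (x, y, z)).2.2) (fun x y z x' y' z' => ?_) (fun x y z x' y' z' => ?_)
    (fun x y z x' y' z' => ?_) ⟨a (σ e₃), b (σ e₃), c (σ e₃), ?_⟩
  · simp only [key, Prod.snd_add]
  · simp only [key, Prod.fst_add, Prod.snd_add]; ring
  · simp only [key, Prod.fst_add]; ring
  · have : d (τ (σ e₃)) = (0, 0, 1) := inj (by rw [hd, dt _ _ (hρ _), hσ]; simp [φ])
    simp only [τ] at this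
    simp [this]

end Cfsg.Agent.U7
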