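import Cfsg.Agent.U7.E1
import Cfsg.Agent.U7.E3b
import Cfsg.Agent.PLocal.AmbSyl

/-!
# A vector-transitive group contains a transvection
-/

set_option autoImplicit false
set_option linter.unusedSectionVars false

namespace Cfsg.Agent.U7

open Cfsg.Agent.Class.U Cfsg.Agent.Char
open scoped ComplexConjugate

variable {F : Type*} [Field F] [Fintype F] {q : ℕ} [UF F q] {L S : Subgroup (GU 7 F q)} {E : Submodule F (Fin 7 → F)} {v : Fin 7 → F}

/-- translations -/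
def Tl (S : Subgroup (GU 7 F q)) (E : Submodule F (Fin 7 → F)) (v e : Fin 7 → F) : Prop :=
  e ∈ E ∧ ∃ s ∈ S, (∀ x ∈ E, s • x = x) ∧ s • v = v + e

theorem Ev.inv (h : Ev L S E v) (hS : S ≤ L) {s : GU 7 F q} (hs : s ∈ S) : ∀ x ∈ E, s • x ∈ E :=
  h.nrm s (hS hs) (Subgroup.mem_normalizer_iff.1 (Subgroup.le_normalizer hs))

/-- `no_cocycle` for `U = S` acting on `E` (`nrm`; `S ≤ L` normalises itself),
`δ s = s v - v` (`mv`, `tr`) -/
theorem Ev.exists_tl (h : Ev L S E v) (hS : S ≤ L) {p : ℕ} [Fact p.Prime] [CharP F p]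
    (hp' : IsPGroup p S) : ∃ e, e ≠ 0 ∧ Tl S E v e := by
  by_contra hn
  push Not at hn
  let _ : DistribMulAction S E :=
    { smul := fun s x => ⟨s.1 • x.1, h.inv hS s.2 _ x.2⟩
      one_smul := fun x => Subtype.ext (one_smul (GU 7 F q) x.1)
      mul_smul := fun s t x => Subtype.ext (mul_smul s.1 t.1 x.1)
      smul_zero := fun s => Subtype.ext (smul_zero s.1)
      smul_add := fun s x y => Subtype.ext (smul_add s.1 x.1 y.1) }
  have : SMulCommClass S F E := ⟨fun s c x => Subtype.ext (GU_smul_comm s.1 c x.1)⟩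
  obtain ⟨x, hx⟩ := exists_conj_ne F q
  refine no_cocycle (F := F) (E := E) (U := S) ⟨x, fun c => hx (by simp [c]), fun c => hx (by simp [c])⟩ h.rk hp'
    (fun s => ⟨s.1 • v - v, h.mv _ s.2⟩) (fun s t => Subtype.ext ?_) (fun s hs => Subtype.ext ?_) fun y => ?_
  · change (s.1 * t.1) • v - v = s.1 • v - v + s.1 • (t.1 • v - v)
    rw [mul_smul, smul_sub]; abel
  · exact by_contra fun c => hn _ c ⟨h.mv _ s.2, s, s.2, fun x hx => congrArg Subtype.val (hs ⟨x, hx⟩),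
      (add_sub_cancel _ _).symm⟩
  · obtain ⟨s, hs, e⟩ := h.tr y y.2
    exact ⟨⟨s, hs⟩, Subtype.ext (sub_eq_of_eq_add' e)⟩

/-- `s x - x ⊥ E` (as `𝐡(s x, y) = 𝐡(s x, s y)`), so `s x - x = α v + η` (`perp`); pairing with
`s v = v + e` gives `α 𝐡(v,v) = -𝐡(x,e)`. -/
theorem Ev.form (h : Ev L S E v) {s : GU 7 F q} {e : Fin 7 → F} (he : e ∈ E)
    (h1 : ∀ x ∈ E, s • x = x) (h2 : s • v = v + e) (x : Fin 7 → F) :
    s • x - x + (hermForm 7 F q x e / hermForm 7 F q v v) • v ∈ E := by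
  have k : ∀ y ∈ E, hermForm 7 F q (s • x) y = hermForm 7 F q x y := fun y hy => by
    rw [← GU_herm s x y, h1 y hy]
  obtain ⟨c, η, hη, e1⟩ := h.perp (s • x - x) fun y hy => by rw [herm_sub_left, k y hy, sub_self]
  have e2 := GU_herm s x v
  rw [h2, herm_add_right, k e he] at e2
  have e3 := congrArg (fun y => hermForm 7 F q y v) e1
  simp only [herm_sub_left, herm_add_left, herm_smul_left, h.ov η hη] at e3
  have e4 : hermForm 7 F q x e / hermForm 7 F q v v = -c := by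
    rw [div_eq_iff h.nv]
    linear_combination e2 - e3
  rw [e1, e4, neg_smul, add_comm (c • v), add_neg_cancel_right]
  exact hη

/-- characteristic two: `s² x = x + (𝐡(x,e)/a) e`, `a = 𝐡 v v` (`form`) -/
theorem Ev.tv_two (h : Ev L S E v) (h2 : (2 : F) = 0) {e : Fin 7 → F} (he : Tl S E v e) :
    ∃ g ∈ S, Tv g e (hermForm 7 F q v v)⁻¹ := by
  obtain ⟨he, s, hs, s1, s2⟩ := he
  refine ⟨s * s, mul_mem hs hs, fun x => ?_⟩
  have e1 := s1 _ (h.form he s1 s2 x)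
  rw [smul_add, smul_sub, GU_smul_comm, s2, div_eq_inv_mul] at e1
  rw [mul_smul]
  generalize s • s • x = a at e1 ⊢
  generalize s • x = b at e1 ⊢
  linear_combination (norm := module) e1 +
    h2 • (b - x - ((hermForm 7 F q v v)⁻¹ * hermForm 7 F q x e) • e)

/-- for `s, s'` belonging to `e, e' = c e`: `s' s x - s s' x = (𝐡(x,e') e - 𝐡(x,e) e')/a ∈ E`
(`form`), so `(s s')⁻¹ s' s` is the transvection with constant `(c^q - c)/a` -/
theorem Ev.tv_comm (h : Ev L S E v) {e : Fin 7 → F} {c : F} (he : Tl S E v e)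
    (he' : Tl S E v (c • e)) : ∃ g ∈ S, Tv g e ((c ^ q - c) / hermForm 7 F q v v) := by
  obtain ⟨he, s, hs, s1, s2⟩ := he
  obtain ⟨he', t, ht, t1, t2⟩ := he'
  refine ⟨(s * t)⁻¹ * (t * s), mul_mem (inv_mem (mul_mem hs ht)) (mul_mem ht hs), fun x => ?_⟩
  have e1 := t1 _ (h.form he s1 s2 x)
  have e2 := s1 _ (h.form he' t1 t2 x)
  rw [smul_add, smul_sub, GU_smul_comm, t2] at e1
  rw [smul_add, smul_sub, GU_smul_comm, s2, herm_smul_right, conj_apply] at e2
  rw [mul_smul, inv_smul_eq_iff, mul_smul, mul_smul, smul_add, smul_add, GU_smul_comm, GU_smul_comm, t1 e he,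
    s1 e he]
  generalize t • s • x = a at e1 ⊢
  generalize s • t • x = b at e2 ⊢
  generalize s • x = a' at e1 e2
  generalize t • x = b' at e1 e2
  linear_combination (norm := module) e1 - e2

/-- if `n ∈ L` normalises `S`: `n` preserves `E` (also `n⁻¹`), `n v = ζ v + y` (`perp`),
`ζ ζ^q = 1`, and `n s n⁻¹` shows `Tl (ζ⁻¹ • n • e)` -/
theorem Ev.tl_conj (h : Ev L S E v) {n : GU 7 F q} (hn : n ∈ L)
    (hn' : ∀ s, s ∈ S ↔ n * s * n⁻¹ ∈ S) : ∃ ζ : F, ζ * ζ ^ q = 1 ∧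
      ∀ e, Tl S E v e → Tl S E v (ζ • n • e) := by
  have i1 := h.nrm n hn hn'
  have i2 := h.nrm n⁻¹ (inv_mem hn) fun s => by simpa [mul_assoc] using (hn' (n⁻¹ * s * n⁻¹⁻¹)).symm
  obtain ⟨ζ, y, hy, e1⟩ := h.perp (n • v) fun x hx => by
    rw [← smul_inv_smul n x, GU_herm]
    exact herm_comm_zero (h.ov _ (i2 x hx))
  have e2 := GU_herm n v v
  rw [e1, herm_add_left, herm_add_right, herm_add_right, herm_smul_left, herm_smul_left, herm_smul_right,
    herm_smul_right, h.ov y hy, herm_comm_zero (h.ov y hy), h.ti y hy y hy, conj_apply] at e2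
  have e3 : ζ * ζ ^ q = 1 := mul_right_cancel₀ h.nv (by linear_combination e2)
  have z0 : ζ ≠ 0 := left_ne_zero_of_mul_eq_one e3
  refine ⟨ζ⁻¹, by rw [inv_pow, ← mul_inv, e3, inv_one], ?_⟩
  rintro e ⟨he, s, hs, s1, s2⟩
  have f : ∀ x ∈ E, (n * s * n⁻¹) • x = x := fun x hx => by
    rw [mul_smul, mul_smul, s1 _ (i2 x hx), smul_inv_smul]
  refine ⟨E.smul_mem _ (i1 e he), _, (hn' s).1 hs, f, smul_right_injective _ z0 ?_⟩
  have e4 : (n * s * n⁻¹) • n • v = n • v + n • e := by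
    rw [mul_smul, mul_smul, inv_smul_smul, s2, smul_add]
  rw [e1, smul_add, GU_smul_comm, f y hy] at e4
  simp only [smul_add, smul_inv_smul₀ z0]
  generalize (n * s * n⁻¹) • v = a at e4 ⊢
  generalize n • e = b at e4 ⊢
  linear_combination (norm := module) e4

/-- the translations form an additive subgroup -/
def tlA (S : Subgroup (GU 7 F q)) (E : Submodule F (Fin 7 → F)) (v : Fin 7 → F) :
    AddSubgroup (Fin 7 → F) where
  carrier := {e | Tl S E v e}
  zero_mem' := ⟨E.zero_mem, 1, one_mem _, fun _ _ => one_smul _ _, by simp⟩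
  add_mem' := by
    rintro a b ⟨ha, s, hs, s1, s2⟩ ⟨hb, t, ht, t1, t2⟩
    exact ⟨E.add_mem ha hb, s * t, mul_mem hs ht, fun x hx => by rw [mul_smul, t1 x hx, s1 x hx],
      by rw [mul_smul, t2, smul_add, s2, s1 b hb, add_assoc]⟩
  neg_mem' := by
    rintro a ⟨ha, s, hs, s1, s2⟩
    exact ⟨E.neg_mem ha, s⁻¹, inv_mem hs, fun x hx => by rw [inv_smul_eq_iff, s1 x hx],
      by rw [inv_smul_eq_iff, smul_add, s2, smul_neg, s1 a ha, add_neg_cancel_right]⟩

theorem Ev.tl_smul (h : Ev L S E v) (hS : S ≤ L) {n : GU 7 F q} (hn : n ∈ S) {e : Fin 7 → F}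
    (he : Tl S E v e) : Tl S E v (n • e) := by
  obtain ⟨he, s, hs, s1, s2⟩ := he
  refine ⟨h.inv hS hn e he, n * s * n⁻¹, mul_mem (mul_mem hn hs) (inv_mem hn), fun x hx => ?_, ?_⟩
  · rw [mul_smul, mul_smul, s1 _ (h.inv hS (inv_mem hn) x hx), smul_inv_smul]
  · have e1 : s • n⁻¹ • v = n⁻¹ • v + e := by
      have := s1 _ (h.mv _ (inv_mem hn))
      rw [smul_sub, s2, sub_eq_iff_eq_add] at this
      rw [this]; abel
    rw [mul_smul, mul_smul, e1, smul_add, smul_inv_smul]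

theorem Ev.exists_fix (h : Ev L S E v) (hS : S ≤ L) {p : ℕ} [Fact p.Prime] [CharP F p]
    (hp' : IsPGroup p S) : ∃ e, e ≠ 0 ∧ Tl S E v e ∧ ∀ s ∈ S, s • e = e := by
  obtain ⟨e, e0, he⟩ := h.exists_tl hS hp'
  let _ : MulAction S (tlA S E v) :=
    { smul := fun s x => ⟨s.1 • x.1, h.tl_smul hS s.2 x.2⟩
      one_smul := fun x => Subtype.ext (one_smul (GU 7 F q) x.1)
      mul_smul := fun s t x => Subtype.ext (mul_smul s.1 t.1 x.1) }
  have o : addOrderOf e = p := addOrderOf_eq_prime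
    (by rw [← Nat.cast_smul_eq_nsmul F, CharP.cast_eq_zero, zero_smul]) e0
  obtain ⟨b, hb, b0⟩ := hp'.exists_fixed_point_of_prime_dvd_card_of_fixed_point (tlA S E v)
    (o ▸ (tlA S E v).addOrderOf_dvd_natCard he) (a := 0) fun s => Subtype.ext (smul_zero s.1)
  exact ⟨b, fun c => b0 (Subtype.ext c.symm), b.2, fun s hs => congrArg Subtype.val (hb ⟨s, hs⟩)⟩

/-- `exists_ev`, `exists_tl`.  `p = 2`: `tv_two`.  `p` odd: `{e | Tl e}` is an additive subgroup
invariant under `S` (`s₀ s s₀⁻¹` belongs to `s₀ e`: use `mv`), so the `p`-group `S` fixes some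
`e ≠ 0` in it.  Take `l ∈ F` a non-square (`l^((q²-1)/2) ≠ 1`), `g ∈ L` with `g e = l e` (`Tr`).
`P` and `g P g⁻¹` are Sylow subgroups of `L` inside the stabiliser of `l e`, so conjugate in it by
`k`; `n = k g` normalises `S`, `n e = l e`.  `tl_conj` gives `Tl ((ζ l) e)`; if `c = ζ l` had
`c^q = c` then `l^((q²-1)/2) = 1`.  `tv_comm`. -/
theorem exists_tv (h : Tr L) : ∃ g ∈ L, ∃ u c, u ≠ 0 ∧ hermForm 7 F q u u = 0 ∧ c ≠ 0 ∧ Tv g u c := by
  obtain ⟨p, k, hp, _, hq, -⟩ := exists_prime_pow F q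
  have := Fact.mk hp
  obtain ⟨P⟩ : Nonempty (Sylow p L) := inferInstance
  obtain ⟨E, v, ev⟩ := exists_ev h P
  have hS := PLocal.Amb.isSyl_map_subtype P
  generalize (P : Subgroup L).map L.subtype = S at ev hS
  obtain ⟨e, e0, he, fe⟩ := ev.exists_fix hS.le hS.pgrp
  have ee := ev.ti e he.1 e he.1
  rcases hp.eq_two_or_odd' with rfl | ho
  · obtain ⟨g, hg, t⟩ := ev.tv_two (CharP.cast_eq_zero F 2) he
    exact ⟨g, hS.le hg, e, _, e0, ee, inv_ne_zero ev.nv, t⟩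
  obtain ⟨m, hm⟩ : Odd q := hq ▸ ho.pow
  have q2 := two_le_q F q
  obtain ⟨l, l0, hl⟩ := exists_pow_ne_one (F := F) (d := 2 * m * (m + 1)) (by
    have : 0 < m := by omega
    positivity) (by
    rw [card_units F q, hm, Nat.add_sub_cancel]
    have : 0 < m := by omega
    nlinarith)
  obtain ⟨g, hg, ge⟩ := h e (l • e) e0 (smul_ne_zero l0 e0)
    (by rw [herm_smul_left, herm_smul_right, ee, mul_zero, mul_zero])
  obtain ⟨k, hk, nk⟩ := (hS.mono (K := L ⊓ MulAction.stabilizer _ (l • e)) (le_inf hS.le fun s hs => by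
      rw [MulAction.mem_stabilizer_iff, GU_smul_comm, fe s hs]) inf_le_left).exists_cj_eq
    ((hS.cj_of_mem hg).mono (le_inf (hS.cj_of_mem hg).le (PLocal.Amb.cj_le_iff_forall.2 fun s hs => by
      rw [MulAction.mem_stabilizer_iff, mul_smul, mul_smul, ← ge, inv_smul_smul, fe s hs])) inf_le_left)
  rw [← PLocal.Amb.cj_mul, PLocal.Amb.cj_eq_iff] at nk
  obtain ⟨ζ, z1, z2⟩ := ev.tl_conj (mul_mem hk.1 hg) (Subgroup.mem_normalizer_iff.1 nk)
  have t := z2 e he
  rw [mul_smul, ge, hk.2, smul_smul] at t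
  obtain ⟨g', hg', t'⟩ := ev.tv_comm he t
  refine ⟨g', hS.le hg', e, _, e0, ee, div_ne_zero (sub_ne_zero.2 fun c => hl ?_) ev.nv, t'⟩
  have c1 : (ζ * l) ^ (2 * m) = 1 := mul_right_cancel₀ (mul_ne_zero (left_ne_zero_of_mul_eq_one z1) l0)
    (by rw [← pow_succ, ← hm, c, one_mul])
  have c2 : ζ ^ (2 * m * (m + 1)) = 1 := by
    rw [← pow_succ', hm] at z1
    rw [show 2 * m * (m + 1) = (2 * m + 1 + 1) * m by ring, pow_mul, z1, one_pow]
  have c3 : (ζ * l) ^ (2 * m * (m + 1)) = 1 := by rw [pow_mul, c1, one_pow]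
  rwa [mul_pow, c2, one_mul] at c3

end Cfsg.Agent.U7
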