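import Cfsg.Agent.U7.Bas

/-!
# All transvections
-/

set_option autoImplicit false
set_option linter.unusedSectionVars false

namespace Cfsg.Agent.U7

open Cfsg.Agent.Class.U Cfsg.Agent.Char
open scoped ComplexConjugate

variable {F : Type*} [Field F] [Fintype F] {q : ℕ} [UF F q]

theorem fin_cond {g : GU 7 F q} {u : Fin 7 → F} {c : F} (h0 : u ≠ 0) (hu : hermForm 7 F q u u = 0) (ht : Tv g u c) :
    Class.U.conj F q c = -c := by
  obtain ⟨x, hx⟩ := exists_herm_ne_zero (q := q) h0
  have := GU_herm g x x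
  rw [ht] at this
  simp only [herm_add_left, herm_smul_left, herm_add_right, herm_smul_right, map_mul, herm_conj, hu] at this
  apply mul_left_cancel₀ (mul_ne_zero (herm_comm_ne hx) hx)
  linear_combination this

theorem fin_pow {g : GU 7 F q} {u : Fin 7 → F} {c : F} (hu : hermForm 7 F q u u = 0) (ht : Tv g u c) (n : ℕ) :
    Tv (g ^ n) u (n * c) := by
  intro x
  induction n with
  | zero => simp
  | succ n ih =>
    rw [pow_succ', mul_smul, ih, ht]
    simp only [herm_add_left, herm_smul_left, hu]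
    push_cast
    module

theorem fin_mem {H : Subgroup (GU 7 F q)} {g : GU 7 F q} (hg : g ∈ H ⊔ ZZ F q) {u : Fin 7 → F} {c : F}
    (hu : hermForm 7 F q u u = 0) (ht : Tv g u c) : g ∈ H := by
  have q0 : (q : F) = 0 := by
    have := FiniteField.cast_card_eq_zero F
    rw [← Nat.card_eq_fintype_card, UF.card_eq (F := F) (q := q), Nat.cast_pow] at this
    exact pow_eq_zero_iff two_ne_zero |>.1 this
  have e : g ^ q = 1 := GU_ext fun x => by rw [fin_pow hu ht q x, q0]; simp
  have := ZZ_normal (F := F) (q := q)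
  obtain ⟨k, hk, z, hz, rfl⟩ := Subgroup.mem_sup_of_normal_right.1 hg
  have e' : (k * z) ^ (q + 1) = k ^ (q + 1) := by
    rw [Commute.mul_pow (ZZ_comm hz k).symm, ZZ_pow hz, mul_one]
  rw [pow_succ, e, one_mul] at e'
  exact e' ▸ H.pow_mem hk _

/-- Conjugating by `k ∈ L = H ⊔ ZZ` gives `Tv (k g k⁻¹) (k u) c`; by `Tr` every isotropic
`u' ≠ 0` occurs.  `c + c^q = 0` (`pres_unitaryTransvection_iff`); `Tv g (l u') c` is
`Tv g u' (c l l^q)` and `l l^q` takes all values in `F_q^*` (`exists_norm_eq`), so `L` contains all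
transvections.  A transvection `t = k z` (`k ∈ H`, `z ∈ ZZ` central) has `t^q = 1`, so
`t = t^(q+1) = k^(q+1) ∈ H` (`ZZ_pow`).  `closure_transvections` (`IsSiegel u 0 a g` is
`Tv (toGU g) u a`; `IsSiegel.cond`; `u = 0` or `a = 0` give `g = 1`) and `range_toGU`. -/
theorem SS_le {H : Subgroup (GU 7 F q)} (h : Tr (H ⊔ ZZ F q)) {g : GU 7 F q} (hg : g ∈ H ⊔ ZZ F q)
    {u : Fin 7 → F} {c : F} (h0 : u ≠ 0) (hu : hermForm 7 F q u u = 0) (hc : c ≠ 0) (ht : Tv g u c) :
    SS F q ≤ H := by
  have key : ∀ (t : GU 7 F q) (v : Fin 7 → F) (a : F), hermForm 7 F q v v = 0 → Tv t v a → t ∈ H := by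
    intro t v a hv k
    by_cases v0 : v = 0
    · rw [show t = 1 from GU_ext fun x => by rw [k, v0]; simp]
      exact H.one_mem
    by_cases a0 : a = 0
    · rw [show t = 1 from GU_ext fun x => by rw [k, a0]; simp]
      exact H.one_mem
    obtain ⟨l, hl⟩ := exists_norm_eq (F := F) (q := q) (μ := a / c) (by
      rw [map_div₀, fin_cond v0 hv k, fin_cond h0 hu ht, neg_div_neg_eq])
    have l0 : l ≠ 0 := by
      rintro rfl
      exact div_ne_zero a0 hc (by rw [← hl, zero_mul])
    obtain ⟨s, hs, e⟩ := h u (l • v) h0 (smul_ne_zero l0 v0) (by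
      rw [hu, herm_smul_left, herm_smul_right, hv, mul_zero, mul_zero])
    have e1 : t = s * g * s⁻¹ := GU_ext fun x => by
      obtain ⟨y, rfl⟩ : ∃ y, x = s • y := ⟨s⁻¹ • x, by simp⟩
      rw [mul_smul, mul_smul, inv_smul_smul, ht, k, smul_add, GU_smul_comm, ← GU_herm s y u, e, herm_smul_right, smul_smul]
      congr 2
      rw [eq_div_iff hc] at hl
      linear_combination (-hermForm 7 F q (s • y) v) * hl
    exact fin_mem (e1 ▸ mul_mem (mul_mem hs hg) (inv_mem hs)) hv k
  rw [SS, ← range_toGU]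
  rintro _ ⟨s, rfl⟩
  have : ⊤ ≤ H.comap toGU := by
    rw [← closure_transvections (by norm_num) (by simp), Subgroup.closure_le]
    rintro s ⟨v, a, hv, hs⟩
    exact key _ v a hv hs.smul_zero_vec
  exact this (Subgroup.mem_top s)

end Cfsg.Agent.U7
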