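import Cfsg.Agent.U7.Defs

/-!
# Elements of order dividing `q² + q + 1` are regular semisimple
-/

set_option autoImplicit false
set_option linter.unusedSectionVars false

namespace Cfsg.Agent.U7

open Cfsg.Agent.Class.U Cfsg.Agent.Char
open scoped ComplexConjugate

variable {F : Type*} [Field F] [Fintype F] {q : ℕ} [UF F q]

omit [Fintype F] [UF F q] in
theorem g0_ord {r : ℕ} (hr : r.Prime) (h3 : r ≠ 3) (hd : r ∣ q ^ 2 + q + 1) :
    orderOf (-(q : ZMod r)) = 6 := by
  have := Fact.mk hr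
  have h0 : (q : ZMod r) ^ 2 + q + 1 = 0 := by
    exact_mod_cast (ZMod.natCast_eq_zero_iff _ _).2 hd
  have k : ∀ l : ℕ, l.Prime → (l : ZMod r) = 0 → r = l := fun l hl e =>
    (Nat.prime_dvd_prime_iff_eq hr hl).1 ((ZMod.natCast_eq_zero_iff _ _).1 e)
  refine orderOf_eq_of_pow_and_pow_div_prime (by norm_num)
    (by linear_combination (q ^ 3 + 1 : ZMod r) * (q - 1) * h0) fun l hl h6 e => ?_
  rcases (Nat.Prime.dvd_mul hl (m := 2) (n := 3)).1 h6 with h | h
  · obtain rfl := (Nat.prime_dvd_prime_iff_eq hl Nat.prime_two).1 h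
    obtain rfl := k 2 hl (by push_cast; norm_num at e; linear_combination -e - (q - 1 : ZMod r) * h0)
    obtain ⟨c, hc⟩ := Nat.even_mul_succ_self q
    have : q ^ 2 + q + 1 = 2 * c + 1 := by linarith
    omega
  · obtain rfl := (Nat.prime_dvd_prime_iff_eq hl Nat.prime_three).1 h
    refine h3 (k 3 hl ?_)
    have e' : (q : ZMod r) ^ 2 = 1 := by simpa using e
    push_cast
    linear_combination (2 - q : ZMod r) * h0 + (q - 1 : ZMod r) * e'

open Polynomial in
omit [Fintype F] [UF F q] in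
theorem g0_alg {K : Type*} [Field K] [IsAlgClosed K] {p k r : ℕ} [hp : Fact p.Prime] [CharP K p]
    (hq : q = p ^ k) (hk : 0 < k) (hr : r.Prime) (h3 : r ≠ 3) (hd : r ∣ q ^ 2 + q + 1)
    {N : Matrix (Fin 7) (Fin 7) K} (h1 : N ≠ 1) (h2 : N ^ r = 1)
    (hN : N.transpose * N.map (iterateFrobenius K p k) = 1) :
    N.charpoly.Separable ∧ N.charpoly.IsRoot 1 := by
  classical
  have := Fact.mk hr
  have hm := N.charpoly_monic
  have hs := IsAlgClosed.splits N.charpoly
  have c7 : N.charpoly.roots.card = 7 := by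
    rw [← hs.natDegree_eq_card_roots, Matrix.charpoly_natDegree_eq_dim, Fintype.card_fin]
  have rq : ¬ r ∣ q := fun h => hr.not_dvd_one
    ((Nat.dvd_add_right (dvd_add (dvd_pow h two_ne_zero) h)).1 hd)
  have ha : ∀ μ, N.charpoly.IsRoot μ → μ ^ r = 1 := fun μ h => by
    have := spectrum.pow_mem_pow N r (Matrix.mem_spectrum_iff_isRoot_charpoly.2 h)
    rwa [h2, spectrum.one_eq] at this
  have hb : ∀ μ, N.charpoly.IsRoot μ → N.charpoly.IsRoot (μ ^ q)⁻¹ := fun μ h => by
    have h4 := h.map (f := iterateFrobenius K p k)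
    rw [← Matrix.charpoly_map, ← Matrix.mem_spectrum_iff_isRoot_charpoly, iterateFrobenius_def, ← hq] at h4
    rw [← Matrix.charpoly_transpose, ← Matrix.mem_spectrum_iff_isRoot_charpoly]
    exact (spectrum.inv₀_mem_iff (a := ⟨_, _, hN, mul_eq_one_comm.1 hN⟩)).2 h4
  obtain ⟨μ, hμ, μ1⟩ : ∃ μ, N.charpoly.IsRoot μ ∧ μ ≠ 1 := by
    by_contra! h
    have e := hs.eq_prod_roots_of_monic hm
    rw [Multiset.eq_replicate.2 ⟨c7, fun b hb => h b (isRoot_of_mem_roots hb)⟩, Multiset.map_replicate,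
      Multiset.prod_replicate] at e
    have e2 := N.aeval_self_charpoly
    rw [e] at e2
    simp only [map_pow, map_sub, aeval_X, map_one] at e2
    have e3 : N ^ p ^ 7 = 1 := by
      rw [← sub_eq_zero, ← one_pow (p ^ 7), ← sub_pow_char_pow_of_commute _ _ (Commute.one_right N)]
      exact pow_eq_zero_of_le (Nat.lt_pow_self hp.out.one_lt).le e2
    refine h1 ((pow_eq_one_iff_of_coprime ?_).1 ⟨h2, e3⟩)
    exact ((Nat.coprime_primes hr hp.out).2 fun e => rq (by rw [hq, e]; exact dvd_pow_self _ hk.ne')).pow_right 7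
  have hμp : IsPrimitiveRoot μ r := by
    rw [← orderOf_eq_prime (ha μ hμ) μ1]; exact IsPrimitiveRoot.orderOf μ
  have μ0 := hμp.ne_zero hr.ne_zero
  have ho := g0_ord hr h3 hd
  have hz : ∀ n : ℤ, μ ^ n = 1 ↔ (n : ZMod r) = 0 := fun n => by
    rw [hμp.zpow_eq_one_iff_dvd, ZMod.intCast_zmod_eq_zero_iff_dvd]
  let ρ : ℕ → K := fun i => μ ^ (-(q : ℤ)) ^ i
  have hρ : ∀ i, N.charpoly.IsRoot (ρ i) := fun i => by
    induction i with
    | zero => simpa [ρ] using hμ
    | succ i ih =>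
      have := hb _ ih
      rwa [← zpow_natCast, ← zpow_neg, ← zpow_mul, ← pow_succ] at this
  have hi : Set.InjOn ρ (Finset.range 6) := fun i hi j hj e => by
    have h4 : μ ^ ((-(q : ℤ)) ^ i - (-(q : ℤ)) ^ j) = 1 := by
      rw [zpow_sub₀ μ0]; exact (div_eq_one_iff_eq (zpow_ne_zero _ μ0)).2 e
    rw [hz] at h4
    push_cast at h4
    exact pow_injOn_Iio_orderOf (x := -(q : ZMod r)) (by simpa [ho] using hi) (by simpa [ho] using hj)
      (sub_eq_zero.1 h4)
  set S := (Finset.range 6).image ρ with hS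
  have le : S.val ≤ N.charpoly.roots := (Multiset.le_iff_subset S.nodup).2 fun a ha => by
    obtain ⟨i, -, rfl⟩ := Finset.mem_image.1 (Finset.mem_def.2 ha)
    exact (mem_roots hm.ne_zero).2 (hρ i)
  obtain ⟨T, hT⟩ := Multiset.le_iff_exists_add.1 le
  obtain ⟨ν, rfl⟩ : ∃ ν, T = {ν} := Multiset.card_eq_one.1 (by
    have : S.val.card = 6 := (Finset.card_image_of_injOn hi).trans (Finset.card_range 6)
    rw [hT, Multiset.card_add] at c7
    omega)
  have hν : N.charpoly.IsRoot ν := isRoot_of_mem_roots (by rw [hT]; simp)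
  have h0 : (q : ZMod r) ^ 2 + q + 1 = 0 := by
    exact_mod_cast (ZMod.natCast_eq_zero_iff _ _).2 hd
  have hP : S.val.prod = 1 := by
    rw [Finset.prod_val, hS, Finset.prod_image hi]
    simp only [Finset.prod_range_succ, Finset.prod_range_zero, one_mul, id, ρ, ← zpow_add₀ μ0]
    rw [hz]
    push_cast
    linear_combination (1 - q : ZMod r) * (1 - q + q ^ 2) * h0
  have hdet : N.det = ν := by
    rw [Matrix.det_eq_prod_roots_charpoly, hT, Multiset.prod_add, hP, one_mul, Multiset.prod_singleton]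
  have hν1 : ν = 1 := by
    have e := congrArg Matrix.det hN
    rw [Matrix.det_mul, Matrix.det_transpose, Matrix.det_one, ← RingHom.mapMatrix_apply, ← RingHom.map_det, hdet,
      iterateFrobenius_def, ← hq, ← pow_succ'] at e
    refine (pow_eq_one_iff_of_coprime ((Nat.Prime.coprime_iff_not_dvd hr).2 fun h => hr.not_dvd_one ?_)).1
      ⟨ha ν hν, e⟩
    exact (Nat.dvd_add_right (by rw [show q ^ 2 + q = q * (q + 1) by ring]; exact h.mul_left _)).1 hd
  subst hν1
  refine ⟨(nodup_roots_iff_of_splits hm.ne_zero hs).1 ?_, hν⟩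
  rw [hT, add_comm, Multiset.singleton_add, Multiset.nodup_cons]
  refine ⟨fun h => ?_, S.nodup⟩
  obtain ⟨i, -, e⟩ := Finset.mem_image.1 (Finset.mem_def.2 h)
  have := (hz _).1 e
  push_cast at this
  exact rq ((ZMod.natCast_eq_zero_iff _ _).1 (neg_eq_zero.1 (eq_zero_of_pow_eq_zero this)))

open Polynomial in
/-- Let `M` be the matrix of `x`, `K = AlgebraicClosure F`, `f = charpoly M` mapped to `K` (monic,
degree `7`, splits).  Roots `μ` have `μ^r = 1` (`M^r = 1`).  `r ∤ q`, so `M ≠ 1` is not unipotent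
(`X^r - 1` separable; or: `M^(p^j) = 1` and `M^r = 1`), so there is a root `μ ≠ 1`, of order `r`.
The root set is closed under `μ ↦ μ^(q²)` (coefficients in `F`) and under `μ ↦ (μ^q)⁻¹`
(`pres_iff`: `Mᵀ * M.map conj = 1`, so `charpoly (M.map conj) = charpoly (M⁻¹)`; extend `conj` by
the ring hom `t ↦ t^q` of `K`).  As `q³ ≡ 1`, `q ≢ 1 (mod r)`, `r ≠ 2, 3`: the exponents
`± 1, ± q, ± q²` are distinct mod `r`, giving six distinct roots `≠ 1`.  The seventh root `ν`
(with multiplicity): `f = g · (X - ν)` where `g = ∏ (X - μ^{±q^i})` is fixed by `t ↦ t^(q²)`, so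
`ν^(q²) = ν`; with `ν^r = 1` and `gcd(r, q² - 1) = 1`, `ν = 1`.
(Shortcut for `ν`: the product of all roots is `± det M`, the product of the six is `1`, so
`ν = det M ∈ F`.) -/
theorem charpoly_sep {r : ℕ} (hr : r.Prime) (h3 : r ≠ 3) (hd : r ∣ q ^ 2 + q + 1) {x : GU 7 F q}
    (hx : orderOf x = r) :
    ((x : GL (Fin 7) F) : Matrix (Fin 7) (Fin 7) F).charpoly.Separable ∧
      ((x : GL (Fin 7) F) : Matrix (Fin 7) (Fin 7) F).charpoly.IsRoot 1 := by
  obtain ⟨p, k, hp, hc, hq, hk⟩ := exists_prime_pow F q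
  have := Fact.mk hp
  let K := AlgebraicClosure F
  let ι := algebraMap F K
  have hι := ι.injective
  set M := ((x : GL (Fin 7) F) : Matrix (Fin 7) (Fin 7) F) with hM
  have h := g0_alg (N := M.map ι) hq hk hr h3 hd (fun e => ?_) ?_ ?_
  · rw [Matrix.charpoly_map, separable_map, ← map_one ι, isRoot_map_iff hι] at h
    exact h
  · have : x = 1 := Subtype.ext (Units.ext (Matrix.map_injective hι
      (e.trans (Matrix.map_one _ ι.map_zero ι.map_one).symm)))
    rw [this, orderOf_one] at hx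
    exact hr.one_lt.ne hx
  · rw [← RingHom.mapMatrix_apply, ← map_pow, hM, ← Units.val_pow_eq_pow_val, ← Subgroup.coe_pow, ← hx,
      pow_orderOf_eq_one]
    simp
  · have e := congrArg (fun A => A.map ι) (pres_iff.1 (mem_GU_iff.1 x.2))
    simp only [Matrix.map_mul, Matrix.map_one _ ι.map_zero ι.map_one] at e
    rw [← e, Matrix.transpose_map, Matrix.map_map, Matrix.map_map]
    congr 2
    funext a
    simp only [Function.comp_apply, iterateFrobenius_def, conj_apply, map_pow, hq]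

end Cfsg.Agent.U7
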