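import Cfsg.Agent.U7.Orb

/-!
# Consequences of an invariant rank one projector
-/

set_option autoImplicit false
set_option linter.unusedSectionVars false

namespace Cfsg.Agent.U7

open Cfsg.Agent.Class.U Cfsg.Agent.Char
open scoped ComplexConjugate

variable {F : Type*} [Field F] [Fintype F] {q : ℕ} [UF F q] {L : Subgroup (GU 7 F q)} {φ φ' : (Fin 7 → F) → ℂ}

theorem Ph.j1_orb (h : Ph L φ φ') {v w : Fin 7 → F} (e : v ∈ MulAction.orbit L w) : φ v = φ w ∧ φ' v = φ' w := by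
  obtain ⟨g, rfl⟩ := e
  exact ⟨h.inv g g.2 w, h.inv' g g.2 w⟩

theorem Ph.j1_one (h : Ph L φ φ') {a : F} (k : nO L a = 1) : ∃ x y, ∀ v ∈ VV q a, φ v = x ∧ φ' v = y := by
  obtain ⟨O, hO⟩ := Set.ncard_eq_one.1 k
  obtain ⟨w, -, rfl⟩ := hO.ge rfl
  exact ⟨_, _, fun v hv => h.j1_orb ((hO.le ⟨v, hv, rfl⟩ : _ = _) ▸ MulAction.mem_orbit_self v)⟩

/-- one orbit: `φ, φ'` are constants `x, y` on `VV 0`, `n = (q^7+1)(q^6-1)` (`card_VV_zero`);
`n x = n y = n x y = q^6 - 1 ≠ 0` gives `y = 1`, `n = q^6 - 1`, absurd. -/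
theorem Ph.nO_zero (h : Ph L φ φ') : nO L (0 : F) ≠ 1 := by
  intro k
  obtain ⟨x, y, e⟩ := h.j1_one k
  have a := h.iso
  have b := h.s0
  have q2 := two_le_q F q
  rw [Finset.sum_congr rfl fun v hv => by rw [(e v hv).1, (e v hv).2]] at a
  rw [Finset.sum_congr rfl fun v hv => (e v hv).1] at b
  have c := h.s0'
  rw [Finset.sum_congr rfl fun v hv => (e v hv).2] at c
  have o : 1 < q ^ 6 := Nat.one_lt_pow (by norm_num) q2
  simp only [Finset.sum_const, card_VV_zero, nsmul_eq_mul, Nat.cast_mul, Nat.cast_sub o.le] at a b c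
  push_cast at a b c
  have n : (q : ℂ) ^ 6 - 1 ≠ 0 := sub_ne_zero.2 (by exact_mod_cast o.ne')
  have y1 : y = 1 := mul_left_cancel₀ n (by linear_combination a - y * b)
  have : (q : ℂ) ^ 7 = 0 := mul_left_cancel₀ n (by rw [y1] at c; linear_combination c)
  have : q = 0 := by exact_mod_cast pow_eq_zero_iff (by norm_num) |>.1 this
  omega

/-- one orbit on each `VV a` (`nO_eq`): `φ, φ'` are constant there, `n = q^6 (q^7+1)`,
`‖∑_{VV a} φ φ'‖ = ‖∑ φ‖ ‖∑ φ'‖ / n ≤ q^14 / n < q`; `VN` is the disjoint union of the `q - 1`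
sets `VV a`, so `q^6 (q-1) ≤ (q-1) q`, absurd. -/
theorem Ph.nO_one (h : Ph L φ φ') : nO L (1 : F) ≠ 1 := by
  classical
  intro k
  have q2 : (2 : ℝ) ≤ q := by exact_mod_cast two_le_q F q
  have b : ∀ a ∈ Finset.univ.filter fun a : F => a ≠ 0 ∧ Class.U.conj F q a = a,
      ‖∑ v ∈ VN F q with hermForm 7 F q v v = a, φ v * φ' v‖ ≤ q := fun a ha => by
    obtain ⟨a0, aq⟩ := (Finset.mem_filter.1 ha).2
    obtain ⟨x, y, e⟩ := h.j1_one ((nO_eq L a0 aq).trans k)
    have e1 : (VN F q).filter (fun v => hermForm 7 F q v v = a) = VV q a := by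
      ext v
      rw [Finset.mem_filter, mem_VN, mem_VV]
      exact ⟨fun ⟨b, c⟩ => ⟨fun z => b (by rw [z, herm_zero_left]), c⟩, fun ⟨_, c⟩ => ⟨c ▸ a0, c⟩⟩
    have b := h.sa a a0
    have c := h.sa' a a0
    rw [Finset.sum_congr rfl fun v hv => (e v hv).1] at b
    rw [Finset.sum_congr rfl fun v hv => (e v hv).2] at c
    rw [e1, Finset.sum_congr rfl fun v hv => by rw [(e v hv).1, (e v hv).2]]
    simp only [Finset.sum_const, card_VV_ne a0 aq, nsmul_eq_mul, norm_mul, Complex.norm_natCast] at b c ⊢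
    push_cast at b c ⊢
    have := mul_le_mul b c (by positivity) (by positivity)
    refine le_of_mul_le_mul_left (a := (q : ℝ) ^ 6 * (q ^ 7 + 1)) ?_ (by positivity)
    have : (0 : ℝ) ≤ q ^ 7 := by positivity
    nlinarith
  have c := (norm_sum_le _ _).trans (Finset.sum_le_card_nsmul _ _ _ b)
  rw [Finset.sum_fiberwise_of_maps_to (s := VN F q) (g := fun v => hermForm 7 F q v v)
      fun v hv => by simpa [herm_conj] using mem_VN.1 hv, h.non,
    ← Fintype.card_subtype, ← Nat.card_eq_fintype_card, card_fixed_ne_zero, nsmul_eq_mul,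
    Nat.cast_sub (by exact_mod_cast one_le_two.trans q2), norm_mul, norm_pow, Complex.norm_natCast,
    show (q : ℂ) - 1 = ((q - 1 : ℝ) : ℂ) by simp, Complex.norm_real, Real.norm_of_nonneg (by linarith),
    Nat.cast_one, mul_comm] at c
  have := le_of_mul_le_mul_left c (by linarith)
  have : (q : ℝ) ^ 1 < q ^ 6 := pow_lt_pow_right₀ (by linarith) (by norm_num)
  linarith

theorem j1_sq : ∀ s < 192, 0 < s → ¬ IsSquare (42 * s * (192 - s)) := by decide +kernel

theorem j1_rat {s t u : ℕ} {a b : ℚ} {w : ℂ} (e : t = u) (hw : w ^ 2 = -3)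
    (h : (43 ^ 2 * s * t : ℂ) * (a + b * w) ^ 2 = -516096) : IsSquare (42 * s * u) := by
  subst e
  have h' : (43 ^ 2 * s * t : ℂ) * (a ^ 2 - 3 * b ^ 2) + 516096 = -(43 ^ 2 * s * t * 2 * a * b) * w := by
    linear_combination h - 43 ^ 2 * s * t * b ^ 2 * hw
  have k : ((43 ^ 2 * s * t : ℚ) * (a ^ 2 - 3 * b ^ 2) + 516096) ^ 2 + 3 * (43 ^ 2 * s * t * 2 * a * b) ^ 2 = 0 := by
    have : ((43 ^ 2 * s * t : ℂ) * (a ^ 2 - 3 * b ^ 2) + 516096) ^ 2 + 3 * (43 ^ 2 * s * t * 2 * a * b) ^ 2 = 0 := by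
      rw [h']
      linear_combination (43 ^ 2 * s * t * 2 * a * b) ^ 2 * hw
    exact_mod_cast this
  have k1 := pow_eq_zero_iff two_ne_zero |>.1 ((add_eq_zero_iff_of_nonneg (sq_nonneg _) (by positivity)).1 k).1
  have k2 := ((add_eq_zero_iff_of_nonneg (sq_nonneg _) (by positivity)).1 k).2
  have b0 : b ≠ 0 := by
    rintro rfl
    exact absurd k1 (by simp only [zero_pow two_ne_zero, mul_zero, sub_zero]; positivity)
  have k3 : (43 ^ 2 * s * t : ℚ) * a = 0 := by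
    have := pow_eq_zero_iff two_ne_zero |>.1 ((mul_eq_zero.1 k2).resolve_left three_ne_zero)
    exact mul_right_cancel₀ (mul_ne_zero two_ne_zero b0) (by linear_combination this)
  refine Rat.isSquare_natCast_iff.1 ⟨42 * 64 / (43 * b), ?_⟩
  push_cast
  field_simp
  linear_combination (a * k3 - k1) / 3

/-- `q = 2`: `VN = VV 1` has `8256 = 43 · 192` elements.  Two orbits, of sizes `n₁ = 43 s`,
`n₂ = 43 (192 - s)` (`T` acts semiregularly on each orbit), values `x₁, x₂`: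
`(n₁ x₁ + n₂ x₂)² = -12288`, `n₁ x₁² + n₂ x₂² = -64`, so
`n₁ n₂ (x₁ - x₂)² = 8256 · (-64) + 12288 = -516096`.  `x₁ - x₂ = a + b w`, `w² = -3` (so `w` is
purely imaginary): `a² - 3 b² + 2 a b w` is a negative rational, hence `a = 0` and
`n₁ n₂ b² = 172032 = 42 · 64²`; so `42 s (192 - s)` is the square of a rational, hence of an
integer (`Rat.isSquare_natCast_iff`), false for `0 < s < 192` (`decide`). -/
theorem Ph.nO_two (h : Ph L φ φ') (hq : q = 2) {T : Subgroup (GU 7 F q)} (hT : T ≤ L)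
    (hc : Nat.card T = 43) (hs : ∀ s ∈ T, ∀ v : Fin 7 → F, v ≠ 0 → s • v = v → s = 1) :
    nO L (1 : F) ≠ 2 := by
  classical
  intro k
  subst hq
  obtain ⟨_, _, ne, hO⟩ := Set.ncard_eq_two.1 k
  obtain ⟨v₁, h1, rfl⟩ := hO.ge (Or.inl rfl)
  obtain ⟨v₂, h2, rfl⟩ := hO.ge (Or.inr rfl)
  obtain ⟨e1, e2, w, hw, e3⟩ := h.two rfl
  have e0 : VN F 2 = VV 2 1 := by
    ext v
    rw [mem_VN, mem_VV]
    refine ⟨fun a => ⟨fun z => a (by rw [z, herm_zero_left]), mul_left_cancel₀ a ?_⟩, fun a => a.2 ▸ one_ne_zero⟩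
    rw [mul_one, ← sq]
    exact herm_conj v v
  have e4 := h.non
  rw [e0, Finset.sum_congr rfl fun v hv => by rw [e1 v hv]] at e4
  have c := Finset.card_filter_add_card_filter_not (s := VV 2 (1 : F)) fun v => v ∈ MulAction.orbit L v₁
  have o : ∀ v ∈ (VV 2 (1 : F)).filter fun v => ¬ v ∈ MulAction.orbit L v₁, φ v = φ v₂ := fun v hv => by
    obtain ⟨a, b⟩ := Finset.mem_filter.1 hv
    rcases hO.le ⟨v, a, rfl⟩ with e | e
    · exact absurd (e ▸ MulAction.mem_orbit_self v) b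
    · exact (h.j1_orb ((e : _ = _) ▸ MulAction.mem_orbit_self v)).1
  have o' : ∀ v ∈ (VV 2 (1 : F)).filter fun v => v ∈ MulAction.orbit L v₁, φ v = φ v₁ := fun v hv =>
    (h.j1_orb (Finset.mem_filter.1 hv).2).1
  rw [← Finset.sum_filter_add_sum_filter_not _ fun v => v ∈ MulAction.orbit L v₁] at e2 e4
  rw [Finset.sum_congr rfl o, Finset.sum_congr rfl o'] at e2
  rw [Finset.sum_congr rfl fun v hv => by rw [o' v hv], Finset.sum_congr (s₁ := Finset.filter (¬ · ∈ _) _) rfl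
    fun v hv => by rw [o v hv]] at e4
  have p1 := Finset.card_pos.2 ⟨_, (Finset.mem_filter (p := fun v => v ∈ MulAction.orbit L v₁)).2
    ⟨h1, MulAction.mem_orbit_self v₁⟩⟩
  have p2 := Finset.card_pos.2 ⟨_, (Finset.mem_filter (p := fun v => ¬ v ∈ MulAction.orbit L v₁)).2
    ⟨h2, fun a => ne (MulAction.orbit_eq_iff.2 a).symm⟩⟩
  have d : 43 ∣ ((VV 2 (1 : F)).filter fun v => v ∈ MulAction.orbit L v₁).card := by
    have m : ∀ v ∈ MulAction.orbit L v₁, v ∈ VV 2 (1 : F) := by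
      rintro _ ⟨g, rfl⟩
      exact mem_VV.2 ⟨(smul_ne_zero_iff_ne g).2 (mem_VV.1 h1).1, (GU_herm g.1 _ _).trans (mem_VV.1 h1).2⟩
    have := Nat.card_congr (MulAction.selfEquivOrbitsQuotientProd (G := T.subgroupOf L)
      (X := MulAction.orbit L v₁) fun b => (Subgroup.eq_bot_iff_forall _).2 fun s a =>
        Subtype.ext (Subtype.ext (hs _ s.2 b (mem_VV.1 (m _ b.2)).1 (congrArg Subtype.val a))))
    rw [Nat.card_prod, Nat.card_congr (Subgroup.subgroupOfEquivOfLe hT).toEquiv, hc] at this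
    rw [← Nat.card_eq_finsetCard, Nat.card_congr (Equiv.subtypeEquivRight
      (q := (· ∈ MulAction.orbit L v₁)) fun v => by simpa using m v)]
    exact Dvd.intro_left _ this.symm
  rw [card_VV_ne one_ne_zero (one_pow _)] at c
  simp only [Finset.sum_const, nsmul_eq_mul] at e2 e4
  obtain ⟨s, es⟩ := d
  generalize Finset.card (Finset.filter (¬ · ∈ MulAction.orbit L v₁) _) = n at *
  obtain ⟨t, rfl⟩ : 43 ∣ n := by omega
  rw [es] at e2 e4 c p1
  obtain ⟨a1, b1, x1⟩ := e3 v₁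
  obtain ⟨a2, b2, x2⟩ := e3 v₂
  have c' : (s : ℂ) + t = 192 := by exact_mod_cast (by omega : s + t = 192)
  push_cast at e2 e4
  refine j1_sq s (by omega) (by omega) (j1_rat (a := a1 - a2) (b := b1 - b2) (by omega : 192 - s = t).symm hw ?_)
  push_cast
  rw [show (a1 : ℂ) - a2 + (b1 - b2) * w = φ v₁ - φ v₂ by rw [x1, x2]; ring]
  linear_combination -e2 - 43 * (s + t) * e4 - 43 * 64 * c'

end Cfsg.Agent.U7
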