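import Cfsg.Agent.U7.W0
import Cfsg.Agent.U7.Gs

/-!
# Two identities for rank one projectors
-/

set_option autoImplicit false
set_option linter.unusedSectionVars false

namespace Cfsg.Agent.U7

open Cfsg.Agent.Class.U Cfsg.Agent.Char
open scoped ComplexConjugate

variable {F : Type*} [Field F] [Fintype F] {q : ℕ} [UF F q] {ψ : AddChar F ℂ} {e : (Fin 7 → F) → MM q}

open Classical in
/-- For `m v = [𝐡(v,v) = 0]`:
`∑_w m̂(w) tr (P e_w P ei_w) = ∑_w m̂(w) φ(w) φ'(w)` (`rank_one`; `φ w = tr (P e_w)`,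
`φ' w = tr (P ei_w)`), where `m̂ w = ∑_v m v ψ (𝐡(v,w) - 𝐡(w,v))` is `ft_cone`.  On the other hand
expand one `P` (`expand`): `e_w P ei_w = q^{-7} ∑_u φ'(u) ψ(𝐡(w,u) - 𝐡(u,w)) e_u` (`He.conj`), so
the left side is `q^{-7} ∑_u φ(u) φ'(u) ∑_v m v ∑_w ψ(𝐡(v-u,w) - 𝐡(w,v-u)) = q^7 ∑_u m u φ φ'`
(`sum_pair`).  With `X_I, X_N` the two sums below and `φ 0 = φ' 0 = 1`:
`1 + X_I + X_N = q^7` (`parseval`) and
`q^7 (1 + X_I) = (q^13 - q^7 + q^6) + (q^6 - q^7) X_I + q^6 X_N`; solve. -/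
theorem He.star (h : He ψ e) {P : MM q} (h1 : P * P = P) (h2 : P.trace = 1) :
    ∑ v ∈ VV q (0 : F), (P * e v).trace * (P * ei ψ e v).trace = (q : ℂ) ^ 6 - 1 ∧
    ∑ v ∈ VN F q, (P * e v).trace * (P * ei ψ e v).trace = (q : ℂ) ^ 6 * (q - 1) := by
  have q0 := w0_q h
  obtain ⟨f, hf⟩ : ∃ f : (Fin 7 → F) → ℂ, ∀ v, f v = (P * e v).trace * (P * ei ψ e v).trace := ⟨_, fun _ => rfl⟩
  simp only [← hf]
  have f0 : f 0 = 1 := by
    rw [hf, ei, neg_zero, h.zero, herm_zero_left, AddChar.map_zero_eq_one, one_smul, mul_one, h2, mul_one]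
  have k1 : ∀ w, (q : ℂ) ^ 7 * f w = ∑ u, f u * ψ (hermForm 7 F q w u - hermForm 7 F q u w) := fun w => by
    have e1 : (ei ψ e w * P * e w * P).trace = f w := by
      rw [mul_assoc, mul_assoc, Matrix.trace_mul_comm, ← mul_assoc P, rank_one h1 h2, Matrix.smul_mul,
        Matrix.trace_smul, smul_eq_mul, hf]
    rw [← e1, ← h.parseval]
    refine Finset.sum_congr rfl fun u _ => ?_
    rw [mul_assoc, mul_assoc, Matrix.trace_mul_comm, mul_assoc, h.conj, Matrix.mul_smul, Matrix.trace_smul,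
      smul_eq_mul, hf]
    ring
  have sC : ∀ g : (Fin 7 → F) → ℂ, ∑ v ∈ Finset.univ.filter (fun v : Fin 7 → F => hermForm 7 F q v v = 0), g v =
      g 0 + ∑ v ∈ VV q (0 : F), g v := fun g => by
    rw [← Finset.sum_insert (by simp [mem_VV])]
    refine Finset.sum_congr (Finset.ext fun v => ?_) fun _ _ => rfl
    by_cases hv : v = 0 <;> simp [mem_VV, hv, herm_zero_left]
  have sA : ∀ g : (Fin 7 → F) → ℂ, ∑ v, g v = g 0 + ∑ v ∈ VV q (0 : F), g v + ∑ v ∈ VN F q, g v := fun g => by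
    rw [← sC, ← Finset.sum_filter_add_sum_filter_not Finset.univ fun v : Fin 7 → F => hermForm 7 F q v v = 0]
    rfl
  have k2 : f 0 + ∑ v ∈ VV q (0 : F), f v + ∑ v ∈ VN F q, f v = (q : ℂ) ^ 7 := by
    rw [← sA]
    simp only [hf]
    rw [h.parseval, h1, h2, mul_one]
  have k3 : (q : ℂ) ^ 7 * ∑ w, (∑ v ∈ Finset.univ.filter (fun v : Fin 7 → F => hermForm 7 F q v v = 0),
      ψ (hermForm 7 F q v w - hermForm 7 F q w v)) * f w =
      (q : ℂ) ^ 14 * (f 0 + ∑ v ∈ VV q (0 : F), f v) := by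
    have e1 : ∀ w, (q : ℂ) ^ 7 * ((∑ v ∈ Finset.univ.filter (fun v : Fin 7 → F => hermForm 7 F q v v = 0),
        ψ (hermForm 7 F q v w - hermForm 7 F q w v)) * f w) =
        ∑ v ∈ Finset.univ.filter (fun v : Fin 7 → F => hermForm 7 F q v v = 0), ∑ u,
          f u * ψ (hermForm 7 F q w (u - v) - hermForm 7 F q (u - v) w) := fun w => by
      rw [mul_left_comm, k1, Finset.sum_mul_sum]
      refine Finset.sum_congr rfl fun v _ => Finset.sum_congr rfl fun u _ => ?_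
      rw [mul_left_comm, ← AddChar.map_add_eq_mul, herm_sub_left, herm_sub_right]
      congr 2
      ring
    rw [Finset.mul_sum, Finset.sum_congr rfl fun w _ => e1 w, Finset.sum_comm, ← sC, Finset.mul_sum]
    refine Finset.sum_congr rfl fun v _ => ?_
    rw [Finset.sum_comm]
    simp only [← Finset.mul_sum, sum_pair h.nt, sub_eq_zero, mul_ite, mul_zero, Finset.sum_ite_eq', Finset.mem_univ,
      if_true]
    ring
  simp only [ft_cone h.nt] at k3
  rw [sA, if_pos rfl, Finset.sum_congr rfl (g := fun v => ((q : ℂ) ^ 6 - q ^ 7) * f v) fun v hv => by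
      rw [if_neg (mem_VV.1 hv).1, if_pos (mem_VV.1 hv).2],
    Finset.sum_congr (s₁ := VN F q) rfl (g := fun v => (q : ℂ) ^ 6 * f v) fun v hv => by
      rw [if_neg (by rintro rfl; exact mem_VN.1 hv (herm_zero_left _)), if_neg (mem_VN.1 hv)],
    ← Finset.mul_sum, ← Finset.mul_sum, f0] at k3
  rw [f0] at k2
  have k4 : ∑ v ∈ VV q (0 : F), f v = (q : ℂ) ^ 6 - 1 :=
    mul_left_cancel₀ (mul_ne_zero two_ne_zero (pow_ne_zero 14 q0)) (by
      linear_combination (q : ℂ) ^ 13 * k2 - k3)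
  exact ⟨k4, by linear_combination k2 - k4⟩

open Classical in
/-- `c ↦ γ_c = (1 - c^q)⁻¹` is a bijection from `{c | c c^q = 1, c ≠ 1}` onto
`{γ | γ + γ^q = 1}` (inverse `γ ↦ -γ / γ^q`…: `c^q = 1 - γ⁻¹`).  By `rho_scalar`,
`∑_{z ≠ 1} ψ(-γ_z a) rho z = -q^{-7} ∑_v (∑_γ ψ(γ (𝐡(v,v) - a))) e_v = -q^{-6} ∑_{𝐡(v,v) = a} e_v`
(`sum_coset`, `card_trace_fiber`).  Here `c z` is the scalar of `z`. -/
theorem He.sum_norm (h : He ψ e) (c : ZZ F q → F)
    (hc : ∀ (z : ZZ F q) (v : Fin 7 → F), (z : GU 7 F q) • v = c z • v) {a : F} (ha : a ^ q = a) :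
    ∑ v ∈ Finset.univ.filter (fun v : Fin 7 → F => hermForm 7 F q v v = a), e v =
      -(q : ℂ) ^ 6 • ∑ z ∈ (Finset.univ : Finset (ZZ F q)).erase 1,
        ψ (-((1 - c z ^ q)⁻¹ * a)) • rho ψ e z := by
  have q0 := w0_q h
  have c1 : ∀ z ∈ (Finset.univ : Finset (ZZ F q)).erase 1, c z ≠ 1 := fun z hz k =>
    (Finset.mem_erase.1 hz).1 (Subtype.ext (GU_ext fun v => by rw [hc, k, one_smul, OneMemClass.coe_one, one_smul]))
  have k : ∀ b : F, b ^ q = b → ∑ z ∈ (Finset.univ : Finset (ZZ F q)).erase 1, ψ ((1 - c z ^ q)⁻¹ * b) =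
      if b = 0 then (q : ℂ) else 0 := fun b hb => by
    rw [Finset.sum_bij (t := Finset.univ.filter fun γ : F => γ + γ ^ q = 1) (g := fun γ => ψ (γ * b))
      (fun z _ => (1 - c z ^ q)⁻¹) (fun z hz => ?_) (fun z _ w _ e => ?_) (fun γ hγ => ?_) fun _ _ => rfl]
    · split_ifs with h0
      · have := card_trace_fiber (F := F) (q := q) (map_one _)
        rw [Nat.subtype_card (Finset.univ.filter fun x : F => x + x ^ q = 1) (by simp [conj_apply])] at this
        simp [h0, this]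
      · exact sum_coset h.nt h0 hb 1
    · have n := ZZ_norm (hc z)
      have a1 : 1 - c z ≠ 0 := sub_ne_zero.2 (c1 z hz).symm
      have a2 : 1 - c z ^ q ≠ 0 :=
        sub_ne_zero.2 fun k => c1 z hz (conj_injective (q := q) (k.symm.trans (map_one _).symm))
      refine Finset.mem_filter.2 ⟨Finset.mem_univ _, ?_⟩
      rw [← conj_apply (1 - c z ^ q)⁻¹, map_inv₀, map_sub, map_one, ← conj_apply (c z), conj_conj, conj_apply]
      field_simp
      linear_combination (-1 : F) * n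
    · have e1 : c z = c w := conj_injective (q := q) (sub_right_injective (inv_injective e))
      exact Subtype.ext (GU_ext fun v => by rw [hc, hc, e1])
    · have hγ := (Finset.mem_filter.1 hγ).2
      have g0 : γ ≠ 0 := by
        rintro rfl
        rw [← conj_apply, map_zero, add_zero] at hγ
        exact zero_ne_one hγ
      have g1 : γ ^ q ≠ 0 := pow_ne_zero _ g0
      have d1 : (1 - (γ ^ q)⁻¹) ^ q = 1 - γ⁻¹ := by
        rw [← conj_apply, map_sub, map_one, map_inv₀, ← conj_apply γ, conj_conj]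
      obtain ⟨z, hz, hz'⟩ := exists_ZZ (F := F) (q := q) (c := 1 - (γ ^ q)⁻¹) (by
        rw [d1]
        field_simp
        linear_combination (-1 : F) * hγ)
      have e1 : c ⟨z, hz⟩ = 1 - (γ ^ q)⁻¹ := sc_uniq (hc _) hz'
      refine ⟨⟨z, hz⟩, Finset.mem_erase.2 ⟨fun k => ?_, Finset.mem_univ _⟩, by rw [e1, d1, sub_sub_cancel, inv_inv]⟩
      have e2 : (1 : F) = 1 - (γ ^ q)⁻¹ := sc_uniq (z := z) (fun v => by
        rw [show z = 1 from congrArg Subtype.val k, one_smul, one_smul]) hz'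
      exact inv_ne_zero g1 (sub_eq_self.1 e2.symm)
  rw [Finset.sum_congr (s₁ := (Finset.univ : Finset (ZZ F q)).erase 1) rfl fun z hz => by
    rw [h.rho_scalar (hc z) (c1 z hz)]]
  simp only [Finset.smul_sum, smul_smul]
  rw [Finset.sum_comm, Finset.sum_filter]
  refine Finset.sum_congr rfl fun v _ => ?_
  rw [← Finset.sum_smul, Finset.sum_congr rfl (g := fun z => (q : ℂ)⁻¹ *
    ψ ((1 - c z ^ q)⁻¹ * (hermForm 7 F q v v - a))) fun z _ => ?_, ← Finset.mul_sum,
    k _ (by rw [← conj_apply, map_sub, herm_conj, conj_apply, ha])]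
  · simp only [sub_eq_zero]
    split_ifs
    · rw [inv_mul_cancel₀ q0, one_smul]
    · rw [mul_zero, zero_smul]
  · rw [mul_sub, sub_eq_add_neg (_ * _), AddChar.map_add_eq_mul]
    field_simp

end Cfsg.Agent.U7
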