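import Cfsg.Agent.U7.W2
import Cfsg.Agent.U7.St

/-!
# The functions of an invariant rank one projector
-/

set_option autoImplicit false
set_option linter.unusedSectionVars false

namespace Cfsg.Agent.U7

open Cfsg.Agent.Class.U Cfsg.Agent.Char
open scoped ComplexConjugate

variable {F : Type*} [Field F] [Fintype F] {q : ℕ} [UF F q]

section

variable {ψ : AddChar F ℂ} {e : (Fin 7 → F) → MM q}

/-- averaging over `H` -/
noncomputable def phH (ψ : AddChar F ℂ) (e : (Fin 7 → F) → MM q) (H : Subgroup (GU 7 F q)) : MM q :=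
  (Nat.card H : ℂ)⁻¹ • ∑ g : H, rho ψ e g

/-- the projection to the `θ`-part -/
noncomputable def phZ (ψ : AddChar F ℂ) (e : (Fin 7 → F) → MM q) (θ : IrrCharacter (ZZ F q)) : MM q :=
  ((q : ℂ) + 1)⁻¹ • ∑ z : ZZ F q, conj ((θ : ZZ F q → ℂ) z) • rho ψ e z

variable (h : He ψ e) {H : Subgroup (GU 7 F q)} {θ : IrrCharacter (ZZ F q)}
include h

theorem He.ph_l {g : GU 7 F q} (hg : g ∈ H) : rho ψ e g * phH ψ e H = phH ψ e H := by
  rw [phH, Matrix.mul_smul, Finset.mul_sum]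
  congr 1
  refine Fintype.sum_equiv (Equiv.mulLeft (⟨g, hg⟩ : H)) _ _ fun k => ?_
  rw [Equiv.coe_mulLeft, Subgroup.coe_mul, h.rho_mul]

theorem He.ph_r {g : GU 7 F q} (hg : g ∈ H) : phH ψ e H * rho ψ e g = phH ψ e H := by
  rw [phH, Matrix.smul_mul, Finset.sum_mul]
  congr 1
  refine Fintype.sum_equiv (Equiv.mulRight (⟨g, hg⟩ : H)) _ _ fun k => ?_
  rw [Equiv.coe_mulRight, Subgroup.coe_mul, h.rho_mul]

theorem He.ph_hh : phH ψ e H * phH ψ e H = phH ψ e H := by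
  conv_lhs => lhs; rw [phH]
  rw [Matrix.smul_mul, Finset.sum_mul]
  simp only [fun g : H => h.ph_l g.2, Finset.sum_const, Finset.card_univ]
  rw [← Nat.cast_smul_eq_nsmul ℂ, smul_smul, ← Nat.card_eq_fintype_card,
    inv_mul_cancel₀ (Nat.cast_ne_zero.2 Nat.card_pos.ne'), one_smul]

theorem He.ph_c (g : GU 7 F q) : phZ ψ e θ * rho ψ e g = rho ψ e g * phZ ψ e θ := by
  rw [phZ, Matrix.smul_mul, Matrix.mul_smul, Finset.sum_mul, Finset.mul_sum]
  congr 1
  refine Finset.sum_congr rfl fun z _ => ?_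
  rw [Matrix.smul_mul, Matrix.mul_smul, ← h.rho_mul, ← h.rho_mul, ZZ_comm z.2]

theorem He.ph_z (z : ZZ F q) : rho ψ e z * phZ ψ e θ = (θ : ZZ F q → ℂ) z • phZ ψ e θ := by
  have h1 : (θ : ZZ F q → ℂ) z * conj ((θ : ZZ F q → ℂ) z) = 1 := by
    rw [Complex.mul_conj', irr_ZZ_norm]
    simp
  rw [phZ, Matrix.mul_smul, Finset.mul_sum, smul_comm, Finset.smul_sum (r := (θ : ZZ F q → ℂ) z)]
  congr 1
  refine Fintype.sum_equiv (Equiv.mulLeft z) _ _ fun k => ?_
  rw [Equiv.coe_mulLeft, irr_ZZ_mul, map_mul, smul_smul, ← mul_assoc, h1, one_mul, Matrix.mul_smul,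
    Subgroup.coe_mul, h.rho_mul]

theorem He.ph_zz : phZ ψ e θ * phZ ψ e θ = phZ ψ e θ := by
  have h1 : ∀ z, conj ((θ : ZZ F q → ℂ) z) * (θ : ZZ F q → ℂ) z = 1 := fun z => by
    rw [Complex.conj_mul', irr_ZZ_norm]
    simp
  conv_lhs => lhs; rw [phZ]
  rw [Matrix.smul_mul, Finset.sum_mul]
  simp only [Matrix.smul_mul, h.ph_z, smul_smul, h1, one_smul, Finset.sum_const, Finset.card_univ]
  rw [← Nat.cast_smul_eq_nsmul ℂ, smul_smul, ← Nat.card_eq_fintype_card, card_ZZ, Nat.cast_add_one,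
    inv_mul_cancel₀ q1_ne, one_smul]

theorem He.ph_zh : phZ ψ e θ * phH ψ e H = phH ψ e H * phZ ψ e θ := by
  rw [phH, Matrix.smul_mul, Matrix.mul_smul, Finset.sum_mul, Finset.mul_sum]
  simp only [h.ph_c]

theorem He.ph_tr (A : MM q) : (phZ ψ e θ * phH ψ e H * A).trace = (Nat.card H : ℂ)⁻¹ * ∑ g : H,
    ((q : ℂ) + 1)⁻¹ * ∑ z : ZZ F q, conj ((θ : ZZ F q → ℂ) z) * (rho ψ e (z * g) * A).trace := by
  simp only [phH, phZ, Matrix.smul_mul, Matrix.mul_smul, Finset.sum_mul, Finset.mul_sum, Matrix.trace_smul,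
    Matrix.trace_sum, h.rho_mul, smul_eq_mul, Finset.smul_sum]

theorem He.ph_inv {P : MM q} {g : GU 7 F q} (c : rho ψ e g * P = P * rho ψ e g) (v : Fin 7 → F) :
    (P * e (g • v)).trace = (P * e v).trace := by
  have : e (g • v) = rho ψ e g * e v * rho ψ e g⁻¹ := by rw [h.rho_e, mul_assoc, h.rho_inv, mul_one]
  rw [this, ← mul_assoc, ← mul_assoc, ← c, Matrix.trace_mul_comm, ← mul_assoc, ← mul_assoc, ← h.rho_mul,
    inv_mul_cancel, h.rho_one, one_mul]

open Classical in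
theorem He.ph_sum {P : MM q} (hz : ∀ z : ZZ F q, P * rho ψ e z = (θ : ZZ F q → ℂ) z • P) (tr : P.trace = 1)
    (c : ZZ F q → F) (hc : ∀ (z : ZZ F q) (v : Fin 7 → F), (z : GU 7 F q) • v = c z • v) {a : F}
    (ha : a ^ q = a) :
    ∑ v ∈ Finset.univ.filter (fun v : Fin 7 → F => hermForm 7 F q v v = a), (P * e v).trace =
      -(q : ℂ) ^ 6 * ∑ z ∈ (Finset.univ : Finset (ZZ F q)).erase 1,
        ψ (-((1 - c z ^ q)⁻¹ * a)) * (θ : ZZ F q → ℂ) z := by
  rw [← Matrix.trace_sum, ← Finset.mul_sum, h.sum_norm c hc ha]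
  simp only [Matrix.mul_smul, Finset.mul_sum, Matrix.trace_smul, Matrix.trace_sum, hz, tr, smul_eq_mul, mul_one]

end

theorem ph_sum_irr {θ : IrrCharacter (ZZ F q)} (h1 : θ ≠ irrOne _) : ∑ z, (θ : ZZ F q → ℂ) z = 0 := by
  have := sum_conj_irr θ
  rw [if_neg h1, ← map_sum, mul_eq_zero, inv_eq_zero, map_eq_zero] at this
  exact this.resolve_left q1_ne

open Classical in
theorem ph_VV {a : F} (ha : a ≠ 0) :
    VV q a = Finset.univ.filter (fun v : Fin 7 → F => hermForm 7 F q v v = a) := by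
  ext v
  rw [mem_VV, Finset.mem_filter]
  exact ⟨fun k => ⟨Finset.mem_univ _, k.2⟩,
    fun k => ⟨by rintro rfl; exact ha (k.2.symm.trans (herm_zero_left _)), k.2⟩⟩

open Classical in
theorem ph_VV0 : insert 0 (VV q (0 : F)) =
    Finset.univ.filter (fun v : Fin 7 → F => hermForm 7 F q v v = 0) := by
  ext v
  rw [Finset.mem_insert, mem_VV, Finset.mem_filter]
  by_cases h0 : v = 0
  · simp [h0, herm_zero_left]
  · simp [h0]

theorem ph_neg (ψ : AddChar F ℂ) (φ : (Fin 7 → F) → ℂ) (a : F) :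
    ∑ v ∈ VV q a, ψ (hermForm 7 F q v v) * φ (-v) = ψ a * ∑ v ∈ VV q a, φ v := by
  rw [Finset.mul_sum]
  refine Finset.sum_equiv (Equiv.neg _) (fun v => ?_) fun v hv => ?_
  · rw [Equiv.neg_apply, mem_VV, mem_VV, herm_neg_left, herm_neg_right, neg_neg, neg_ne_zero]
  · rw [Equiv.neg_apply, (mem_VV.1 hv).2]

/-- `ℚ(w)` for `w² = -3` -/
def phK (w : ℂ) (hw : w ^ 2 = -3) : Subring ℂ where
  carrier := {x | ∃ a b : ℚ, x = a + b * w}
  zero_mem' := ⟨0, 0, by simp⟩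
  one_mem' := ⟨1, 0, by simp⟩
  add_mem' := by
    rintro _ _ ⟨a, b, rfl⟩ ⟨c, d, rfl⟩
    exact ⟨a + c, b + d, by push_cast; ring⟩
  neg_mem' := by
    rintro _ ⟨a, b, rfl⟩
    exact ⟨-a, -b, by push_cast; ring⟩
  mul_mem' := by
    rintro _ _ ⟨a, b, rfl⟩ ⟨c, d, rfl⟩
    exact ⟨a * c - 3 * b * d, a * d + b * c, by push_cast; linear_combination (b * d : ℂ) * hw⟩

theorem He.ph_two {F : Type*} [Field F] [Fintype F] [UF F 2] {ψ : AddChar F ℂ} {e : (Fin 7 → F) → MM 2}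
    (h : He ψ e) {θ : IrrCharacter (ZZ F 2)} (h1 : θ ≠ irrOne _) (c : ZZ F 2 → F)
    (hc : ∀ (z : ZZ F 2) (v : Fin 7 → F), (z : GU 7 F 2) • v = c z • v) :
    ψ 1 = -1 ∧ (∀ v : Fin 7 → F, -v = v) ∧ (∀ x, ψ x = 1 ∨ ψ x = -1) ∧ ∃ w : ℂ, ∃ hw : w ^ 2 = -3,
      (∀ z, conj ((θ : ZZ F 2 → ℂ) z) ∈ phK w hw) ∧ (open Classical in
      ∑ z ∈ (Finset.univ : Finset (ZZ F 2)).erase 1,
        ψ (-((1 - c z ^ 2)⁻¹ * 1)) * (θ : ZZ F 2 → ℂ) z) ^ 2 = -3 := by
  classical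
  obtain ⟨p, k, hp, hF, e2, k0⟩ := exists_prime_pow F 2
  obtain rfl : p = 2 := (Nat.prime_dvd_prime_iff_eq hp Nat.prime_two).1 (e2 ▸ dvd_pow_self p k0.ne')
  have two : (2 : F) = 0 := CharTwo.two_eq_zero
  have pm : ∀ x, ψ x = 1 ∨ ψ x = -1 := fun x => mul_self_eq_one_iff.1 (by
    rw [← AddChar.map_add_eq_mul, CharTwo.add_self_eq_zero, AddChar.map_zero_eq_one])
  have p1 : ψ 1 = -1 := by
    obtain ⟨a, ha, n⟩ := h.nt
    have : a * (a - 1) = 0 := by linear_combination ha - a * two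
    rcases mul_eq_zero.1 this with rfl | e
    · exact (n (AddChar.map_zero_eq_one ψ)).elim
    · exact (pm 1).resolve_left (sub_eq_zero.1 e ▸ n)
  have c3 : Fintype.card (ZZ F 2) = 3 := by rw [← Nat.card_eq_fintype_card, card_ZZ]
  have : Nontrivial (ZZ F 2) := Fintype.one_lt_card_iff_nontrivial.1 (by omega)
  obtain ⟨z, z1⟩ := exists_ne (1 : ZZ F 2)
  have z3 : z * z * z = 1 := by rw [← pow_three', ← c3, pow_card_eq_one]
  have zz1 : z * z ≠ 1 := fun k => z1 (by rwa [k, one_mul] at z3)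
  have zz : z ≠ z * z := fun k => z1 (left_eq_mul.1 k)
  have un : (Finset.univ : Finset (ZZ F 2)).erase 1 = {z, z * z} := by
    refine (Finset.eq_of_subset_of_card_le (fun x hx => ?_) ?_).symm
    · rw [Finset.mem_insert, Finset.mem_singleton] at hx
      rcases hx with rfl | rfl <;> simp [z1, zz1]
    · rw [Finset.card_erase_of_mem (Finset.mem_univ _), Finset.card_univ, c3, Finset.card_pair zz]
  have s0 := ph_sum_irr h1
  rw [← Finset.add_sum_erase _ _ (Finset.mem_univ 1), un, Finset.sum_pair zz, irr_ZZ_one, irr_ZZ_mul] at s0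
  have n1 : (θ : ZZ F 2 → ℂ) z * conj ((θ : ZZ F 2 → ℂ) z) = 1 := by
    rw [Complex.mul_conj', irr_ZZ_norm]
    simp
  have cz : c z * c z ^ 2 = 1 := ZZ_norm (hc z)
  have c1 : c z ≠ 1 := fun k => z1 (Subtype.ext (GU_ext fun v => by rw [hc, k, one_smul]; exact (one_smul _ v).symm))
  have czz : c (z * z) = c z * c z := sc_uniq (hc (z * z)) fun v => by
    rw [Subgroup.coe_mul, mul_smul, hc, hc, smul_smul]
  have cq : c z ^ 2 + c z + 1 = 0 :=
    (mul_eq_zero.1 (by linear_combination cz : (c z - 1) * (c z ^ 2 + c z + 1) = 0)).resolve_left (sub_ne_zero.2 c1)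
  have g1 : (1 - c z ^ 2)⁻¹ = c z ^ 2 :=
    inv_eq_of_mul_eq_one_right (by linear_combination -c z * cz + cq - (c z + 1) * two)
  have g2 : (1 - (c z * c z) ^ 2)⁻¹ = c z :=
    inv_eq_of_mul_eq_one_right (by linear_combination -c z ^ 2 * cz - cq + c z * two)
  have pr : ψ (-(c z ^ 2 * 1)) * ψ (-(c z * 1)) = -1 := by
    rw [← AddChar.map_add_eq_mul, ← p1]
    congr 1
    linear_combination -cq
  have hall : ∀ y : ZZ F 2, y = 1 ∨ y = z ∨ y = z * z := fun y => by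
    by_cases y1 : y = 1
    · exact Or.inl y1
    · have : y ∈ (Finset.univ : Finset (ZZ F 2)).erase 1 := by simp [y1]
      rw [un, Finset.mem_insert, Finset.mem_singleton] at this
      exact Or.inr this
  rw [un, Finset.sum_pair zz, czz, g1, g2, irr_ZZ_mul]
  generalize ht : (θ : ZZ F 2 → ℂ) z = t at s0 n1
  have hw : (t - t * t) ^ 2 = -3 := by linear_combination (t ^ 2 - 3 * t + 3) * s0
  have ct : conj t = t * t := by linear_combination (t * t) * n1 - (t - 1) * conj t * s0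
  have mt : t ∈ phK _ hw := ⟨-1 / 2, 1 / 2, by push_cast; linear_combination (1 / 2 : ℂ) * s0⟩
  refine ⟨p1, fun v => funext fun i => CharTwo.neg_eq _, pm, _, hw, fun y => ?_, ?_⟩
  · rcases hall y with rfl | rfl | rfl
    · rw [irr_ZZ_one, map_one]; exact one_mem _
    · rw [ht, ct]; exact mul_mem mt mt
    · rw [irr_ZZ_mul, map_mul, ht, ct]; exact mul_mem (mul_mem mt mt) (mul_mem mt mt)
  · rcases pm (-(c z ^ 2 * 1)) with k | k <;> rw [k] at pr ⊢
    · rw [one_mul] at pr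
      rw [pr]; linear_combination hw
    · rw [neg_one_mul, neg_inj] at pr
      rw [pr]; linear_combination hw

theorem He.ph_rat {ψ : AddChar F ℂ} {e : (Fin 7 → F) → MM q} (h : He ψ e) {K : Subring ℂ}
    (hK : ∀ r : ℚ, (r : ℂ) ∈ K) (pm : ∀ x, ψ x ∈ K) (g : GU 7 F q) (v : Fin 7 → F) :
    (rho ψ e g * e v).trace ∈ K := by
  have tr : ∀ u, (e u).trace ∈ K := fun u => by
    by_cases u0 : u = 0
    · rw [u0, h.zero, Matrix.trace_one]; exact natCast_mem K _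
    · rw [h.tr u u0]; exact zero_mem K
  simp only [rho, h.mul_ei', Matrix.smul_mul, Finset.sum_mul, h.mul, Matrix.trace_smul, Matrix.trace_sum,
    smul_eq_mul]
  refine mul_mem ?_ (sum_mem fun x _ => mul_mem (pm _) (mul_mem (pm _) (tr _)))
  have := hK ((-(q : ℚ)) ^ (7 + dd g))⁻¹
  rwa [Rat.cast_inv, Rat.cast_pow, Rat.cast_neg, Rat.cast_natCast] at this

/-- Take `ψ, e` from `exists_he`, `ρ = rho ψ e` (multiplicative: `rho_mul`, `rho_one`) and
`P = |H|⁻¹ (q+1)⁻¹ ∑_{g ∈ H, z ∈ ZZ} conj θ(z) ρ(z g)`.  Then `ρ g P = P ρ g = P` (`g ∈ H`),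
`ρ z P = P ρ z = θ(z) P`, `P P = P`, `tr P = ⟨res θ, 1⟩ = 1` (`tr_rho`).  Put `φ v = tr (P e_v)`,
`φ' v = tr (P ei_v) = ψ(𝐡 v v) φ(-v)`.  Invariance: `e (g v) = ρ g e_v ρ g⁻¹` (`rho_e`); the `g`
fixing `φ` form a subgroup containing `H` and `ZZ`.  `iso, non`: `star`.  `sum_norm` gives
`∑_{𝐡(v,v)=a} φ v = -q^6 ∑_{z ≠ 1} ψ(-γ_z a) θ(z)`; for `a = 0` this is `q^6` (`θ ≠ 1`, and
`φ 0 = 1`); in general the norm is `≤ q^6 q` (if `a^q ≠ a` the set is empty: `VV_eq_empty`);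
`∑_{VV a} φ' = ψ(a) ∑_{VV a} φ` by `v ↦ -v`.
`q = 2`: characteristic two, `ψ x = ±1` (`ψ x ^ 2 = ψ (x + x) = 1`), `ψ 1 = -1` (the elements of
trace zero are `0, 1`), `-v = v`; `ZZ = {1, z, z²}`, `γ_z + γ_{z²} = 1` so the two signs are
opposite, `t = θ z` has `t² + t + 1 = 0`, the sum is `± 64 (t - t²)` with square `-3 · 4096`;
`w = t - t²`, `t = (-1 + w)/2`, `t² = (-1 - w)/2`, and `tr (ρ g e_v)` is rational (a sum of terms
`± 2^7` or `0` divided by `(-2)^k`).  May be split (`two` separately). -/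
theorem exists_ph (H : Subgroup (GU 7 F q)) (θ : IrrCharacter (ZZ F q)) (h1 : θ ≠ irrOne _)
    (h : classInner (res H θ) 1 = 1) : ∃ φ φ', Ph (H ⊔ ZZ F q) φ φ' := by
  classical
  obtain ⟨ψ, e, he⟩ := exists_he (F := F) (q := q)
  choose c hc using fun z : ZZ F q => z.2
  have pp : phZ ψ e θ * phH ψ e H * (phZ ψ e θ * phH ψ e H) = phZ ψ e θ * phH ψ e H := by
    rw [mul_assoc, ← mul_assoc (phH ψ e H), ← he.ph_zh, mul_assoc, he.ph_hh, ← mul_assoc, he.ph_zz]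
  have tr : (phZ ψ e θ * phH ψ e H).trace = 1 := by
    rw [← mul_one (phZ ψ e θ * phH ψ e H), he.ph_tr]
    simpa only [mul_one, he.tr_rho, classInner, res, omt, Pi.one_apply, map_one] using h
  have zr : ∀ z : ZZ F q, phZ ψ e θ * phH ψ e H * rho ψ e z =
      (θ : ZZ F q → ℂ) z • (phZ ψ e θ * phH ψ e H) := fun z => by
    rw [he.ph_zh, mul_assoc, he.ph_c, he.ph_z, Matrix.mul_smul]
  have rat := he.ph_tr (θ := θ) (H := H)
  have cH : ∀ g ∈ H, rho ψ e g * (phZ ψ e θ * phH ψ e H) = phZ ψ e θ * phH ψ e H * rho ψ e g :=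
    fun g hg => by rw [← mul_assoc, ← he.ph_c, mul_assoc, he.ph_l hg, mul_assoc, he.ph_r hg]
  have cZ : ∀ g ∈ ZZ F q, rho ψ e g * (phZ ψ e θ * phH ψ e H) = phZ ψ e θ * phH ψ e H * rho ψ e g :=
    fun g hg => by rw [zr ⟨g, hg⟩, ← mul_assoc, he.ph_z ⟨g, hg⟩, Matrix.smul_mul]
  generalize phZ ψ e θ * phH ψ e H = P at pp tr zr rat cH cZ
  let St : Subgroup (GU 7 F q) :=
    { carrier := {g | ∀ v, (P * e (g • v)).trace = (P * e v).trace}
      one_mem' := fun v => by rw [one_smul]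
      mul_mem' := fun {a b} ha hb v => by rw [mul_smul, ha, hb]
      inv_mem' := fun {a} ha v => by rw [← ha, smul_inv_smul] }
  have inv : H ⊔ ZZ F q ≤ St := sup_le (fun g hg => he.ph_inv (cH g hg)) fun g hg => he.ph_inv (cZ g hg)
  have e' : ∀ v, (P * ei ψ e v).trace = ψ (hermForm 7 F q v v) * (P * e (-v)).trace := fun v => by
    rw [ei, Matrix.mul_smul, Matrix.trace_smul, smul_eq_mul]
  have ng : ∀ a : F, ∑ v ∈ VV q a, (P * ei ψ e v).trace = ψ a * ∑ v ∈ VV q a, (P * e v).trace := fun a => by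
    simp only [e']
    exact ph_neg ψ (fun v => (P * e v).trace) a
  have s0 : ∑ v ∈ VV q (0 : F), (P * e v).trace = (q : ℂ) ^ 6 - 1 := by
    have := he.ph_sum zr tr c hc (a := 0) (zero_pow (by have := two_le_q F q; omega))
    have s := ph_sum_irr h1
    rw [← Finset.add_sum_erase _ _ (Finset.mem_univ 1), irr_ZZ_one] at s
    rw [← ph_VV0, Finset.sum_insert fun k => (mem_VV.1 k).1 rfl, he.zero, mul_one, tr] at this
    simp only [mul_zero, neg_zero, AddChar.map_zero_eq_one, one_mul] at this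
    linear_combination this - (q : ℂ) ^ 6 * s
  have sa : ∀ a : F, a ≠ 0 → ‖∑ v ∈ VV q a, (P * e v).trace‖ ≤ (q : ℝ) ^ 7 := fun a a0 => by
    by_cases ha : a ^ q = a
    · rw [ph_VV a0, he.ph_sum zr tr c hc ha, norm_mul, norm_neg, norm_pow, Complex.norm_natCast,
        pow_succ (q : ℝ) 6]
      refine mul_le_mul_of_nonneg_left ((norm_sum_le _ _).trans ?_) (by positivity)
      simp only [norm_mul, AddChar.norm_apply, irr_ZZ_norm, mul_one, Finset.sum_const, nsmul_eq_mul]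
      rw [Finset.card_erase_of_mem (Finset.mem_univ _), Finset.card_univ, ← Nat.card_eq_fintype_card, card_ZZ,
        Nat.add_sub_cancel]
    · rw [VV_eq_empty ha, Finset.sum_empty, norm_zero]
      positivity
  refine ⟨fun v => (P * e v).trace, fun v => (P * ei ψ e v).trace, fun g hg => inv hg, fun g hg v => ?_,
    (he.star pp tr).1, (he.star pp tr).2, s0, ?_, sa, fun a a0 => ?_, ?_⟩
  · rw [e', e', GU_herm, ← smul_neg, inv hg]
  · rw [ng, AddChar.map_zero_eq_one, one_mul, s0]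
  · rw [ng, norm_mul, AddChar.norm_apply, one_mul]
    exact sa a a0
  · rintro rfl
    obtain ⟨p1, nv, pm, w, hw, hθ, hs⟩ := he.ph_two h1 c hc
    have hK : ∀ r : ℚ, (r : ℂ) ∈ phK w hw := fun r => ⟨r, 0, by simp⟩
    refine ⟨fun v hv => by rw [e', (mem_VV.1 hv).2, p1, nv, neg_one_mul], ?_, w, hw, fun v => ?_⟩
    · rw [ph_VV one_ne_zero, he.ph_sum zr tr c hc (one_pow 2), mul_pow, hs]
      norm_num
    · change _ ∈ phK w hw
      rw [rat]
      refine mul_mem ?_ (sum_mem fun g _ => mul_mem ?_ (sum_mem fun z _ => mul_mem (hθ z)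
        (he.ph_rat hK (fun x => ?_) _ _)))
      · have := hK (Nat.card H : ℚ)⁻¹
        rwa [Rat.cast_inv, Rat.cast_natCast] at this
      · have := hK (((2 : ℕ) : ℚ) + 1)⁻¹
        rwa [Rat.cast_inv, Rat.cast_add, Rat.cast_natCast, Rat.cast_one] at this
      · rcases pm x with k | k <;> rw [k]
        exacts [one_mem _, neg_mem (one_mem _)]

end Cfsg.Agent.U7
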