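import Cfsg.Agent.U7.D1
import Cfsg.Agent.U7.D7
import Cfsg.Agent.U7.Ph
import Cfsg.Agent.U7.J1
import Cfsg.Agent.U7.J2
import Cfsg.Agent.U7.E4
import Cfsg.Agent.U7.Fin
import Cfsg.Agent.U7.B1
import Cfsg.Agent.U7.B2

/-!
# Overgroups of the Singer normaliser in `SU_7(q)`
-/

set_option autoImplicit false
set_option linter.unusedSectionVars false

namespace Cfsg.Agent.U7

open Cfsg.Agent.Class.U Cfsg.Agent.Char
open scoped ComplexConjugate

variable {F : Type*} [Field F] [Fintype F] {q : ℕ} [UF F q] {H T M : Subgroup (GU 7 F q)} {σ : GU 7 F q}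

theorem Hy.dsh (D : Hy H T σ) : Dsh H := by
  by_cases h : 7 ∣ q + 1
  · exact D.dsh_of_dvd h
  · exact D.dsh_of_not h

theorem hh_ge (h : 2 ≤ q) : 3 ≤ hh q := by
  have h1 : 1 ≤ q - 1 := by omega
  have h2 : 1 ≤ q ^ 4 + q ^ 2 + 1 := by omega
  have := Nat.mul_le_mul (Nat.mul_le_mul h h1) h2
  unfold hh; omega

theorem split_inner {θ : IrrCharacter (ZZ F q)} (h1 : θ ≠ irrOne _)
    (h : IsIrrCharacter H (res H θ - 1)) :
    classInner (res H θ) 1 = 1 ∧ classInner (res H θ) (res H θ) = 2 := by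
  classical
  have hne : (⟨_, h⟩ : IrrCharacter H) ≠ irrOne H := fun e => by
    have e1 := congrFun (congrArg Subtype.val e) 1
    simp only [Pi.sub_apply, Pi.one_apply, irrOne_apply, res, OneMemClass.coe_one, omt_one, h1,
      if_false, sub_zero] at e1
    have e2 : (hh q : ℂ) = (2 : ℕ) := by push_cast; linear_combination e1
    have := hh_ge (two_le_q F q)
    have := Nat.cast_injective e2
    omega
  have a1 := irr_inner (⟨_, h⟩ : IrrCharacter H) (irrOne H)
  have a2 := irr_inner (irrOne H) (⟨_, h⟩ : IrrCharacter H)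
  have a3 := irr_inner (⟨_, h⟩ : IrrCharacter H) ⟨_, h⟩
  have a4 := irr_inner (irrOne H) (irrOne H)
  rw [if_neg hne] at a1
  rw [if_neg hne.symm] at a2
  rw [if_pos rfl] at a3 a4
  have e : res H θ = (res H θ - 1) + 1 := (sub_add_cancel _ _).symm
  change classInner (res H θ - 1) 1 = 0 at a1
  change classInner 1 (res H θ - 1) = 0 at a2
  change classInner (res H θ - 1) (res H θ - 1) = 1 at a3
  change classInner (1 : H → ℂ) 1 = 1 at a4
  generalize res H θ - 1 = χ at a1 a2 a3 e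
  rw [e]
  constructor
  · rw [classInner_add_left, a1, a4, zero_add]
  · rw [classInner_add_left, classInner_add_right, classInner_add_right, a1, a2, a3, a4]; norm_num

theorem Hy.tr (D : Hy H T σ) : Tr (H ⊔ ZZ F q) := by
  classical
  have S := D.dsh
  have hq := two_le_q F q
  let n : IrrCharacter (ZZ F q) → ℕ := fun θ => if IsIrrCharacter H (res H θ) then 1 else 2
  have hn : ∀ θ, classInner (res H θ) (res H θ) = n θ := fun θ => by
    by_cases h : IsIrrCharacter H (res H θ)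
    · have := irr_inner (⟨_, h⟩ : IrrCharacter H) ⟨_, h⟩
      rw [if_pos rfl] at this
      simp only [n, if_pos h, Nat.cast_one]; exact this
    · have h1 : θ ≠ irrOne _ := fun e => h (e ▸ S.zero)
      simp only [n, if_neg h]
      exact_mod_cast (split_inner h1 ((S.other θ h1).resolve_left h)).2
  have hs := sum_inner H
  simp only [hn] at hs
  rw [← Nat.cast_sum, Nat.cast_inj, ← Finset.add_sum_erase _ _ (Finset.mem_univ (irrOne _))] at hs
  have n1 : n (irrOne _) = 1 := if_pos S.zero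
  have hc : (Finset.univ.erase (irrOne (ZZ F q))).card = q := by
    rw [Finset.card_erase_of_mem (Finset.mem_univ _), Finset.card_univ, card_irr_ZZ]; rfl
  have p0 := nO_pos (H ⊔ ZZ F q) (a := (0 : F)) (zero_pow (by omega))
  have p1 := nO_pos (H ⊔ ZZ F q) (a := (1 : F)) (one_pow _)
  obtain ⟨r, rfl⟩ : ∃ r, q = r + 2 := ⟨q - 2, by omega⟩
  rw [show r + 2 - 1 = r + 1 from rfl, n1] at hs
  by_cases hall : ∀ θ, IsIrrCharacter H (res H θ)
  · rw [Finset.sum_congr rfl (g := fun _ => 1) fun θ _ => if_pos (hall θ), Finset.sum_const, hc,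
      smul_eq_mul] at hs
    have : nO (H ⊔ ZZ F (r + 2)) (1 : F) = 1 := by nlinarith
    rw [this] at hs
    exact tr_of_nO (by omega) this
  exfalso
  push Not at hall
  obtain ⟨θ, hθ⟩ := hall
  have h1 : θ ≠ irrOne _ := fun e => hθ (e ▸ S.zero)
  obtain ⟨φ, φ', P⟩ := exists_ph H θ h1 (split_inner h1 ((S.other θ h1).resolve_left hθ)).1
  have k0 := P.nO_zero
  have k1 := P.nO_one
  have le2 : ∀ θ, n θ ≤ 2 := fun θ => by simp only [n]; split_ifs <;> omega
  have hle := Finset.sum_le_card_nsmul (Finset.univ.erase (irrOne (ZZ F (r + 2)))) n 2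
    fun θ _ => le2 θ
  rw [hc, smul_eq_mul] at hle
  rcases Nat.eq_zero_or_pos r with rfl | hr
  · have k2 := P.nO_two rfl (D.TH.trans le_sup_left) (D.card.trans hp_two) fun s hs v v0 e => by
      by_contra s1
      have := D.toSg.dd_zs (ZZ F _).one_mem hs s1
      rw [one_mul, dd_eq_zero] at this
      exact v0 (this v e)
    rw [zero_add 1, one_mul] at hs
    change 1 + Finset.sum _ n = _ at hs
    omega
  refine D.not_all (by omega) S.zero fun θ' h' => (S.other θ' h').resolve_left fun k => ?_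
  have hlt := Finset.sum_lt_sum (s := Finset.univ.erase (irrOne (ZZ F (r + 2)))) (f := n)
    (g := fun _ => 2) (fun θ _ => le2 θ) ⟨θ', by simp [h'], by simp [n, k]⟩
  rw [Finset.sum_const, hc, smul_eq_mul] at hlt
  have : 2 ≤ nO (H ⊔ ZZ F (r + 2)) (1 : F) := by omega
  have : 2 ≤ nO (H ⊔ ZZ F (r + 2)) (0 : F) := by omega
  nlinarith

theorem Hy.SS_le (D : Hy H T σ) : SS F q ≤ H := by
  obtain ⟨g, hg, u, c, h0, hu, hc, ht⟩ := exists_tv D.tr
  exact U7.SS_le D.tr hg h0 hu hc ht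

theorem Sg.mul (D : Sg T σ) {z : GU 7 F q} (hz : z ∈ ZZ F q) (hs : z ∈ SS F q) : Sg T (z * σ) := by
  have c : Commute z σ := ZZ_comm hz σ
  have e : ∀ (i : ℕ) s, (z * σ) ^ i * s * ((z * σ) ^ i)⁻¹ = σ ^ i * s * (σ ^ i)⁻¹ := fun i s => by
    rw [c.mul_pow, mul_inv_rev, mul_assoc (z ^ i), mul_assoc (z ^ i), ← mul_assoc (σ ^ i * s),
      ← mul_assoc (z ^ i), ZZ_comm ((ZZ F q).pow_mem hz i), mul_inv_cancel_right]
  refine ⟨D.TS, (SS F q).mul_mem hs D.σS, D.comm, D.card, fun s h => ?_, ?_, fun i a b s h k => ?_,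
    fun g hg s h s1 t ht k => ?_, D.irr⟩
  · have := e 1 s
    simp only [pow_one] at this
    exact this ▸ D.norm s h
  · rw [c.mul_pow, ZZ_SS_pow hz hs, D.pow7, mul_one]
  · exact D.fpf i a b s h (e i s ▸ k)
  · obtain ⟨y, hy, u, hu, i, rfl⟩ := D.ti g hg s h s1 t ht k
    refine ⟨y * (z ^ i)⁻¹, (ZZ F q).mul_mem hy ((ZZ F q).inv_mem ((ZZ F q).pow_mem hz i)), u, hu, i,
      ?_⟩
    rw [c.mul_pow, mul_assoc y (z ^ i)⁻¹, ZZ_comm ((ZZ F q).inv_mem ((ZZ F q).pow_mem hz i))]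
    group

theorem Sg.max (D : Sg T σ) (h1 : M ≤ SS F q) (h2 : T ≤ M) (h3 : σ ∈ M) :
    (∀ g ∈ M, ∃ z ∈ ZZ F q, ∃ u ∈ T, ∃ i : ℕ, g = z * u * σ ^ i) ∨ SS F q ≤ M := by
  obtain ⟨l, hl, h7, hd⟩ := exists_prime_hp (two_le_q F q)
  rcases (D.tz h1 h2 h3).frob hl hd with h | ⟨⟨z, hz, hσ⟩, ht⟩ | ⟨t, ht, o, r, P, hr, hP, hZ, hn, hf⟩
  · left
    intro g hg
    obtain ⟨z, hz, u, hu, i, e⟩ := h ⟨g, hg⟩
    exact ⟨z, hz, u, hu, i, congrArg Subtype.val e⟩
  · right
    set K := Subgroup.normalClosure (T.subgroupOf M : Set M) with hK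
    have hT : T ≤ K.map M.subtype := fun s hs =>
      ⟨⟨s, h2 hs⟩, Subgroup.subset_normalClosure hs, rfl⟩
    refine (Hy.SS_le (T := T) (σ := z * σ) ⟨D.mul hz (h1 z.2), (M.map_subtype_le K).trans h1, hT,
      ⟨_, hσ, rfl⟩, ?_⟩).trans (M.map_subtype_le K)
    set N := Subgroup.normalClosure (T.subgroupOf (K.map M.subtype) : Set (K.map M.subtype))
    let N' : Subgroup M := (N.map (K.map M.subtype).subtype).subgroupOf M
    have hN : N'.Normal := by
      rw [← Subgroup.normalizer_eq_top_iff, eq_top_iff, ← ht, sup_le_iff]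
      have key : ∀ g : M, (∀ x ∈ N', g * x * g⁻¹ ∈ N') → g ∈ Subgroup.normalizer (N' : Set M) :=
        fun g hg => Subgroup.mem_normalizer_fintype hg
      constructor
      · intro g hg
        refine key g ?_
        rintro x ⟨y, hy, e⟩
        exact ⟨⟨g, g, hg, rfl⟩ * y * ⟨g, g, hg, rfl⟩⁻¹,
          (Subgroup.normalClosure_normal).conj_mem _ hy _, by
            change (g : GU 7 F q) * y * (g : GU 7 F q)⁻¹ = g * x * (g : GU 7 F q)⁻¹
            rw [show (y : GU 7 F q) = x from e]⟩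
      · intro g hg
        refine key g fun x hx => ?_
        rwa [(D.tz h1 h2 h3).cen g hg x, mul_inv_cancel_right]
    have hle : K ≤ N' := Subgroup.normalClosure_le_normal fun s hs =>
      ⟨⟨s, hT hs⟩, Subgroup.subset_normalClosure hs, rfl⟩
    rw [eq_top_iff]
    rintro ⟨_, g, hg, rfl⟩ -
    obtain ⟨y, hy, e⟩ := hle hg
    have : y = ⟨M.subtype g, g, hg, rfl⟩ := Subtype.ext e
    exact this ▸ hy
  · exfalso
    have t1 : (t : GU 7 F q) ≠ 1 := fun e => by
      rw [show t = 1 from Subtype.ext e, orderOf_one] at o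
      omega
    refine no_inv hl h7 ((Subgroup.orderOf_coe t).trans o) (D.irr _ ht t1) hr
      (hP.map M.subtype) (fun k => hZ fun x hx => k ⟨x, hx, rfl⟩) ?_ ?_
    · rintro _ ⟨x, hx, rfl⟩
      exact ⟨_, hn x hx, rfl⟩
    · rintro _ ⟨x, hx, rfl⟩ k
      exact hf x hx k

theorem Sg.not_all (D : Sg T σ) :
    ¬ ∀ g ∈ SS F q, ∃ z ∈ ZZ F q, ∃ u ∈ T, ∃ i : ℕ, g = z * u * σ ^ i := fun h => by
  have hq := two_le_q F q
  choose! z hz u hu i e using h
  have := Nat.card_le_card_of_injective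
    (fun g : SS F q => ((⟨z g, hz g g.2⟩, ⟨u g, hu g g.2⟩, ⟨i g % 7, Nat.mod_lt _ (by omega)⟩) :
      ZZ F q × T × Fin 7)) fun g k a => by
      simp only [Prod.mk.injEq, Subtype.mk.injEq, Fin.mk.injEq] at a
      refine Subtype.ext ?_
      rw [e g g.2, e k k.2, a.1, a.2.1, pow_eq_pow_mod _ D.pow7, a.2.2, ← pow_eq_pow_mod _ D.pow7]
  rw [card_SS, Nat.card_prod, Nat.card_prod, card_ZZ, D.card, Nat.card_eq_fintype_card,
    Fintype.card_fin] at this
  have h1 : hp q ≤ hh q := Nat.div_le_self _ _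
  have h2 := hh_mul (q := q) (by omega)
  have p : ∀ k, 0 < k → 1 ≤ q ^ k - 1 := fun k hk => by
    have := Nat.one_lt_pow hk.ne' (show 1 < q by omega); omega
  have h3 : 8 * 1 * 1 * 1 * 1 * 1 * (q ^ 7 + 1) ≤ so q := by
    unfold so
    gcongr
    · calc 8 ≤ 2 ^ 21 := by norm_num
        _ ≤ q ^ 21 := Nat.pow_le_pow_left hq _
    · exact p 2 (by omega)
    · omega
    · exact p 4 (by omega)
    · omega
    · exact p 6 (by omega)
  have h4 := Nat.mul_le_mul_left (q + 1) h1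
  rw [← mul_assoc] at this
  omega

end Cfsg.Agent.U7
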