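import Cfsg.Prelude.Def_GeometricClasses
import Cfsg.Agent.U7.Main
import Cfsg.Agent.U7.Br

/-!
# `SU_7(q)`: the Singer normaliser
-/

set_option autoImplicit false

namespace Cfsg.Agent.U7

/-- part (4) of S5810 -/
theorem part4 {F : Type*} [Field F] [Fintype F] (q : ℕ) (hF : Fintype.card F = q ^ 2) :
    (∀ K : Subalgebra F (Matrix (Fin 7) (Fin 7) F), Cfsg.Geo.IsFieldSubalgebra 7 K → Cfsg.Geo.IsAdjointClosedFor (Cfsg.hermForm 7 F q) K → Cfsg.Geo.IsMaximalIn (Cfsg.GU 7 F q ⊓ Cfsg.Geo.specialLinear (Fin 7) F) (Cfsg.Geo.subalgebraNormalizer K ⊓ (Cfsg.GU 7 F q ⊓ Cfsg.Geo.specialLinear (Fin 7) F))) := by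
  intro K hK hac
  haveI := Class.U.UF.of_card hF
  obtain ⟨T, σ, D, hN⟩ := exists_sg K hK hac
  refine ⟨lt_of_le_of_ne inf_le_right fun e => D.not_all fun g hg => (hN g hg).1 ?_,
    fun M h1 h2 => ?_⟩
  · exact (e.ge (show (g : GL (Fin 7) F) ∈ _ from ⟨g.2, hg⟩)).1
  have hm : ∀ u ∈ T, ∀ i : ℕ, u * σ ^ i ∈ M.subgroupOf (GU 7 F q) := fun u hu i => by
    have k := (SS F q).mul_mem (D.TS hu) ((SS F q).pow_mem D.σS i)
    exact h1 ⟨(hN _ k).2 ⟨1, (ZZ F q).one_mem, u, hu, i, by rw [one_mul]⟩, (u * σ ^ i).2, k⟩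
  rcases D.max (M := M.subgroupOf (GU 7 F q)) (fun g hg => (h2 hg).2)
    (fun u hu => by simpa using hm u hu 0) (by simpa using hm 1 T.one_mem 1) with h | h
  · exact Or.inl (le_antisymm (fun g hg =>
      ⟨(hN ⟨g, (h2 hg).1⟩ (h2 hg).2).2 (h ⟨g, (h2 hg).1⟩ hg), h2 hg⟩) h1)
  · exact Or.inr (le_antisymm h2 fun g hg => h (x := ⟨g, hg.1⟩) hg.2)

end Cfsg.Agent.U7
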