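import Cfsg.Agent.U7.TB

/-!
# Constituents of the Weil characters are non-exceptional
-/

set_option autoImplicit false
set_option linter.unusedSectionVars false

namespace Cfsg.Agent.U7

open Cfsg.Agent.Class.U Cfsg.Agent.Char
open scoped ComplexConjugate

variable {H : Type*} [Group H] [Fintype H] {Z S : Subgroup H} {σ : H} {h : ℕ}

open Finset

/-- two exceptional characters with the same central character, opposite signs and a common
`l ∈ O ∩ O'`: then `O = O'` (both are determined by the multiplicity functions, which are constant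
on the orbit `TZ.orbit l` of size `7`: that orbit lies in `O` and in `O'`); `f = χ - χ'` has norm
`2`, multiplicities `a - a' + 2·[l ∈ O]`; `TZ.ineq` and `Sing.shift_eq` give
`28 h - 196 ≤ 14 h`, false.  (`χ ≠ χ'` because the multiplicity functions differ: `h > 14`.) -/
theorem TZ.no_opp [Fintype S] (D : TZ Z S σ h) (hb : 196 < h) {χ χ' c : H → ℂ}
    (hχ : IsIrrCharacter H χ) (hχ' : IsIrrCharacter H χ') (hc : Cen Z c χ) (hc' : Cen Z c χ')
    {a a' : ℕ} {O O' : Finset (IrrCharacter S)} (k : EX S χ a 1 O) (k' : EX S χ' a' (-1) O')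
    {l : IrrCharacter S} (hl : l ∈ O) (hl' : l ∈ O') : False := by
  classical
  obtain ⟨O₀, -, h2, -, h3⟩ := D.orbit l fun e => k.2.2.1 (e ▸ hl)
  have key : ∀ {χ : H → ℂ} {a : ℕ} {ε : ℤ} {O : Finset (IrrCharacter S)}, IsIrrCharacter H χ →
      EX S χ a ε O → l ∈ O → O₀ = O := fun {χ a ε O} hχ k hl =>
    eq_of_subset_of_card_le (fun l' hl' => by_contra fun n => by
      have := h3 χ hχ.isClassFunction l' hl'
      rw [k.2.2.2, k.2.2.2, if_pos hl, if_neg n, Int.cast_inj] at this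
      have := k.1
      nlinarith) (by rw [h2, k.2.1])
  obtain rfl := key hχ k hl
  obtain rfl := key hχ' k' hl'
  have ne : (⟨χ, hχ⟩ : IrrCharacter H) ≠ ⟨χ', hχ'⟩ := fun e => by
    obtain rfl : χ = χ' := congrArg Subtype.val e
    have e1 := (k.2.2.2 l).symm.trans (k'.2.2.2 l)
    have e2 := (k.2.2.2 (irrOne S)).symm.trans (k'.2.2.2 _)
    rw [if_pos hl, if_pos hl, Int.cast_inj] at e1
    rw [if_neg k.2.2.1, if_neg k.2.2.1, Int.cast_inj] at e2
    omega
  have e := D.ineq (m := fun l => (if l ∈ O₀ then 2 else 0) + (a - a' : ℤ)) (f := χ - χ') (n := 2) (c := c)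
    (fun l => by
      have := classInner_sub_left (fun s : S => χ s) (fun s : S => χ' s) l
      rw [k.2.2.2, k'.2.2.2] at this
      refine Eq.trans this ?_
      split_ifs <;> simp only [*, if_true, if_false] <;> push_cast <;> ring) (hχ.isGen.sub hχ'.isGen)
    (fun z hz => ⟨(hc z hz).1, fun g => by simp only [Pi.sub_apply, (hc z hz).2, (hc' z hz).2, mul_sub]⟩) (by
      have e1 := irr_inner ⟨χ, hχ⟩ ⟨χ', hχ'⟩
      have e2 := irr_inner ⟨χ', hχ'⟩ ⟨χ, hχ⟩
      simp only [ne, ne.symm, if_false] at e1 e2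
      simp only [classInner_sub_left, classInner_sub_right, hχ.inner_self, hχ'.inner_self, e1, e2]
      norm_num)
  rw [← D.cI, ← Sing.shift_eq _ (a - a' : ℤ), D.cI] at e
  simp only [add_sub_cancel_right, ite_pow, sum_ite_mem, univ_inter, sum_const, h2, nsmul_eq_mul,
    ne_eq, OfNat.ofNat_ne_zero, not_false_eq_true, zero_pow] at e
  push_cast at e
  omega

theorem TZ.inner_val [Fintype S] (D : TZ Z S σ h) {f : H → ℂ} {a b : ℂ} (h1 : f 1 = a * h + b)
    (h2 : ∀ s ∈ S, s ≠ 1 → f s = b) {l : IrrCharacter S} (hl : l ≠ irrOne S) :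
    classInner (fun s : S => f s) (l : S → ℂ) = a := by
  classical
  have e : ∀ s : S, f s = b + if s = 1 then a * h else 0 := fun s => by
    split_ifs with k
    · rw [k, add_comm]; exact h1
    · rw [add_zero]; exact h2 s s.2 fun e => k (Subtype.ext e)
  have h0 : (h : ℂ) ≠ 0 := by rw [← D.card]; exact_mod_cast Nat.card_pos.ne'
  rw [classInner_def, D.card]
  simp only [e, add_mul, sum_add_distrib, ← mul_sum, ← map_sum, l.2.sum_eq_zero fun e => hl (Subtype.ext e),
    ite_mul, zero_mul, sum_ite_eq', mem_univ, if_true, D.l1, map_zero, map_one]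
  field_simp
  ring

/-- Let `π = ∑ c_χ χ` (`Sing.exists_deg`) have `π|_S = m · reg - δ · 1`.  Non-trivial
constituents have degree `≥ h - 7` (`deg_ge`), so there are at most `7` of them
(`8 (h - 7) > 7 h`).  Choose a shape for each (`shape`).  The multiplicity of `l ≠ 1` in `π|_S` is
`m = ∑ c_χ a_χ + ∑_{χ exceptional, l ∈ O_χ} c_χ ε_χ`.  At most `49 < h - 1` characters `l` lie in some
`O_χ`, so `∑ c_χ a_χ = m`, and for `l` in some `O_χ` both signs occur, contradicting `no_opp`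
(`cen_const`).  So all constituents are non-exceptional; `∑ c_χ b_χ = π s = -δ`. -/
theorem TZ.constit (D : TZ Z S σ h) (hb : 196 < h)
    (hS : Subgroup.normalClosure (S : Set H) = ⊤) {π c : H → ℂ} (hπ : IsCharacter H π)
    (hc : Cen Z c π) {m δ : ℕ} (hm : m ≤ 7) (h1 : π 1 = (m * h - δ : ℤ))
    (h2 : ∀ s ∈ S, s ≠ 1 → π s = -(δ : ℂ)) :
    ∃ (n a : IrrCharacter H → ℕ) (b : IrrCharacter H → ℤ),
      π = ∑ χ : IrrCharacter H, (n χ : ℂ) • (χ : H → ℂ) ∧
      (∀ χ, n χ ≠ 0 → NE S h (χ : H → ℂ) (a χ) (b χ)) ∧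
      ∑ χ, n χ * a χ = m ∧ ∑ χ, (n χ : ℤ) * b χ = -δ := by
  classical
  have := Fintype.ofFinite S
  have sh : ∀ χ : IrrCharacter H, ∃ (a : ℕ) (b ε : ℤ) (O : Finset (IrrCharacter S)),
      (NE S h χ a b ∧ O = ∅) ∨ EX S χ a ε O := fun χ => by
    obtain ⟨a, ⟨b, k⟩ | ⟨ε, O, k⟩⟩ := D.shape hb χ.2
    exacts [⟨a, b, 0, ∅, .inl ⟨k, rfl⟩⟩, ⟨a, 0, ε, O, .inr k⟩]
  choose a b ε O k using sh
  obtain ⟨n, d, c1, d1, c2, c3⟩ := Sing.exists_deg hπ
  have f1 : #{ψ | n ψ ≠ 0} ≤ 8 := by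
    have e1 : ∑ χ, n χ * d χ ≤ 7 * h := by
      have e : ((∑ χ, n χ * d χ : ℕ) : ℤ) = m * h - δ := by exact_mod_cast c3.symm.trans h1
      have := Nat.mul_le_mul_right h hm
      omega
    have e2 := card_nsmul_le_sum (({ψ | n ψ ≠ 0} : Finset _).erase (irrOne H)) (fun χ => n χ * d χ)
      (h - 7) fun ψ hψ => by
        have := D.deg_ge hb hS ψ.2 (fun e => ne_of_mem_erase hψ (Subtype.ext e)) (d1 ψ)
        have := Nat.le_mul_of_pos_left (d ψ) (Nat.pos_of_ne_zero (mem_filter.1 (mem_of_mem_erase hψ)).2)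
        omega
    have e3 := (e2.trans (sum_le_univ_sum_of_nonneg fun _ => Nat.zero_le _)).trans e1
    have e4 := pred_card_le_card_erase (s := ({ψ | n ψ ≠ 0} : Finset _)) (a := irrOne H)
    rw [smul_eq_mul] at e3
    have : #(({ψ | n ψ ≠ 0} : Finset _).erase (irrOne H)) ≤ 7 := by
      by_contra k
      have := Nat.mul_le_mul_right (h - 7) (not_le.1 k)
      omega
    omega
  obtain ⟨l₁, l1, hl₁⟩ : ∃ l₁, l₁ ≠ irrOne S ∧ ∀ ψ, n ψ ≠ 0 → l₁ ∉ O ψ := by
    have e1 := card_biUnion_le_card_mul ({ψ | n ψ ≠ 0} : Finset _) O 7 fun ψ _ =>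
      (k ψ).elim (fun e => by simp [e.2]) fun e => e.2.1.le
    obtain ⟨l, -, hl⟩ := exists_mem_notMem_of_card_lt_card (t := univ)
      ((card_insert_le (irrOne S) (({ψ | n ψ ≠ 0} : Finset _).biUnion O)).trans_lt
        (by rw [card_univ, D.cI]; omega))
    exact ⟨l, fun e => hl (e ▸ mem_insert_self _ _), fun ψ hψ e =>
      hl (mem_insert_of_mem (mem_biUnion.2 ⟨ψ, by simpa using hψ, e⟩))⟩
  have f2 : ∀ l, l ≠ irrOne S → ∑ ψ, (n ψ : ℤ) * (a ψ + if l ∈ O ψ then ε ψ else 0) = m := fun l hl => by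
    have e1 := D.inner_val (f := π) (a := m) (b := -δ) (by rw [h1]; push_cast; ring) h2 hl
    have e2 : ∀ ψ : IrrCharacter H, classInner (fun s : S => ψ.1 s) (l : S → ℂ) =
        (a ψ + if l ∈ O ψ then ε ψ else 0 : ℤ) := fun ψ => (k ψ).elim (fun e => by
      rw [D.inner_val (a := a ψ) (b := b ψ) (by rw [e.1.2.1]; push_cast; ring) e.1.2.2 hl]
      simp [e.2]) fun e => by convert e.2.2.2 l
    rw [show (fun s : S => π s) = ∑ χ : IrrCharacter H, (n χ : ℂ) • fun s : S => (χ : H → ℂ) s from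
      funext fun s => by rw [congrFun c2 s]; simp, classInner_sum_left] at e1
    simp only [classInner_smul_left, e2] at e1
    exact_mod_cast e1
  have f3 : ∑ ψ, (n ψ : ℤ) * a ψ = m := (sum_congr rfl fun ψ _ => by
    by_cases e : n ψ = 0 <;> simp [e, hl₁]).trans (f2 l₁ l1)
  have cn : ∀ ψ, n ψ ≠ 0 → Cen Z c ψ.1 := fun ψ e => D.cen_const hc ψ.2 (by rw [c1]; exact_mod_cast e)
  have f4 : ∀ χ, n χ ≠ 0 → NE S h χ.1 (a χ) (b χ) := fun x hx => ((k x).resolve_right fun kx => by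
    obtain ⟨l, hl⟩ := card_pos.1 (kx.2.1 ▸ by norm_num : 0 < #(O x))
    have e := f2 l fun e => kx.2.2.1 (e ▸ hl)
    simp only [mul_add, sum_add_distrib, f3, add_eq_left] at e
    obtain ⟨y, hy⟩ : ∃ y, (n y : ℤ) * ((if l ∈ O y then ε y else 0) * ε x) < 0 := by
      by_contra! k3
      have := (sum_eq_zero_iff_of_nonneg fun y _ => k3 y).1
        (by simp only [← mul_assoc, ← sum_mul, e, zero_mul]) x (mem_univ _)
      rw [if_pos hl, ← sq, kx.1, mul_one] at this
      exact hx (by exact_mod_cast this)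
    have ny : n y ≠ 0 := fun e => by simp [e] at hy
    have ly : l ∈ O y := by_contra fun e => by simp [e] at hy
    have ky := (k y).resolve_left fun e => by simp [e.2] at ly
    rw [if_pos ly] at hy
    have hy' := neg_of_mul_neg_right hy (Int.natCast_nonneg _)
    rcases sq_eq_one_iff.1 kx.1 with e | e <;> rcases sq_eq_one_iff.1 ky.1 with e' | e' <;>
      rw [e] at kx hy' <;> rw [e'] at ky hy'
    · omega
    · exact D.no_opp hb x.2 y.2 (cn x hx) (cn y ny) kx ky hl ly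
    · exact D.no_opp hb y.2 x.2 (cn y ny) (cn x hx) ky kx ly hl
    · omega).1
  refine ⟨n, a, b, c2, f4, by exact_mod_cast f3, ?_⟩
  obtain ⟨s, hs, s1'⟩ := S.bot_or_exists_ne_one.resolve_left fun e => by
    have := D.card; rw [e, Subgroup.card_bot] at this; omega
  have e := h2 s hs s1'
  rw [congrFun c2 s, Finset.sum_apply, sum_congr rfl (g := fun χ => (n χ : ℂ) * b χ) fun χ _ => by
    by_cases e : n χ = 0
    · simp [e]
    · simp [(f4 χ e).2.2 s hs s1']] at e
  exact_mod_cast e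

end Cfsg.Agent.U7
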